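import Cfsg.Agent.Lib.helper11d.Sl2a
import Cfsg.Agent.Lib.helper11.ChevBN
import Cfsg.Agent.Lib.helper11.ChevGL2
import Cfsg.Agent.Lib.helper11.ChevHAll
import Cfsg.Agent.Lib.helper11.ChevHOK
import Cfsg.Agent.Lib.helper11.ChevNOK
import Cfsg.Agent.S1033

/-! The homomorphism `SL₂(F) → ⟨X_r, X_{-r}⟩` of a Chevalley group. -/

set_option autoImplicit false

namespace Cfsg.Agent.Lib.helper11

open Cfsg Cfsg.Lie

/-- `A_{p,p} = 2` for the fundamental roots -/
def cartanSS (D : ChevalleyDatum) : Bool :=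
  (List.range D.rank).all fun i => decide (D.cartan i (D.simple i) = 2)

theorem cartanSS_of_mem (D : ChevalleyDatum)
    (hD : D ∈ [chevG2, chevB2, chevD4, chevF4, chevE6, chevE7, chevE8]) : cartanSS D = true := by
  simp only [List.mem_cons, List.not_mem_nil, or_false] at hD
  rcases hD with rfl | rfl | rfl | rfl | rfl | rfl | rfl <;> decide +kernel

theorem cartanSS_spec (D : ChevalleyDatum) (h : cartanSS D = true) (i : ℕ) (hi : i < D.rank) :
    D.cartan i (D.simple i) = 2 := by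
  unfold cartanSS at h
  rw [List.all_eq_true] at h
  simpa using h i (List.mem_range.mpr hi)

theorem eta_simple (D : ChevalleyDatum) (i : ℕ) (hN : nOK D i = true) :
    eta D i (D.simple i) = -1 := by
  unfold nOK at hN
  simp only [Bool.and_eq_true, decide_eq_true_eq] at hN
  exact hN.1.1.2

/-- the rank-one relations at a fundamental root -/
theorem rk1_simple {F : Type*} [Field F] (D : ChevalleyDatum)
    (hD : D ∈ [chevG2, chevB2, chevD4, chevF4, chevE6, chevE7, chevE8]) (i : ℕ)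
    (hi : i < D.rank) :
    Rk1 (xU (F := F) D hD (D.simple i)) (xU D hD (D.neg (D.simple i)))
      (nU D hD (D.simple i)) (hU D hD (D.simple i)) := by
  have hnx := nxAll_of_mem D hD
  have hc := hcert_of_mem D hD
  have hp := simple_lt D hc i hi
  have hN := ok_of_mem D hD i hi
  refine ⟨xU_add D hD _ hp, fun t => rfl, fun t => rfl, ?_, nU_inv D hD hnx _ hp, ?_, ?_⟩
  · intro s t hs ht
    apply Units.ext
    rw [Units.val_mul, hU_val, hU_val, hU_val]
    exact hMat_mul D hD hnx hc _ hp s t hs ht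
  · intro s
    have := nU_conj_x (F := F) D hD hnx i (D.simple i) hi hp s
    rw [refl_simple, eta_simple D i hN] at this
    rw [this]
    congr 1
    simp
  · intro a s ha
    rw [mul_inv_eq_iff_eq_mul]
    apply Units.ext
    rw [Units.val_mul, Units.val_mul, hU_val, xU_val, xU_val]
    have hm : D.hMat F (D.simple i) a = hdiag D (fun k => if k = i then 1 else 0) a := by
      rw [Cfsg.Agent.S1033.main D hD i hi a ha]
      unfold hdiag hexp
      congr 2
      funext v
      congr 1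
      simp only [ite_mul, one_mul, zero_mul]
      rw [Finset.sum_ite_eq' (Finset.range D.rank) i, if_pos (Finset.mem_range.mpr hi)]
    have he : hexp D (fun k => if k = i then 1 else 0) (D.simple i) = 2 := by
      unfold hexp
      simp only [ite_mul, one_mul, zero_mul]
      rw [Finset.sum_ite_eq' (Finset.range D.rank) i, if_pos (Finset.mem_range.mpr hi)]
      exact cartanSS_spec D (cartanSS_of_mem D hD) i hi
    rw [hm]
    have h1 := hdiag_eq_charDiag D (fun k => if k = i then 1 else 0) (Units.mk0 a ha)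
    rw [Units.val_mk0] at h1
    rw [h1]
    have h2 := Cfsg.Agent.S2157.result D hD _
      (isRootChar_hexp D hD (fun k => if k = i then 1 else 0) (Units.mk0 a ha)) (D.simple i) hp s
    simp only [Units.val_zpow_eq_zpow_val, Units.val_mk0] at h2
    rw [he] at h2
    have h3 : a ^ (2 : ℤ) = a ^ 2 := by norm_cast
    rw [h3] at h2
    rw [← h2, mul_assoc, charDiag_mul_inv, mul_one]

theorem rootSubgroup_eq {F : Type*} [Field F] (D : ChevalleyDatum)
    (hD : D ∈ [chevG2, chevB2, chevD4, chevF4, chevE6, chevE7, chevE8]) (r : ℕ) :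
    D.rootSubgroup F r = Subgroup.closure (Set.range (xU (F := F) D hD r)) := by
  unfold ChevalleyDatum.rootSubgroup
  congr 1
  ext g
  constructor
  · rintro ⟨t, ht⟩
    exact ⟨t, (eq_xU D hD r t g ht).symm⟩
  · rintro ⟨t, rfl⟩
    exact ⟨t, rfl⟩

theorem rootSubgroup_conj {F : Type*} [Field F] (D : ChevalleyDatum)
    (hD : D ∈ [chevG2, chevB2, chevD4, chevF4, chevE6, chevE7, chevE8]) (i s : ℕ)
    (hi : i < D.rank) (hs : s < D.nroots) :
    (D.rootSubgroup F s).map (MulAut.conj (nU (F := F) D hD (D.simple i) 1)).toMonoidHom =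
      D.rootSubgroup F (D.reflectRoot i s) := by
  have hnx := nxAll_of_mem D hD
  have hN := ok_of_mem D hD i hi
  have hη : ((eta D i s : ℤ) : F) * ((eta D i s : ℤ) : F) = 1 := by
    rcases eta_sign D i s hN hs with h | h <;> rw [h] <;> simp
  rw [rootSubgroup_eq D hD, rootSubgroup_eq D hD, MonoidHom.map_closure]
  congr 1
  ext g
  constructor
  · rintro ⟨_, ⟨t, rfl⟩, rfl⟩
    exact ⟨_, (nU_conj_x (F := F) D hD hnx i s hi hs t).symm⟩
  · rintro ⟨t, rfl⟩
    refine ⟨xU D hD s (((eta D i s : ℤ) : F) * t), ⟨_, rfl⟩, ?_⟩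
    show nU D hD (D.simple i) 1 * xU D hD s (((eta D i s : ℤ) : F) * t) *
      (nU D hD (D.simple i) 1)⁻¹ = _
    rw [nU_conj_x (F := F) D hD hnx i s hi hs, ← mul_assoc, hη, one_mul]

/-- the sign twist of `SL₂(F)` -/
def sl2twist {F : Type*} [Field F] (ε : F) (hε : ε * ε = 1) :
    Matrix.SpecialLinearGroup (Fin 2) F →* Matrix.SpecialLinearGroup (Fin 2) F where
  toFun g := ⟨!![g.1 0 0, ε * g.1 0 1; ε * g.1 1 0, g.1 1 1], by
    rw [Matrix.det_fin_two_of]
    have hdet := sl2_det g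
    linear_combination hdet - g.1 0 1 * g.1 1 0 * hε⟩
  map_one' := by
    apply Subtype.ext
    ext i j
    fin_cases i <;> fin_cases j <;> simp
  map_mul' g g' := by
    apply Subtype.ext
    show (!![(g.1 * g'.1) 0 0, ε * (g.1 * g'.1) 0 1; ε * (g.1 * g'.1) 1 0, (g.1 * g'.1) 1 1] :
      Matrix (Fin 2) (Fin 2) F) =
      !![g.1 0 0, ε * g.1 0 1; ε * g.1 1 0, g.1 1 1] *
        !![g'.1 0 0, ε * g'.1 0 1; ε * g'.1 1 0, g'.1 1 1]
    ext i j
    fin_cases i <;> fin_cases j <;> simp [Matrix.mul_apply, Fin.sum_univ_two]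
    · linear_combination (- g.1 0 1 * g'.1 1 0) * hε
    · ring
    · ring
    · linear_combination (- g.1 1 0 * g'.1 0 1) * hε

theorem sl2twist_val {F : Type*} [Field F] (ε : F) (hε : ε * ε = 1)
    (g : Matrix.SpecialLinearGroup (Fin 2) F) :
    (sl2twist ε hε g).1 = !![g.1 0 0, ε * g.1 0 1; ε * g.1 1 0, g.1 1 1] := rfl

theorem sl2twist_x {F : Type*} [Field F] (ε : F) (hε : ε * ε = 1) (t : F) :
    sl2twist ε hε (sl2x t) = sl2x (ε * t) := by
  apply Subtype.ext
  rw [sl2twist_val]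
  show (!![(!![1, t; 0, 1] : Matrix (Fin 2) (Fin 2) F) 0 0,
      ε * (!![1, t; 0, 1] : Matrix (Fin 2) (Fin 2) F) 0 1;
      ε * (!![1, t; 0, 1] : Matrix (Fin 2) (Fin 2) F) 1 0,
      (!![1, t; 0, 1] : Matrix (Fin 2) (Fin 2) F) 1 1] : Matrix (Fin 2) (Fin 2) F) =
    !![1, ε * t; 0, 1]
  simp

theorem sl2twist_y {F : Type*} [Field F] (ε : F) (hε : ε * ε = 1) (t : F) :
    sl2twist ε hε (sl2y t) = sl2y (ε * t) := by
  apply Subtype.ext
  rw [sl2twist_val]
  show (!![(!![1, 0; t, 1] : Matrix (Fin 2) (Fin 2) F) 0 0,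
      ε * (!![1, 0; t, 1] : Matrix (Fin 2) (Fin 2) F) 0 1;
      ε * (!![1, 0; t, 1] : Matrix (Fin 2) (Fin 2) F) 1 0,
      (!![1, 0; t, 1] : Matrix (Fin 2) (Fin 2) F) 1 1] : Matrix (Fin 2) (Fin 2) F) =
    !![1, 0; ε * t, 1]
  simp

theorem sl2twist_twist {F : Type*} [Field F] (ε : F) (hε : ε * ε = 1)
    (g : Matrix.SpecialLinearGroup (Fin 2) F) : sl2twist ε hε (sl2twist ε hε g) = g := by
  apply Subtype.ext
  rw [sl2twist_val, sl2twist_val]
  ext i j
  fin_cases i <;> fin_cases j <;> simp [← mul_assoc, hε]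

/-- the statement for a root -/
def Sl2P (F : Type*) [Field F] (D : ChevalleyDatum)
    (hD : D ∈ [chevG2, chevB2, chevD4, chevF4, chevE6, chevE7, chevE8]) (r : ℕ) : Prop :=
  ∃ φ : Matrix.SpecialLinearGroup (Fin 2) F →* GL D.Idx F,
    φ.range = D.rootSubgroup F r ⊔ D.rootSubgroup F (D.neg r) ∧
    (∀ t, φ (sl2x t) = xU D hD r t) ∧ (∀ t, φ (sl2y t) = xU D hD (D.neg r) t)

theorem sl2P_simple (F : Type*) [Field F] (D : ChevalleyDatum)
    (hD : D ∈ [chevG2, chevB2, chevD4, chevF4, chevE6, chevE7, chevE8]) (i : ℕ)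
    (hi : i < D.rank) : Sl2P F D hD (D.simple i) := by
  obtain ⟨φ, h1, h2, h3⟩ := rk1_hom (rk1_simple (F := F) D hD i hi)
  refine ⟨φ, ?_, h1, h2⟩
  rw [Subgroup.closure_union, ← rootSubgroup_eq D hD, ← rootSubgroup_eq D hD] at h3
  apply le_antisymm h3
  rw [rootSubgroup_eq D hD, rootSubgroup_eq D hD, ← Subgroup.closure_union, Subgroup.closure_le]
  rintro g (⟨t, rfl⟩ | ⟨t, rfl⟩)
  · exact ⟨sl2x t, h1 t⟩
  · exact ⟨sl2y t, h2 t⟩

theorem sl2P_step (F : Type*) [Field F] (D : ChevalleyDatum)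
    (hD : D ∈ [chevG2, chevB2, chevD4, chevF4, chevE6, chevE7, chevE8]) (i : ℕ)
    (hi : i < D.rank) (s : ℕ) (hs : s < D.nroots) (h : Sl2P F D hD s) :
    Sl2P F D hD (D.reflectRoot i s) := by
  have hnx := nxAll_of_mem D hD
  have hN := ok_of_mem D hD i hi
  have hns := neg_lt' D hD hnx s hs
  have hη : ((eta D i s : ℤ) : F) * ((eta D i s : ℤ) : F) = 1 := by
    rcases eta_sign D i s hN hs with h | h <;> rw [h] <;> simp
  obtain ⟨φ, h1, h2, h3⟩ := h
  have hneg : D.reflectRoot i (D.neg s) = D.neg (D.reflectRoot i s) :=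
    refl_neg D i s ((hnx i hi).2 s hs)
  refine ⟨(MulAut.conj (nU (F := F) D hD (D.simple i) 1)).toMonoidHom.comp
    (φ.comp (sl2twist _ hη)), ?_, ?_, ?_⟩
  · have e : ((MulAut.conj (nU (F := F) D hD (D.simple i) 1)).toMonoidHom.comp
        (φ.comp (sl2twist _ hη))).range =
        (φ.range).map (MulAut.conj (nU (F := F) D hD (D.simple i) 1)).toMonoidHom := by
      ext g
      constructor
      · rintro ⟨x, rfl⟩
        exact ⟨φ (sl2twist _ hη x), ⟨_, rfl⟩, rfl⟩
      · rintro ⟨_, ⟨x, rfl⟩, rfl⟩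
        refine ⟨sl2twist _ hη x, ?_⟩
        show (MulAut.conj (nU (F := F) D hD (D.simple i) 1)).toMonoidHom
          (φ (sl2twist _ hη (sl2twist _ hη x))) = _
        rw [sl2twist_twist]
    rw [e, h1, Subgroup.map_sup, rootSubgroup_conj D hD i s hi hs,
      rootSubgroup_conj D hD i _ hi hns, hneg]
  · intro t
    show nU D hD (D.simple i) 1 * φ (sl2twist _ hη (sl2x t)) * (nU D hD (D.simple i) 1)⁻¹ = _
    rw [sl2twist_x, h2, nU_conj_x (F := F) D hD hnx i s hi hs, ← mul_assoc, hη, one_mul]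
  · intro t
    show nU D hD (D.simple i) 1 * φ (sl2twist _ hη (sl2y t)) * (nU D hD (D.simple i) 1)⁻¹ = _
    rw [sl2twist_y, h3, nU_conj_x (F := F) D hD hnx i _ hi hns, hneg, eta_neg D i s hN hs,
      ← mul_assoc, hη, one_mul]

theorem sl2P_all (F : Type*) [Field F] (D : ChevalleyDatum)
    (hD : D ∈ [chevG2, chevB2, chevD4, chevF4, chevE6, chevE7, chevE8]) (r : ℕ)
    (hr : r < D.nroots) : Sl2P F D hD r := by
  have hnx := nxAll_of_mem D hD
  have hc := hcert_of_mem D hD
  exact root_induction D (fun i hi => (hnx i hi).1) hc.1 (Sl2P F D hD)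
    (fun j hj => sl2P_simple F D hD j hj)
    (fun i hi s hs h => sl2P_step F D hD i hi s hs h) r hr

end Cfsg.Agent.Lib.helper11
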