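import Cfsg.Agent.Lib.helper11d.Lang1
import Cfsg.Agent.Lib.helper11d.Cen3
import Cfsg.Agent.Lib.helper11.ChevW0OK
import Cfsg.Agent.Lib.helper11c.Gen1
import Cfsg.Agent.Lib.helper11c.Diag1
import Cfsg.Agent.Lib.helper11d.Sl2b

/-! Automorphisms of a finite Chevalley group: normalization by inner automorphisms so that
`U` and `U⁻` are stabilized. -/

set_option autoImplicit false

namespace Cfsg.Agent.Lib.helper11

open Cfsg Cfsg.Lie Cfsg.Agent.Lib.helper2
open scoped Pointwise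

variable {F : Type*} [Field F]

/-- a monomial element outside `B` makes some fundamental root negative -/
theorem aut_mono_neg (D : ChevalleyDatum)
    (hD : D ∈ [chevG2, chevB2, chevD4, chevF4, chevE6, chevE7, chevE8])
    (n : GL D.Idx F) (hn : n ∈ D.monomialSubgroup F) (hnB : n ∉ D.borelSubgroup F) :
    ∃ i < D.rank, ∀ t : F, n * xU D hD (D.simple i) t * n⁻¹ ∈ D.negUnipotent F := by
  obtain ⟨hnx, hcert, htri, hup, hcm'⟩ := certs_of_mem F D hD
  obtain ⟨hBG, hNG, -⟩ := Cfsg.Agent.S1043.main0 (F := F) D hD hnx hcert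
  obtain ⟨P, hB, hN, hS⟩ := exists_bn D hD hnx hcert htri hup hcm'
  have memB : ∀ x : ↥(D.group F), x ∈ P.B ↔ (x : GL D.Idx F) ∈ D.borelSubgroup F := by
    intro x
    rw [hB, Subgroup.mem_subgroupOf]
  have hninv : n⁻¹ ∈ D.monomialSubgroup F := inv_mem hn
  have hmemN : (⟨n⁻¹, hNG hninv⟩ : ↥(D.group F)) ∈ P.N := by
    rw [hN, Subgroup.mem_subgroupOf]
    exact hninv
  let nN : P.N := ⟨⟨n⁻¹, hNG hninv⟩, hmemN⟩
  have hnN : ((nN : ↥(D.group F)) : GL D.Idx F) = n⁻¹ := rfl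
  have hw : BN.π P nN ≠ 1 := by
    intro hw
    rw [BN.π_eq_one_iff, memB, hnN] at hw
    apply hnB
    have := inv_mem hw
    rwa [inv_inv] at this
  obtain ⟨l, hl, hlen'⟩ := BN.exists_reduced P (BN.π P nN)
  cases l with
  | nil => exact absurd hl.symm hw
  | cons s l' =>
    have hred : BN.Red P (s :: l') := by
      unfold BN.Red
      rw [hl, hlen']
    have hQ := BN.Red.Q_head P hred
    rw [hl] at hQ
    have hsS : (s : ↥(D.group F)) ∈ {n : ↥(D.group F) | ∃ i < D.rank,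
        ((n : GL D.Idx F) : Matrix D.Idx D.Idx F) = D.nMat F (D.simple i) 1} := by
      rw [← hS]
      exact s.2
    obtain ⟨i, hi, hsi⟩ := hsS
    have hs : ((s : ↥(D.group F)) : GL D.Idx F) = nU D hD (D.simple i) 1 :=
      Units.ext (by rw [hsi, nU_val])
    refine ⟨i, hi, fun t => ?_⟩
    have h3 := Q_neg D hD hnx hcert htri hup hcm' P hB hN i hi s hs nN hQ t
    rw [hnN, inv_inv] at h3
    exact h3

theorem aut_pos_neg_one (D : ChevalleyDatum)
    (hD : D ∈ [chevG2, chevB2, chevD4, chevF4, chevE6, chevE7, chevE8])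
    (x : GL D.Idx F) (h1 : x ∈ D.posUnipotent F) (h2 : x ∈ D.negUnipotent F) : x = 1 := by
  obtain ⟨hnx, hcert, htri, hup, hcm'⟩ := certs_of_mem F D hD
  have h5 : x ∈ D.borelSubgroup F ⊓ D.negUnipotent F :=
    ⟨(le_sup_left : D.posUnipotent F ≤ D.borelSubgroup F) h1, h2⟩
  rwa [borel_inf_neg D hD hnx hcert htri, Subgroup.mem_bot] at h5

theorem aut_borel_norm (D : ChevalleyDatum)
    (hD : D ∈ [chevG2, chevB2, chevD4, chevF4, chevE6, chevE7, chevE8])
    (b u : GL D.Idx F) (hb : b ∈ D.borelSubgroup F) (hu : u ∈ D.posUnipotent F) :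
    b * u * b⁻¹ ∈ D.posUnipotent F := by
  obtain ⟨hnx, hcert, htri, hup, hcm'⟩ := certs_of_mem F D hD
  have hBn : D.borelSubgroup F ≤ Subgroup.normalizer (D.posUnipotent F : Set (GL D.Idx F)) :=
    sup_le Subgroup.le_normalizer (diag_le_normalizer_pos D hD hnx hcert)
  exact (Subgroup.mem_normalizer_iff.mp (hBn hb) u).mp hu

/-- the normalizer of `U` in the group is contained in `B` -/
theorem aut_norm_pos (D : ChevalleyDatum)
    (hD : D ∈ [chevG2, chevB2, chevD4, chevF4, chevE6, chevE7, chevE8])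
    (g : GL D.Idx F) (hg : g ∈ D.group F)
    (h : ∀ u ∈ D.posUnipotent F, g * u * g⁻¹ ∈ D.posUnipotent F) : g ∈ D.borelSubgroup F := by
  obtain ⟨hnx, hcert, htri, hup, hcm'⟩ := certs_of_mem F D hD
  obtain ⟨b, hb, n, hn, u, hu, e⟩ := bruhat_exists D hD hnx hcert htri hup hcm' g hg
  have hu' := SnSet_le_pos D hD n hu
  have hUB : D.posUnipotent F ≤ D.borelSubgroup F := le_sup_left
  by_contra hgB
  have hnB : n ∉ D.borelSubgroup F := by
    intro hnB
    apply hgB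
    rw [e]
    exact mul_mem (mul_mem hb hnB) (hUB hu')
  obtain ⟨i, hi, hneg⟩ := aut_mono_neg D hD n hn hnB
  have hpos : D.IsPosRoot (D.simple i) := (hcert.2 i hi).2
  have h1 : n * xU D hD (D.simple i) 1 * n⁻¹ ∈ D.posUnipotent F := by
    have e1 : n * xU D hD (D.simple i) 1 * n⁻¹ =
        b⁻¹ * (g * (u⁻¹ * xU D hD (D.simple i) 1 * u) * g⁻¹) * b⁻¹⁻¹ := by
      rw [e]; group
    rw [e1]
    have h2 : u⁻¹ * xU D hD (D.simple i) 1 * u ∈ D.posUnipotent F :=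
      mul_mem (mul_mem (inv_mem hu') (xU_mem_pos D hD _ hpos 1)) hu'
    exact aut_borel_norm D hD _ _ (inv_mem hb) (h _ h2)
  have h5 := aut_pos_neg_one D hD _ h1 (hneg 1)
  have h6 : xU D hD (D.simple i) (1 : F) = 1 := by
    have h7 : xU D hD (D.simple i) (1 : F) =
        n⁻¹ * (n * xU D hD (D.simple i) 1 * n⁻¹) * n := by group
    rw [h7, h5]
    group
  exact one_ne_zero (α := F) (xU_eq_one D hD _ hpos.1 _ h6)

/-- a monomial element moving no positive root element into `U` swaps `U` and `U⁻` -/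
theorem aut_conj_swap (D : ChevalleyDatum)
    (hD : D ∈ [chevG2, chevB2, chevD4, chevF4, chevE6, chevE7, chevE8])
    (n : GL D.Idx F) (hn : n ∈ D.monomialSubgroup F)
    (h : ∀ r, D.IsPosRoot r → n * xU D hD r 1 * n⁻¹ ∉ D.posUnipotent F) :
    (∀ u ∈ D.posUnipotent F, n * u * n⁻¹ ∈ D.negUnipotent F) ∧
    (∀ v ∈ D.negUnipotent F, n * v * n⁻¹ ∈ D.posUnipotent F) := by
  obtain ⟨hnx, hcert, htri, hup, hcm'⟩ := certs_of_mem F D hD
  have key : ∀ r, D.IsPosRoot r → (∀ t : F, n * xU D hD r t * n⁻¹ ∈ D.negUnipotent F) ∧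
      (∀ t : F, n * xU D hD (D.neg r) t * n⁻¹ ∈ D.posUnipotent F) := by
    intro r hr
    rcases mono_conj_dichotomy D hD hnx hcert htri n hn r hr.1 with ⟨h1, -⟩ | h2
    · exact absurd (h1 1) (h r hr)
    · exact h2
  constructor
  · intro u hu
    have hle : D.posUnipotent F ≤ (D.negUnipotent F).comap (MulAut.conj n).toMonoidHom := by
      unfold ChevalleyDatum.posUnipotent
      rw [Subgroup.closure_le]
      rintro x ⟨r, t, hr, hx⟩
      rw [eq_xU D hD r t x hx]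
      exact (key r hr).1 t
    exact hle hu
  · intro v hv
    have hle : D.negUnipotent F ≤ (D.posUnipotent F).comap (MulAut.conj n).toMonoidHom := by
      unfold ChevalleyDatum.negUnipotent
      rw [Subgroup.closure_le]
      rintro x ⟨s, t, hs, hx⟩
      rw [eq_xU D hD s t x hx]
      have hr : D.IsPosRoot (D.neg s) := pos_of_neg D hD hnx htri s hs
      have hnn : D.neg (D.neg s) = s := by
        have e1 := negRev_spec D (negRev_of_mem D hD) s hs.1
        have e2 := negRev_spec D (negRev_of_mem D hD) (D.neg s) hr.1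
        have e3 := hs.1
        have e4 := hr.1
        omega
      have h3 := (key _ hr).2 t
      rw [hnn] at h3
      exact h3
    exact hle hv

/-- the four conjugation properties of a representative of the longest element -/
theorem aut_w0_props (D : ChevalleyDatum)
    (hD : D ∈ [chevG2, chevB2, chevD4, chevF4, chevE6, chevE7, chevE8])
    (n₀ : GL D.Idx F) (hn₀ : n₀ ∈ D.monomialSubgroup F)
    (hmap : (D.posUnipotent F).map (MulAut.conj n₀).toMonoidHom = D.negUnipotent F) :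
    (∀ u ∈ D.posUnipotent F, n₀ * u * n₀⁻¹ ∈ D.negUnipotent F) ∧
    (∀ v ∈ D.negUnipotent F, n₀ * v * n₀⁻¹ ∈ D.posUnipotent F) ∧
    (∀ u ∈ D.posUnipotent F, n₀⁻¹ * u * n₀ ∈ D.negUnipotent F) ∧
    (∀ v ∈ D.negUnipotent F, n₀⁻¹ * v * n₀ ∈ D.posUnipotent F) := by
  have p1 : ∀ u ∈ D.posUnipotent F, n₀ * u * n₀⁻¹ ∈ D.negUnipotent F := by
    intro u hu
    rw [← hmap]
    exact ⟨u, hu, rfl⟩
  have p4 : ∀ v ∈ D.negUnipotent F, n₀⁻¹ * v * n₀ ∈ D.posUnipotent F := by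
    intro v hv
    rw [← hmap] at hv
    obtain ⟨u, hu, rfl⟩ := hv
    have e : n₀⁻¹ * ((MulAut.conj n₀).toMonoidHom u) * n₀ = u := by
      show n₀⁻¹ * (n₀ * u * n₀⁻¹) * n₀ = u
      group
    rw [e]
    exact hu
  have hne : ∀ r, D.IsPosRoot r → xU D hD r (1 : F) ≠ 1 := fun r hr h =>
    one_ne_zero (α := F) (xU_eq_one D hD _ hr.1 _ h)
  have a1 : ∀ r, D.IsPosRoot r → n₀ * xU D hD r 1 * n₀⁻¹ ∉ D.posUnipotent F := by
    intro r hr hmem
    have h5 := aut_pos_neg_one D hD _ hmem (p1 _ (xU_mem_pos D hD r hr 1))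
    apply hne r hr
    have h7 : xU D hD r (1 : F) = n₀⁻¹ * (n₀ * xU D hD r 1 * n₀⁻¹) * n₀ := by group
    rw [h7, h5]
    group
  have a2 : ∀ r, D.IsPosRoot r → n₀⁻¹ * xU D hD r 1 * n₀⁻¹⁻¹ ∉ D.posUnipotent F := by
    intro r hr hmem
    have h6 := p1 _ hmem
    have e : n₀ * (n₀⁻¹ * xU D hD r 1 * n₀⁻¹⁻¹) * n₀⁻¹ = xU D hD r (1 : F) := by group
    rw [e] at h6
    exact hne r hr (aut_pos_neg_one D hD _ (xU_mem_pos D hD r hr 1) h6)
  have s1 := aut_conj_swap D hD n₀ hn₀ a1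
  have s2 := aut_conj_swap D hD n₀⁻¹ (inv_mem hn₀) a2
  refine ⟨p1, s1.2, ?_, p4⟩
  intro u hu
  have := s2.1 u hu
  rwa [inv_inv] at this

/-- existence of a representative of the longest element -/
theorem aut_w0 (D : ChevalleyDatum)
    (hD : D ∈ [chevG2, chevB2, chevD4, chevF4, chevE6, chevE7, chevE8]) :
    ∃ n₀ ∈ D.monomialSubgroup F,
    (∀ u ∈ D.posUnipotent F, n₀ * u * n₀⁻¹ ∈ D.negUnipotent F) ∧
    (∀ v ∈ D.negUnipotent F, n₀ * v * n₀⁻¹ ∈ D.posUnipotent F) ∧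
    (∀ u ∈ D.posUnipotent F, n₀⁻¹ * u * n₀ ∈ D.negUnipotent F) ∧
    (∀ v ∈ D.negUnipotent F, n₀⁻¹ * v * n₀ ∈ D.posUnipotent F) := by
  obtain ⟨hnx, hcert, htri, hup, hcm'⟩ := certs_of_mem F D hD
  obtain ⟨l, hl, hrow⟩ := w0_of_mem D hD
  obtain ⟨n₀, hn₀, hmap⟩ := w0_of_rows (F := F) D hD hnx hcert l hl hrow
  exact ⟨n₀, hn₀, aut_w0_props D hD n₀ hn₀ hmap⟩

/-- a monomial element in `U⁻ B` lies in `B` -/
theorem aut_NUB (D : ChevalleyDatum)
    (hD : D ∈ [chevG2, chevB2, chevD4, chevF4, chevE6, chevE7, chevE8])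
    (m y b : GL D.Idx F) (hm : m ∈ D.monomialSubgroup F) (hy : y ∈ D.negUnipotent F)
    (hb : b ∈ D.borelSubgroup F) (e : m = y * b) : m ∈ D.borelSubgroup F := by
  obtain ⟨hnx, hcert, htri, hup, hcm'⟩ := certs_of_mem F D hD
  obtain ⟨hBG, hNG, -⟩ := Cfsg.Agent.S1043.main0 (F := F) D hD hnx hcert
  obtain ⟨P, hB, hN, hS⟩ := exists_bn D hD hnx hcert htri hup hcm'
  have memB : ∀ x : ↥(D.group F), x ∈ P.B ↔ (x : GL D.Idx F) ∈ D.borelSubgroup F := by
    intro x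
    rw [hB, Subgroup.mem_subgroupOf]
  have memN : ∀ x : ↥(D.group F), x ∈ P.N ↔ (x : GL D.Idx F) ∈ D.monomialSubgroup F := by
    intro x
    rw [hN, Subgroup.mem_subgroupOf]
  obtain ⟨n₀, hn₀, -, -, -, p4⟩ := aut_w0 (F := F) D hD
  have hUB : D.posUnipotent F ≤ D.borelSubgroup F := le_sup_left
  have hn₀i : n₀⁻¹ ∈ D.monomialSubgroup F := inv_mem hn₀
  let a : ↥(D.group F) := ⟨n₀⁻¹ * m, hNG (mul_mem hn₀i hm)⟩
  let c : ↥(D.group F) := ⟨n₀⁻¹, hNG hn₀i⟩
  have haN : a ∈ P.N := (memN a).mpr (mul_mem hn₀i hm)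
  have hcN : c ∈ P.N := (memN c).mpr hn₀i
  have hdc : BN.DC P a c := by
    refine ⟨⟨n₀⁻¹ * y * n₀, hBG (hUB (p4 y hy))⟩, (memB _).mpr (hUB (p4 y hy)),
      ⟨b, hBG hb⟩, (memB _).mpr hb, ?_⟩
    apply Subtype.ext
    show n₀⁻¹ * m = n₀⁻¹ * y * n₀ * n₀⁻¹ * b
    rw [e]
    group
  have h1 := (BN.dc_iff_of_mem_N P haN hcN).mp hdc
  rw [memB] at h1
  have h2 : ((a⁻¹ * c : ↥(D.group F)) : GL D.Idx F) = m⁻¹ := by
    show (n₀⁻¹ * m)⁻¹ * n₀⁻¹ = m⁻¹
    group
  rw [h2] at h1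
  have := inv_mem h1
  rwa [inv_inv] at this

/-- on a finite set, a stabilizing permutation reflects membership -/
theorem aut_iff_of_imp {G : Type*} [Finite G] (θ : G ≃ G) (S : Set G)
    (h : ∀ g, g ∈ S → θ g ∈ S) : ∀ g, θ g ∈ S → g ∈ S := by
  intro g hg
  let f : S → S := fun x => ⟨θ x, h x x.2⟩
  have hf : Function.Injective f := fun a b hab =>
    Subtype.ext (θ.injective (congrArg Subtype.val hab))
  obtain ⟨x, hx⟩ := Finite.surjective_of_injective hf ⟨θ g, hg⟩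
  have h1 : θ x = θ g := congrArg Subtype.val hx
  rw [← θ.injective h1]
  exact x.2

end Cfsg.Agent.Lib.helper11
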