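import Cfsg.Agent.Lib.helper11d.Aut9

/-! Diagonal automorphisms modulo inner automorphisms, and the outer automorphism groups of
the Chevalley groups whose Dynkin diagram has no symmetry. -/

set_option autoImplicit false

namespace Cfsg.Agent.Lib.helper11

open Cfsg Cfsg.Lie Cfsg.Agent.Lib.helper2
open scoped Pointwise

variable {F : Type*} [Field F]

theorem aut_prod_zpow' {G : Type*} [CommGroup G] {ι : Type*} (s : Finset ι) (c : G)
    (f : ι → ℤ) : ∏ i ∈ s, c ^ f i = c ^ ∑ i ∈ s, f i := by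
  classical
  induction s using Finset.induction_on with
  | empty => simp
  | insert a s ha ih => rw [Finset.prod_insert ha, Finset.sum_insert ha, ih, zpow_add]

theorem list_sum_range_finset (n : ℕ) (f : ℕ → ℤ) :
    ((List.range n).map f).sum = ∑ j ∈ Finset.range n, f j := by
  induction n with
  | zero => simp
  | succ n ih =>
    rw [List.range_succ, List.map_append, List.sum_append, ih, Finset.sum_range_succ]
    simp

/-- the modified inverse Cartan table -/
def bpp (D : ChevalleyDatum) (l : ℕ) (e : List ℤ) (j0 j k : ℕ) : ℤ :=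
  (((cinvB D).getD j []).getD k 0 - e.getD j 0 * ((cinvB D).getD j0 []).getD k 0) / (l : ℤ)

/-- certificate for the computation of the diagonal automorphisms modulo the inner ones -/
structure OutCert (D : ChevalleyDatum) (l : ℕ) (e : List ℤ) (j0 : ℕ) : Prop where
  hj0 : j0 < D.rank
  he : e.getD j0 0 = 1
  c1 : ∀ k < D.rank,
    ((List.range D.rank).map fun j => D.cartan k (D.simple j) * e.getD j 0).sum % (l : ℤ) = 0
  c2 : ∀ i < D.rank, ∀ j < D.rank,
    ((List.range D.rank).map fun k => bpp D l e j0 j k * D.cartan k (D.simple i)).sum =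
      (if j = i then 1 else 0) - e.getD j 0 * (if i = j0 then 1 else 0)
  c3 : ∀ i < D.rank,
    ((List.range D.rank).map fun k =>
      ((cinvB D).getD j0 []).getD k 0 * D.cartan k (D.simple i)).sum =
      (l : ℤ) * (if i = j0 then 1 else 0)

/-- the invariant of a family of units -/
def epsC (D : ChevalleyDatum) (e : List ℤ) (c : ℕ → Fˣ) : Fˣ :=
  ∏ j ∈ Finset.range D.rank, c j ^ e.getD j 0

/-- the characters of the elements of `H` have invariant an `l`-th power -/
theorem out_diag_eps (D : ChevalleyDatum)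
    (hD : D ∈ [chevG2, chevB2, chevD4, chevF4, chevE6, chevE7, chevE8])
    (l : ℕ) (e : List ℤ) (j0 : ℕ) (hC : OutCert D l e j0)
    (g : GL D.Idx F) (hg : g ∈ D.diagonalSubgroup F) :
    ∃ χ : ℕ → Fˣ, D.IsRootCharacter χ ∧ (g : Matrix D.Idx D.Idx F) = D.charDiag F χ ∧
      ∃ s : Fˣ, epsC D e (fun j => χ (D.simple j)) = s ^ l := by
  obtain ⟨hnx, hcert, htri, hup, hcm'⟩ := certs_of_mem F D hD
  unfold ChevalleyDatum.diagonalSubgroup at hg
  have hw : ∀ k ∈ Finset.range D.rank, ∃ w : ℤ,
      ∑ j ∈ Finset.range D.rank, D.cartan k (D.simple j) * e.getD j 0 = (l : ℤ) * w := by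
    intro k hk
    have h1 := hC.c1 k (Finset.mem_range.mp hk)
    rw [list_sum_range_finset] at h1
    exact Int.dvd_of_emod_eq_zero h1
  choose! w hw using hw
  have gen : ∀ (r : ℕ) (t : F), r < D.nroots → t ≠ 0 →
      ∃ χ : ℕ → Fˣ, D.IsRootCharacter χ ∧ D.hMat F r t = D.charDiag F χ ∧
        ∃ s : Fˣ, epsC D e (fun j => χ (D.simple j)) = s ^ l := by
    intro r t hr ht
    obtain ⟨m, hm⟩ := hgood_all F D hD hnx hcert r hr
    refine ⟨fun v => (Units.mk0 t ht) ^ hexp D m v, isRootChar_hexp D hD m _, ?_, ?_⟩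
    · rw [hm t ht, ← hdiag_eq_charDiag, Units.val_mk0]
    · refine ⟨(Units.mk0 t ht) ^ (∑ k ∈ Finset.range D.rank, m k * w k), ?_⟩
      unfold epsC
      have e1 : ∀ j ∈ Finset.range D.rank,
          ((Units.mk0 t ht) ^ hexp D m (D.simple j)) ^ e.getD j 0 =
          (Units.mk0 t ht) ^ (hexp D m (D.simple j) * e.getD j 0) :=
        fun j _ => (zpow_mul _ _ _).symm
      rw [Finset.prod_congr rfl e1, aut_prod_zpow', ← zpow_natCast, ← zpow_mul]
      congr 1
      unfold hexp
      have e2 : ∀ j ∈ Finset.range D.rank,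
          (∑ k ∈ Finset.range D.rank, m k * D.cartan k (D.simple j)) * e.getD j 0 =
          ∑ k ∈ Finset.range D.rank, m k * (D.cartan k (D.simple j) * e.getD j 0) := by
        intro j _
        rw [Finset.sum_mul]
        apply Finset.sum_congr rfl
        intro k _
        rw [mul_assoc]
      rw [Finset.sum_congr rfl e2, Finset.sum_comm, Finset.sum_mul]
      apply Finset.sum_congr rfl
      intro k hk
      rw [← Finset.mul_sum, hw k hk]
      ring
  induction hg using Subgroup.closure_induction'' with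
  | mem x hx =>
    obtain ⟨r, t, hr, ht, hx⟩ := hx
    rw [hx]
    exact gen r t hr ht
  | inv_mem x hx =>
    obtain ⟨r, t, hr, ht, hx⟩ := hx
    rw [eq_hU D hD r t x hx, hU_inv D hD hnx hcert r hr t ht, hU_val]
    exact gen r t⁻¹ hr (inv_ne_zero ht)
  | one =>
    refine ⟨fun _ => 1, ⟨fun r _ => by simp, fun _ _ _ _ _ _ => by simp⟩, ?_, 1, ?_⟩
    · rw [charDiag_eq_one D _ (fun _ _ => rfl)]
      rfl
    · unfold epsC
      simp
  | mul x y _ _ hx hy =>
    obtain ⟨χ, hχ, ex, s, hs⟩ := hx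
    obtain ⟨ψ, hψ, ey, s', hs'⟩ := hy
    refine ⟨fun v => χ v * ψ v, ⟨fun r hr => ?_, fun r s k hr hs hk => ?_⟩, ?_, s * s', ?_⟩
    · simp only
      rw [hχ.1 r hr, hψ.1 r hr, mul_inv]
    · simp only
      rw [hχ.2 r s k hr hs hk, hψ.2 r s k hr hs hk, mul_mul_mul_comm]
    · rw [Units.val_mul, ex, ey, charDiag_mul]
    · rw [mul_pow, ← hs, ← hs']
      unfold epsC
      rw [← Finset.prod_mul_distrib]
      apply Finset.prod_congr rfl
      intro j _
      rw [mul_zpow]

/-- two diagonal automorphisms whose invariants differ by an `l`-th power differ by an inner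
automorphism -/
theorem out_diag_conj (D : ChevalleyDatum)
    (hD : D ∈ [chevG2, chevB2, chevD4, chevF4, chevE6, chevE7, chevE8])
    (l : ℕ) (e : List ℤ) (j0 : ℕ) (hC : OutCert D l e j0)
    (χ χ' : ℕ → Fˣ) (hχ : D.IsRootCharacter χ) (hχ' : D.IsRootCharacter χ') (s : Fˣ)
    (hε : epsC D e (fun j => χ (D.simple j)) = epsC D e (fun j => χ' (D.simple j)) * s ^ l) :
    ∃ h : ↥(D.group F), ∀ y : ↥(D.group F),
      diagAut D hD χ hχ y = h * diagAut D hD χ' hχ' y * h⁻¹ := by
  obtain ⟨hnx, hcert, htri, hup, hcm'⟩ := certs_of_mem F D hD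
  obtain ⟨c, hc⟩ : ∃ c : ℕ → Fˣ, c = fun j => χ (D.simple j) * (χ' (D.simple j))⁻¹ := ⟨_, rfl⟩
  have hεc : ∏ j ∈ Finset.range D.rank, c j ^ e.getD j 0 = s ^ l := by
    unfold epsC at hε
    have e0 : ∀ j ∈ Finset.range D.rank, c j ^ e.getD j 0 =
        χ (D.simple j) ^ e.getD j 0 * (χ' (D.simple j) ^ e.getD j 0)⁻¹ := by
      intro j _
      rw [hc]
      show (χ (D.simple j) * (χ' (D.simple j))⁻¹) ^ e.getD j 0 = _
      rw [mul_zpow, inv_zpow]
    rw [Finset.prod_congr rfl e0, Finset.prod_mul_distrib, Finset.prod_inv_distrib, hε,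
      mul_comm, ← mul_assoc, inv_mul_cancel, one_mul]
  obtain ⟨t, ht⟩ : ∃ t : ℕ → Fˣ, t = fun k =>
      (∏ j ∈ Finset.range D.rank, c j ^ bpp D l e j0 j k) *
        s ^ ((cinvB D).getD j0 []).getD k 0 := ⟨_, rfl⟩
  have key : ∀ i < D.rank,
      ∏ k ∈ Finset.range D.rank, t k ^ D.cartan k (D.simple i) = c i := by
    intro i hi
    have e1 : ∀ k ∈ Finset.range D.rank, t k ^ D.cartan k (D.simple i) =
        (∏ j ∈ Finset.range D.rank, c j ^ (bpp D l e j0 j k * D.cartan k (D.simple i))) *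
          s ^ (((cinvB D).getD j0 []).getD k 0 * D.cartan k (D.simple i)) := by
      intro k _
      rw [ht]
      show ((∏ j ∈ Finset.range D.rank, c j ^ bpp D l e j0 j k) *
        s ^ ((cinvB D).getD j0 []).getD k 0) ^ D.cartan k (D.simple i) = _
      rw [mul_zpow, ← Finset.prod_zpow, ← zpow_mul]
      congr 1
      apply Finset.prod_congr rfl
      intro j _
      rw [zpow_mul]
    rw [Finset.prod_congr rfl e1, Finset.prod_mul_distrib, Finset.prod_comm, aut_prod_zpow',
      ← list_sum_range_finset, hC.c3 i hi]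
    have e2 : ∀ j ∈ Finset.range D.rank,
        ∏ k ∈ Finset.range D.rank, c j ^ (bpp D l e j0 j k * D.cartan k (D.simple i)) =
        (if j = i then c j else 1) *
          ((c j ^ e.getD j 0) ^ (if i = j0 then (1 : ℤ) else 0))⁻¹ := by
      intro j hj
      rw [aut_prod_zpow', ← list_sum_range_finset, hC.c2 i hi j (Finset.mem_range.mp hj),
        zpow_sub, zpow_mul]
      by_cases hji : j = i
      · rw [if_pos hji, if_pos hji, zpow_one]
      · rw [if_neg hji, if_neg hji, zpow_zero]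
    rw [Finset.prod_congr rfl e2, Finset.prod_mul_distrib, Finset.prod_inv_distrib,
      Finset.prod_zpow, Finset.prod_ite_eq' (Finset.range D.rank) i (fun j => c j),
      if_pos (Finset.mem_range.mpr hi), hεc, zpow_mul, zpow_natCast, inv_mul_cancel_right]
  refine ⟨hProd D hD t D.rank, fun y => ?_⟩
  have hmain := hom_ext_simple D hD hnx hcert (diagAut D hD χ hχ).toMonoidHom
    ((MulAut.conj (hProd D hD t D.rank) * diagAut D hD χ' hχ').toMonoidHom) ?_ y
  · exact hmain
  intro y i u hi hy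
  show diagAut D hD χ hχ y = (MulAut.conj (hProd D hD t D.rank) * diagAut D hD χ' hχ') y
  rw [MulAut.mul_apply, MulAut.conj_apply]
  have hlt := simple_lt D hcert i hi
  have hlt' := neg_lt' D hD hnx _ hlt
  have hci : c i * χ' (D.simple i) = χ (D.simple i) := by
    rw [hc]
    show χ (D.simple i) * (χ' (D.simple i))⁻¹ * χ' (D.simple i) = _
    rw [inv_mul_cancel_right]
  rcases hy with hy | hy
  · have hy' : y = xG D hD (D.simple i) u := Subtype.ext (Units.ext hy)
    rw [hy', diagAut_xG D hD χ hχ _ hlt, diagAut_xG D hD χ' hχ' _ hlt,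
      hProd_conj D hD t D.rank le_rfl _ hlt, key i hi, ← mul_assoc, ← Units.val_mul, hci]
  · have hy' : y = xG D hD (D.neg (D.simple i)) u := Subtype.ext (Units.ext hy)
    rw [hy', diagAut_xG D hD χ hχ _ hlt', diagAut_xG D hD χ' hχ' _ hlt',
      hProd_conj D hD t D.rank le_rfl _ hlt']
    have e4 : ∏ k ∈ Finset.range D.rank, t k ^ D.cartan k (D.neg (D.simple i)) = (c i)⁻¹ := by
      rw [← key i hi, ← Finset.prod_inv_distrib]
      apply Finset.prod_congr rfl
      intro k hk
      rw [cartan_neg D hD k (Finset.mem_range.mp hk) _ hlt, zpow_neg]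
    rw [e4, hχ.1 _ hlt, hχ'.1 _ hlt, ← mul_assoc, ← Units.val_mul, ← mul_inv, hci]

/-- an element acting on every root subgroup through a scalar and a field automorphism -/
theorem out_inner_diag (D : ChevalleyDatum)
    (hD : D ∈ [chevG2, chevB2, chevD4, chevF4, chevE6, chevE7, chevE8])
    (l : ℕ) (e : List ℤ) (j0 : ℕ) (hC : OutCert D l e j0)
    (x : ↥(D.group F)) (ψ : ℕ → Fˣ) (ρ : F ≃+* F)
    (h : ∀ r < D.nroots, ∀ t : F, x * xG D hD r t * x⁻¹ = xG D hD r ((ψ r : F) * ρ t)) :
    (∀ t, ρ t = t) ∧ ∃ s : Fˣ, epsC D e (fun j => ψ (D.simple j)) = s ^ l := by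
  obtain ⟨hnx, hcert, htri, hup, hcm'⟩ := certs_of_mem F D hD
  have hv : ∀ r < D.nroots, ∀ t : F, (x : GL D.Idx F) * xU D hD r t * (x : GL D.Idx F)⁻¹ =
      xU D hD r ((ψ r : F) * ρ t) := fun r hr t => congrArg Subtype.val (h r hr t)
  have h1 : ∀ u ∈ D.posUnipotent F,
      (x : GL D.Idx F) * u * (x : GL D.Idx F)⁻¹ ∈ D.posUnipotent F := by
    intro u hu
    unfold ChevalleyDatum.posUnipotent at hu
    induction hu using Subgroup.closure_induction with
    | mem g hg =>
      obtain ⟨r, t, hr, hgm⟩ := hg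
      rw [eq_xU D hD r t g hgm, hv r hr.1 t]
      exact xU_mem_pos D hD r hr _
    | one =>
      rw [mul_one, mul_inv_cancel]
      exact one_mem _
    | mul a b _ _ iha ihb =>
      have e : (x : GL D.Idx F) * (a * b) * (x : GL D.Idx F)⁻¹ =
          ((x : GL D.Idx F) * a * (x : GL D.Idx F)⁻¹) *
            ((x : GL D.Idx F) * b * (x : GL D.Idx F)⁻¹) := by group
      rw [e]
      exact mul_mem iha ihb
    | inv a _ iha =>
      have e : (x : GL D.Idx F) * a⁻¹ * (x : GL D.Idx F)⁻¹ =
          ((x : GL D.Idx F) * a * (x : GL D.Idx F)⁻¹)⁻¹ := by group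
      rw [e]
      exact inv_mem iha
  have h2 : ∀ u ∈ D.negUnipotent F,
      (x : GL D.Idx F) * u * (x : GL D.Idx F)⁻¹ ∈ D.negUnipotent F := by
    intro u hu
    unfold ChevalleyDatum.negUnipotent at hu
    induction hu using Subgroup.closure_induction with
    | mem g hg =>
      obtain ⟨r, t, hr, hgm⟩ := hg
      rw [eq_xU D hD r t g hgm, hv r hr.1 t]
      exact xU_mem_neg D hD r hr _
    | one =>
      rw [mul_one, mul_inv_cancel]
      exact one_mem _
    | mul a b _ _ iha ihb =>
      have e : (x : GL D.Idx F) * (a * b) * (x : GL D.Idx F)⁻¹ =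
          ((x : GL D.Idx F) * a * (x : GL D.Idx F)⁻¹) *
            ((x : GL D.Idx F) * b * (x : GL D.Idx F)⁻¹) := by group
      rw [e]
      exact mul_mem iha ihb
    | inv a _ iha =>
      have e : (x : GL D.Idx F) * a⁻¹ * (x : GL D.Idx F)⁻¹ =
          ((x : GL D.Idx F) * a * (x : GL D.Idx F)⁻¹)⁻¹ := by group
      rw [e]
      exact inv_mem iha
  have hB := aut_norm_pos D hD _ x.2 h1
  have hH := aut_diag_of_norm D hD _ hB h2
  obtain ⟨χ, hχ, eχ, s, hs⟩ := out_diag_eps D hD l e j0 hC _ hH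
  have heq : ∀ r < D.nroots, ∀ t : F, (χ r : F) * t = (ψ r : F) * ρ t := by
    intro r hr t
    apply fld_xU_inj D hD r hr
    rw [← charDiag_conj_xU D hD χ hχ _ eχ r hr t, hv r hr t]
  have hχψ : ∀ r < D.nroots, χ r = ψ r := by
    intro r hr
    apply Units.ext
    have := heq r hr 1
    rw [map_one, mul_one, mul_one] at this
    exact this
  refine ⟨fun t => ?_, s, ?_⟩
  · have hlt := simple_lt D hcert 0 (rank_pos D hD)
    have := heq _ hlt t
    rw [hχψ _ hlt] at this
    exact (mul_left_cancel₀ (Units.ne_zero _) this).symm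
  · rw [← hs]
    unfold epsC
    apply Finset.prod_congr rfl
    intro j hj
    show ψ (D.simple j) ^ e.getD j 0 = χ (D.simple j) ^ e.getD j 0
    rw [hχψ _ (simple_lt D hcert j (Finset.mem_range.mp hj))]

end Cfsg.Agent.Lib.helper11
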