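import Cfsg.Agent.Lib.helper11d.Aut10

/-! The outer automorphism group of a Chevalley group whose Dynkin diagram has no symmetry. -/

set_option autoImplicit false

namespace Cfsg.Agent.Lib.helper11

open Cfsg Cfsg.Lie Cfsg.Agent.Lib.helper2
open scoped Pointwise

/-- the family of units with value `c` at the node `j0` -/
def cvec {F : Type*} [Field F] (j0 : ℕ) (c : Fˣ) : ℕ → Fˣ := fun j => if j = j0 then c else 1

theorem epsC_cvec {F : Type*} [Field F] (D : ChevalleyDatum) (e : List ℤ) (j0 : ℕ)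
    (hj0 : j0 < D.rank) (he : e.getD j0 0 = 1) (c : Fˣ) : epsC D e (cvec j0 c) = c := by
  unfold epsC
  rw [Finset.prod_eq_single j0]
  · show (if j0 = j0 then c else 1) ^ e.getD j0 0 = c
    rw [if_pos rfl, he, zpow_one]
  · intro j _ hj
    show (if j = j0 then c else 1) ^ e.getD j 0 = 1
    rw [if_neg hj, one_zpow]
  · intro h
    exact absurd (Finset.mem_range.mpr hj0) h

theorem epsC_cwChar {F : Type*} [Field F] (D : ChevalleyDatum)
    (hD : D ∈ [chevG2, chevB2, chevD4, chevF4, chevE6, chevE7, chevE8]) (e : List ℤ)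
    (c : ℕ → Fˣ) : epsC D e (fun j => cwChar D c (D.simple j)) = epsC D e c := by
  unfold epsC
  apply Finset.prod_congr rfl
  intro j hj
  show cwChar D c (D.simple j) ^ e.getD j 0 = c j ^ e.getD j 0
  rw [cwChar_simple D hD c j (Finset.mem_range.mp hj)]

theorem epsC_inv_mul {F : Type*} [Field F] (D : ChevalleyDatum) (e : List ℤ) (u v : ℕ → Fˣ) :
    epsC D e (fun j => (u j)⁻¹ * v j) = (epsC D e u)⁻¹ * epsC D e v := by
  unfold epsC
  rw [← Finset.prod_inv_distrib, ← Finset.prod_mul_distrib]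
  apply Finset.prod_congr rfl
  intro j _
  show ((u j)⁻¹ * v j) ^ e.getD j 0 = (u j ^ e.getD j 0)⁻¹ * v j ^ e.getD j 0
  rw [mul_zpow, inv_zpow]

/-- a graph automorphism for the trivial symmetry is trivial -/
theorem graph_trivial {F : Type*} [Field F] (D : ChevalleyDatum)
    (hD : D ∈ [chevG2, chevB2, chevD4, chevF4, chevE6, chevE7, chevE8])
    (g : MulAut ↥(D.group F)) (π : Equiv.Perm (Fin D.rank)) (hπ : ∀ i, π i = i)
    (hgπ : ∀ (y : ↥(D.group F)) (i : Fin D.rank) (t : F),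
      (((y : GL D.Idx F) : Matrix D.Idx D.Idx F) = D.x F (D.simple i) t →
        ((g y : GL D.Idx F) : Matrix D.Idx D.Idx F) =
          D.x F (D.simple (π i)) (t ^ D.graphExp (ringChar F) i (π i))) ∧
      (((y : GL D.Idx F) : Matrix D.Idx D.Idx F) = D.x F (D.neg (D.simple i)) t →
        ((g y : GL D.Idx F) : Matrix D.Idx D.Idx F) =
          D.x F (D.neg (D.simple (π i))) (t ^ D.graphExp (ringChar F) i (π i))))
    (y : ↥(D.group F)) : g y = y := by
  obtain ⟨hnx, hcert, htri, hup, hcm'⟩ := certs_of_mem F D hD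
  refine hom_ext_simple D hD hnx hcert g.toMonoidHom (MonoidHom.id _) ?_ y
  intro y i u hi hy
  show g y = y
  have hπi := hπ ⟨i, hi⟩
  rcases hy with hy | hy
  · have h1 := (hgπ y ⟨i, hi⟩ u).1 hy
    rw [hπi, graphExp_self, pow_one] at h1
    exact Subtype.ext (Units.ext (h1.trans hy.symm))
  · have h1 := (hgπ y ⟨i, hi⟩ u).2 hy
    rw [hπi, graphExp_self, pow_one] at h1
    exact Subtype.ext (Units.ext (h1.trans hy.symm))

/-- the order of the outer automorphism group when the diagram has no symmetry -/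
theorem out_card_nograph {F : Type*} [Field F] [Fintype F] (p f : ℕ) [Fact p.Prime] [CharP F p]
    (hF : Fintype.card F = p ^ f) (D : ChevalleyDatum)
    (hD : D ∈ [chevG2, chevB2, chevD4, chevF4, chevE6, chevE7, chevE8])
    (l : ℕ) (e : List ℤ) (j0 : ℕ) (hC : OutCert D l e j0)
    (hsym : ∀ π : Equiv.Perm (Fin D.rank), D.IsDiagramSymmetry π → ∀ i, π i = i) :
    Nat.card (Cfsg.Out ↥(D.group F)) = Nat.gcd l (p ^ f - 1) * f := by
  obtain ⟨hnx, hcert, htri, hup, hcm'⟩ := certs_of_mem F D hD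
  have hc := aut_ringAut_card (F := F) p f hF
  obtain ⟨Sq, hSq⟩ : ∃ Sq : Subgroup Fˣ, Sq = (powMonoidHom l : Fˣ →* Fˣ).range := ⟨_, rfl⟩
  have hQ : Nat.card (Fˣ ⧸ Sq) = Nat.gcd l (p ^ f - 1) := by
    rw [← Subgroup.index_eq_card, hSq, IsCyclic.index_powMonoidHom_range, Nat.card_units,
      Nat.card_eq_fintype_card, hF, Nat.gcd_comm]
  have hmem : ∀ u : Fˣ, u ∈ Sq ↔ ∃ s : Fˣ, s ^ l = u := fun u => by
    rw [hSq]
    exact MonoidHom.mem_range
  rw [← hQ, ← hc, ← Nat.card_prod]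
  symm
  have hχc : ∀ c : Fˣ, D.IsRootCharacter (cwChar D (cvec j0 c)) :=
    fun c => cwChar_isRoot D hD _
  have hεc : ∀ c : Fˣ, epsC D e (fun j => cwChar D (cvec j0 c) (D.simple j)) = c := fun c => by
    rw [epsC_cwChar D hD, epsC_cvec D e j0 hC.hj0 hC.he]
  apply Nat.card_eq_of_bijective (fun a : (Fˣ ⧸ Sq) × (F ≃+* F) =>
    (QuotientGroup.mk (diagAut D hD (cwChar D (cvec j0 a.1.out)) (hχc _) * fieldAut D a.2) :
      Cfsg.Out ↥(D.group F)))
  constructor
  · rintro ⟨a, τ⟩ ⟨a', τ'⟩ h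
    have h' : (QuotientGroup.mk
        (diagAut D hD (cwChar D (cvec j0 a.out)) (hχc _) * fieldAut D τ) :
          Cfsg.Out ↥(D.group F)) =
        QuotientGroup.mk (diagAut D hD (cwChar D (cvec j0 a'.out)) (hχc _) * fieldAut D τ') := h
    rw [QuotientGroup.eq] at h'
    have h2 := (Cfsg.innNormal ↥(D.group F)).conj_mem _ h' (fieldAut D τ)
    obtain ⟨z, hz⟩ := MonoidHom.mem_range.mp h2
    have hz' : MulAut.conj z = (diagAut D hD (cwChar D (cvec j0 a.out)) (hχc _))⁻¹ *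
        diagAut D hD (cwChar D (cvec j0 a'.out)) (hχc _) * fieldAut D τ' *
          (fieldAut D τ)⁻¹ := by
      rw [hz]
      group
    have hact : ∀ r < D.nroots, ∀ t : F, z * xG D hD r t * z⁻¹ =
        xG D hD r ((((cwChar D (cvec j0 a.out) r)⁻¹ * cwChar D (cvec j0 a'.out) r : Fˣ) : F) *
          (τ.symm.trans τ') t) := by
      intro r hr t
      rw [← MulAut.conj_apply, hz', MulAut.mul_apply, MulAut.mul_apply, MulAut.mul_apply,
        fieldAut_inv_xG, fieldAut_xG, diagAut_xG D hD _ _ r hr, diagAut_inv_xG D hD _ _ r hr,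
        Units.val_mul, mul_assoc]
      rfl
    obtain ⟨hρ, s, hs⟩ := out_inner_diag D hD l e j0 hC z _ (τ.symm.trans τ') hact
    have hτ : τ = τ' := by
      apply RingEquiv.ext
      intro u
      have := hρ (τ u)
      rw [RingEquiv.trans_apply, RingEquiv.symm_apply_apply] at this
      exact this.symm
    have ha : a = a' := by
      rw [← QuotientGroup.out_eq' a, ← QuotientGroup.out_eq' a', QuotientGroup.eq, hmem]
      refine ⟨s, ?_⟩
      rw [← hs, epsC_inv_mul D e (fun j => cwChar D (cvec j0 a.out) (D.simple j))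
        (fun j => cwChar D (cvec j0 a'.out) (D.simple j)), hεc, hεc]
    rw [hτ, ha]
  · intro o
    obtain ⟨θ, rfl⟩ := QuotientGroup.mk_surjective o
    obtain ⟨x, d, g, f', hd, hg, hf, hθ⟩ := aut_main D hD θ
    obtain ⟨τ, hτ⟩ := hf
    obtain ⟨π, hπ, hgπ⟩ := hg
    obtain ⟨χ, hχ, hdχ⟩ := hd
    have hg1 : ∀ y, g y = y := graph_trivial D hD g π (hsym π hπ) hgπ
    obtain ⟨c₀, hc₀⟩ : ∃ c₀ : Fˣ, c₀ = epsC D e (fun j => χ (D.simple j)) := ⟨_, rfl⟩
    obtain ⟨a, ha⟩ : ∃ a : Fˣ ⧸ Sq, a = QuotientGroup.mk c₀ := ⟨_, rfl⟩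
    have h1 : (QuotientGroup.mk a.out : Fˣ ⧸ Sq) = QuotientGroup.mk c₀ := by
      rw [QuotientGroup.out_eq', ha]
    rw [QuotientGroup.eq, hmem] at h1
    obtain ⟨s, hs⟩ := h1
    have hs' : c₀ = a.out * s ^ l := by
      rw [hs, mul_inv_cancel_left]
    obtain ⟨h, hh⟩ := out_diag_conj D hD l e j0 hC χ (cwChar D (cvec j0 a.out)) hχ (hχc _) s
      (by rw [← hc₀, hεc, hs'])
    refine ⟨(a, τ), ?_⟩
    have hd1 : ∀ y, d y = h * diagAut D hD (cwChar D (cvec j0 a.out)) (hχc _) y * h⁻¹ := by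
      intro y
      rw [← hh y]
      exact Subtype.ext (Units.ext (hdχ y))
    have hθ' : θ = MulAut.conj (x * h) *
        (diagAut D hD (cwChar D (cvec j0 a.out)) (hχc _) * fieldAut D τ) := by
      ext y
      rw [hθ y, hg1, hd1, isField_eq D hD f' τ hτ y, MulAut.mul_apply, MulAut.mul_apply,
        MulAut.conj_apply]
      group
    show (QuotientGroup.mk (diagAut D hD (cwChar D (cvec j0 a.out)) (hχc _) * fieldAut D τ) :
      Cfsg.Out ↥(D.group F)) = QuotientGroup.mk θ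
    rw [hθ']
    have h4 : (QuotientGroup.mk (MulAut.conj (x * h)) : Cfsg.Out ↥(D.group F)) = 1 :=
      (QuotientGroup.eq_one_iff _).mpr ⟨x * h, rfl⟩
    show _ = (QuotientGroup.mk (MulAut.conj (x * h)) : Cfsg.Out ↥(D.group F)) *
      QuotientGroup.mk (diagAut D hD (cwChar D (cvec j0 a.out)) (hχc _) * fieldAut D τ)
    rw [h4, one_mul]

theorem outCert_E7 : OutCert chevE7 2 [0, 1, 0, 0, 1, 0, 1] 6 where
  hj0 := by decide
  he := by decide
  c1 := by decide +kernel
  c2 := by decide +kernel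
  c3 := by decide +kernel

theorem wv3_E7 : ∀ i < 7, wv3 chevE7 i =
    ([140, 153, 215, 280, 228, 203, 139] : List ℤ).getD i 0 := by
  decide +kernel

theorem wv3_E7_inj : ∀ i < 7, ∀ j < 7,
    ([140, 153, 215, 280, 228, 203, 139] : List ℤ).getD i 0 =
      ([140, 153, 215, 280, 228, 203, 139] : List ℤ).getD j 0 → i = j := by
  decide

/-- the Dynkin diagram of type `E₇` has no symmetry -/
theorem e7_symm_trivial (π : Equiv.Perm (Fin chevE7.rank)) (hπ : chevE7.IsDiagramSymmetry π)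
    (i : Fin chevE7.rank) : π i = i := by
  have hD : chevE7 ∈ [chevG2, chevB2, chevD4, chevF4, chevE6, chevE7, chevE8] := by simp
  have hss := cartanSS_spec chevE7 (cartanSS_of_mem chevE7 hD)
  have h := wv3_perm chevE7 hss π hπ i
  have hi : (i : ℕ) < 7 := i.2
  have hpi : (π i : ℕ) < 7 := (π i).2
  rw [wv3_E7 _ hpi, wv3_E7 _ hi] at h
  exact Fin.ext (wv3_E7_inj _ hpi _ hi h)

/-- the outer automorphism group of `E₇(q)` -/
theorem out_card_E7 {F : Type*} [Field F] [Fintype F] (p f : ℕ) [Fact p.Prime] [CharP F p]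
    (hF : Fintype.card F = p ^ f) :
    Nat.card (Cfsg.Out ↥(chevE7.group F)) = Nat.gcd 2 (p ^ f - 1) * f :=
  out_card_nograph p f hF chevE7 (by simp) 2 _ 6 outCert_E7 e7_symm_trivial

end Cfsg.Agent.Lib.helper11
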