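import Cfsg.Agent.Lib.helper11d.Aut11
import Cfsg.Agent.Lib.helper11d.GautOK

/-! The outer automorphism group of the Chevalley groups of type `E₆`. -/

set_option autoImplicit false

namespace Cfsg.Agent.Lib.helper11

open Cfsg Cfsg.Lie Cfsg.Agent.Lib.helper2
open scoped Pointwise

variable {F : Type*} [Field F]

/-- an automorphism permuting the root subgroups, the positive ones among themselves and the
negative ones among themselves, stabilizes `U` and `U⁻` -/
theorem autNorm_of_roots (D : ChevalleyDatum)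
    (hD : D ∈ [chevG2, chevB2, chevD4, chevF4, chevE6, chevE7, chevE8])
    (θ : MulAut ↥(D.group F))
    (h : ∀ r < D.nroots, ∀ t : F, ∃ (r' : ℕ) (t' : F), (D.IsPosRoot r → D.IsPosRoot r') ∧
      (D.IsNegRoot r → D.IsNegRoot r') ∧ θ (xG D hD r t) = xG D hD r' t') : AutNorm D θ := by
  constructor
  · intro g hg
    have key : ∀ u ∈ D.posUnipotent F, ∀ hu : u ∈ D.group F,
        ((θ ⟨u, hu⟩ : ↥(D.group F)) : GL D.Idx F) ∈ D.posUnipotent F := by
      intro u hu
      unfold ChevalleyDatum.posUnipotent at hu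
      induction hu using Subgroup.closure_induction with
      | mem g hg =>
        intro hgG
        obtain ⟨r, t, hr, hgm⟩ := hg
        obtain ⟨r', t', hp, -, e⟩ := h r hr.1 t
        have e1 : (⟨g, hgG⟩ : ↥(D.group F)) = xG D hD r t :=
          Subtype.ext (eq_xU D hD r t g hgm)
        rw [e1, e]
        exact xU_mem_pos D hD r' (hp hr) t'
      | one =>
        intro h1
        have e1 : (⟨1, h1⟩ : ↥(D.group F)) = 1 := rfl
        rw [e1, map_one]
        exact one_mem _
      | mul a b ha hb iha ihb =>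
        intro hab
        have haG : a ∈ D.group F :=
          aut_pos_le_group D hD (show a ∈ D.posUnipotent F from ha)
        have hbG : b ∈ D.group F :=
          aut_pos_le_group D hD (show b ∈ D.posUnipotent F from hb)
        have e1 : (⟨a * b, hab⟩ : ↥(D.group F)) = ⟨a, haG⟩ * ⟨b, hbG⟩ := rfl
        rw [e1, map_mul, Subgroup.coe_mul]
        exact mul_mem (iha haG) (ihb hbG)
      | inv a ha iha =>
        intro hinv
        have haG : a ∈ D.group F :=
          aut_pos_le_group D hD (show a ∈ D.posUnipotent F from ha)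
        have e1 : (⟨a⁻¹, hinv⟩ : ↥(D.group F)) = (⟨a, haG⟩ : ↥(D.group F))⁻¹ := rfl
        rw [e1, map_inv, Subgroup.coe_inv]
        exact inv_mem (iha haG)
    exact key g hg g.2
  · intro g hg
    have key : ∀ u ∈ D.negUnipotent F, ∀ hu : u ∈ D.group F,
        ((θ ⟨u, hu⟩ : ↥(D.group F)) : GL D.Idx F) ∈ D.negUnipotent F := by
      intro u hu
      unfold ChevalleyDatum.negUnipotent at hu
      induction hu using Subgroup.closure_induction with
      | mem g hg =>
        intro hgG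
        obtain ⟨r, t, hr, hgm⟩ := hg
        obtain ⟨r', t', -, hp, e⟩ := h r hr.1 t
        have e1 : (⟨g, hgG⟩ : ↥(D.group F)) = xG D hD r t :=
          Subtype.ext (eq_xU D hD r t g hgm)
        rw [e1, e]
        exact xU_mem_neg D hD r' (hp hr) t'
      | one =>
        intro h1
        have e1 : (⟨1, h1⟩ : ↥(D.group F)) = 1 := rfl
        rw [e1, map_one]
        exact one_mem _
      | mul a b ha hb iha ihb =>
        intro hab
        have haG : a ∈ D.group F :=
          aut_neg_le_group D hD (show a ∈ D.negUnipotent F from ha)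
        have hbG : b ∈ D.group F :=
          aut_neg_le_group D hD (show b ∈ D.negUnipotent F from hb)
        have e1 : (⟨a * b, hab⟩ : ↥(D.group F)) = ⟨a, haG⟩ * ⟨b, hbG⟩ := rfl
        rw [e1, map_mul, Subgroup.coe_mul]
        exact mul_mem (iha haG) (ihb hbG)
      | inv a ha iha =>
        intro hinv
        have haG : a ∈ D.group F :=
          aut_neg_le_group D hD (show a ∈ D.negUnipotent F from ha)
        have e1 : (⟨a⁻¹, hinv⟩ : ↥(D.group F)) = (⟨a, haG⟩ : ↥(D.group F))⁻¹ := rfl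
        rw [e1, map_inv, Subgroup.coe_inv]
        exact inv_mem (iha haG)
    exact key g hg g.2

theorem AutNorm.mul {D : ChevalleyDatum} {θ θ' : MulAut ↥(D.group F)}
    (h : AutNorm D θ) (h' : AutNorm D θ') : AutNorm D (θ * θ') :=
  ⟨fun g hg => h.1 _ (h'.1 g hg), fun g hg => h.2 _ (h'.2 g hg)⟩

theorem autNorm_one (D : ChevalleyDatum) : AutNorm (F := F) D 1 :=
  ⟨fun _ hg => hg, fun _ hg => hg⟩

theorem autNorm_diag (D : ChevalleyDatum)
    (hD : D ∈ [chevG2, chevB2, chevD4, chevF4, chevE6, chevE7, chevE8]) (χ : ℕ → Fˣ)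
    (hχ : D.IsRootCharacter χ) : AutNorm D (diagAut D hD χ hχ) :=
  autNorm_of_roots D hD _ (fun r hr t => ⟨r, _, id, id, diagAut_xG D hD χ hχ r hr t⟩)

theorem autNorm_field (D : ChevalleyDatum)
    (hD : D ∈ [chevG2, chevB2, chevD4, chevF4, chevE6, chevE7, chevE8]) (τ : F ≃+* F) :
    AutNorm D (fieldAut D τ) :=
  autNorm_of_roots D hD _ (fun r _ t => ⟨r, _, id, id, fieldAut_xG D hD τ r t⟩)

/-- an element whose inner automorphism stabilizes `U` and `U⁻` lies in `H` -/
theorem diag_of_autNorm_conj (D : ChevalleyDatum)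
    (hD : D ∈ [chevG2, chevB2, chevD4, chevF4, chevE6, chevE7, chevE8])
    (z : ↥(D.group F)) (h : AutNorm D (MulAut.conj z)) :
    (z : GL D.Idx F) ∈ D.diagonalSubgroup F := by
  have h1 : ∀ u ∈ D.posUnipotent F,
      (z : GL D.Idx F) * u * (z : GL D.Idx F)⁻¹ ∈ D.posUnipotent F :=
    fun u hu => h.1 ⟨u, aut_pos_le_group D hD hu⟩ hu
  have h2 : ∀ u ∈ D.negUnipotent F,
      (z : GL D.Idx F) * u * (z : GL D.Idx F)⁻¹ ∈ D.negUnipotent F :=
    fun u hu => h.2 ⟨u, aut_neg_le_group D hD hu⟩ hu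
  exact aut_diag_of_norm D hD _ (aut_norm_pos D hD _ z.2 h1) h2

/-- an element of `H` acting on the fundamental root subgroups through scalars and a field
automorphism -/
theorem out_inner_diag' (D : ChevalleyDatum)
    (hD : D ∈ [chevG2, chevB2, chevD4, chevF4, chevE6, chevE7, chevE8])
    (l : ℕ) (e : List ℤ) (j0 : ℕ) (hC : OutCert D l e j0)
    (z : ↥(D.group F)) (hz : (z : GL D.Idx F) ∈ D.diagonalSubgroup F) (ψ : ℕ → Fˣ)
    (ρ : F ≃+* F)
    (h : ∀ i < D.rank, ∀ t : F,
      z * xG D hD (D.simple i) t * z⁻¹ = xG D hD (D.simple i) ((ψ i : F) * ρ t)) :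
    (∀ t, ρ t = t) ∧ ∃ s : Fˣ, epsC D e ψ = s ^ l := by
  obtain ⟨hnx, hcert, htri, hup, hcm'⟩ := certs_of_mem F D hD
  obtain ⟨χ, hχ, eχ, s, hs⟩ := out_diag_eps D hD l e j0 hC _ hz
  have heq : ∀ i < D.rank, ∀ t : F, (χ (D.simple i) : F) * t = (ψ i : F) * ρ t := by
    intro i hi t
    have hlt := simple_lt D hcert i hi
    apply fld_xU_inj D hD _ hlt
    rw [← charDiag_conj_xU D hD χ hχ _ eχ _ hlt t]
    exact congrArg Subtype.val (h i hi t)
  have hχψ : ∀ i < D.rank, χ (D.simple i) = ψ i := by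
    intro i hi
    apply Units.ext
    have := heq i hi 1
    rw [map_one, mul_one, mul_one] at this
    exact this
  refine ⟨fun t => ?_, s, ?_⟩
  · have := heq 0 (rank_pos D hD) t
    rw [hχψ 0 (rank_pos D hD)] at this
    exact (mul_left_cancel₀ (Units.ne_zero _) this).symm
  · rw [← hs]
    unfold epsC
    apply Finset.prod_congr rfl
    intro j hj
    show ψ j ^ e.getD j 0 = χ (D.simple j) ^ e.getD j 0
    rw [hχψ j (Finset.mem_range.mp hj)]

/-- the graph automorphism on the fundamental root elements -/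
theorem gaAut_simple (D : ChevalleyDatum)
    (hD : D ∈ [chevG2, chevB2, chevD4, chevF4, chevE6, chevE7, chevE8])
    (pt qt : List (ℕ × ℤ)) (perm : List ℕ) (h : GaCert D pt qt perm) (i : ℕ) (hi : i < D.rank)
    (t : F) :
    gaAut D hD pt qt perm h (xG D hD (D.simple i) t) = xG D hD (D.simple (perm.getD i 0)) t ∧
    gaAut D hD pt qt perm h (xG D hD (D.neg (D.simple i)) t) =
      xG D hD (D.neg (D.simple (perm.getD i 0))) t := by
  obtain ⟨h1, h2, h3, h4⟩ := h.simp i hi
  constructor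
  · apply Subtype.ext
    rw [gaAut_val]
    show gaU D pt qt perm h * xU D hD (D.simple i) t * (gaU D pt qt perm h)⁻¹ = xU D hD _ t
    rw [gaU_conj D hD pt qt perm h _ h1 t]
    unfold gaRho gaEps
    rw [h3]
    simp
  · apply Subtype.ext
    rw [gaAut_val]
    show gaU D pt qt perm h * xU D hD (D.neg (D.simple i)) t * (gaU D pt qt perm h)⁻¹ =
      xU D hD _ t
    rw [gaU_conj D hD pt qt perm h _ h2 t]
    unfold gaRho gaEps
    rw [h4]
    simp

theorem gaAut_root (D : ChevalleyDatum)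
    (hD : D ∈ [chevG2, chevB2, chevD4, chevF4, chevE6, chevE7, chevE8])
    (pt qt : List (ℕ × ℤ)) (perm : List ℕ) (h : GaCert D pt qt perm) (r : ℕ) (hr : r < D.nroots)
    (t : F) :
    gaAut D hD pt qt perm h (xG D hD r t) =
      xG D hD (gaRho D pt r) (((gaEps D pt r : ℤ) : F) * t) := by
  apply Subtype.ext
  rw [gaAut_val]
  exact gaU_conj D hD pt qt perm h r hr t

theorem gaPos_E6 : ∀ r < 72,
    (chevE6.IsPosRoot r → chevE6.IsPosRoot (gaRho chevE6 gaPtE6 r)) ∧
    (chevE6.IsNegRoot r → chevE6.IsNegRoot (gaRho chevE6 gaPtE6 r)) := by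
  decide +kernel

theorem e6_bonds : chevE6.bonds 0 2 = 1 ∧ chevE6.bonds 0 4 = 0 ∧ chevE6.bonds 5 2 = 0 ∧
    chevE6.bonds 5 4 = 1 := by decide +kernel

theorem wv3_E6 : ∀ i < 6, wv3 chevE6 i =
    ([140, 153, 215, 279, 215, 140] : List ℤ).getD i 0 := by
  decide +kernel

theorem wv3_E6_inj : ∀ i < 6, ∀ j < 6,
    ([140, 153, 215, 279, 215, 140] : List ℤ).getD i 0 =
      ([140, 153, 215, 279, 215, 140] : List ℤ).getD j 0 →
    j = i ∨ j = ([5, 1, 4, 3, 2, 0] : List ℕ).getD i 0 := by
  decide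

theorem e6_perm : ∀ i < 6,
    ([5, 1, 4, 3, 2, 0] : List ℕ).getD (([5, 1, 4, 3, 2, 0] : List ℕ).getD i 0) 0 = i ∧
    ([5, 1, 4, 3, 2, 0] : List ℕ).getD i 0 < 6 := by decide

theorem outCert_E6 : OutCert chevE6 3 [1, 0, 2, 0, 1, 2] 0 where
  hj0 := by decide
  he := by decide
  c1 := by decide +kernel
  c2 := by decide +kernel
  c3 := by decide +kernel

/-- the symmetries of the Dynkin diagram of type `E₆` -/
theorem e6_symm (π : Equiv.Perm (Fin chevE6.rank)) (hπ : chevE6.IsDiagramSymmetry π) :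
    (∀ i, π i = i) ∨ (∀ i, (π i : ℕ) = ([5, 1, 4, 3, 2, 0] : List ℕ).getD i 0) := by
  have hD : chevE6 ∈ [chevG2, chevB2, chevD4, chevF4, chevE6, chevE7, chevE8] := by simp
  have hss := cartanSS_spec chevE6 (cartanSS_of_mem chevE6 hD)
  have hw : ∀ i : Fin chevE6.rank, (π i : ℕ) = i ∨
      (π i : ℕ) = ([5, 1, 4, 3, 2, 0] : List ℕ).getD i 0 := by
    intro i
    have h := wv3_perm chevE6 hss π hπ i
    have hi : (i : ℕ) < 6 := i.2
    have hpi : (π i : ℕ) < 6 := (π i).2
    rw [wv3_E6 _ hpi, wv3_E6 _ hi] at h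
    exact wv3_E6_inj _ hi _ hpi h.symm
  have l0 : (0 : ℕ) < chevE6.rank := by decide
  have l2 : (2 : ℕ) < chevE6.rank := by decide
  have l4 : (4 : ℕ) < chevE6.rank := by decide
  have l5 : (5 : ℕ) < chevE6.rank := by decide
  have h0 := hw ⟨0, l0⟩
  have h2 := hw ⟨2, l2⟩
  have h4 := hw ⟨4, l4⟩
  have h5 := hw ⟨5, l5⟩
  have hb := hπ ⟨0, l0⟩ ⟨2, l2⟩ (by
    intro h
    have h' : (0 : ℕ) = 2 := congrArg Fin.val h
    exact absurd h' (by decide))
  have hinj : ∀ a b : Fin chevE6.rank, (π a : ℕ) = (π b : ℕ) → (a : ℕ) = b :=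
    fun a b h => congrArg Fin.val (π.injective (Fin.ext h))
  have i05 : (π ⟨0, l0⟩ : ℕ) = (π ⟨5, l5⟩ : ℕ) → (0 : ℕ) = 5 := hinj ⟨0, l0⟩ ⟨5, l5⟩
  have i24 : (π ⟨2, l2⟩ : ℕ) = (π ⟨4, l4⟩ : ℕ) → (2 : ℕ) = 4 := hinj ⟨2, l2⟩ ⟨4, l4⟩
  obtain ⟨b02, b04, b52, b54⟩ := e6_bonds
  simp only [List.getD_cons_zero, List.getD_cons_succ] at h0 h2 h4 h5
  change chevE6.bonds (π ⟨0, l0⟩ : ℕ) (π ⟨2, l2⟩ : ℕ) = chevE6.bonds 0 2 at hb
  rcases h0 with h0 | h0
  · left
    have h2' : (π ⟨2, l2⟩ : ℕ) = 2 := by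
      rcases h2 with h2 | h2
      · exact h2
      · rw [h0, h2, b04, b02] at hb
        exact absurd hb (by decide)
    have h4' : (π ⟨4, l4⟩ : ℕ) = 4 := by
      rcases h4 with h4 | h4
      · exact h4
      · have := i24 (by rw [h2', h4])
        exact absurd this (by decide)
    have h5' : (π ⟨5, l5⟩ : ℕ) = 5 := by
      rcases h5 with h5 | h5
      · exact h5
      · have := i05 (by rw [h0, h5])
        exact absurd this (by decide)
    intro i
    apply Fin.ext
    have hi : (i : ℕ) < 6 := i.2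
    rcases hw i with h | h
    · exact h
    · obtain ⟨iv, hiv⟩ := i
      simp only at hi h ⊢
      interval_cases iv
      · exact h0
      · exact h
      · exact h2'
      · exact h
      · exact h4'
      · exact h5'
  · right
    have h2' : (π ⟨2, l2⟩ : ℕ) = 4 := by
      rcases h2 with h2 | h2
      · rw [h0, h2, b52, b02] at hb
        exact absurd hb (by decide)
      · exact h2
    have h4' : (π ⟨4, l4⟩ : ℕ) = 2 := by
      rcases h4 with h4 | h4
      · have := i24 (by rw [h2', h4])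
        exact absurd this (by decide)
      · exact h4
    have h5' : (π ⟨5, l5⟩ : ℕ) = 0 := by
      rcases h5 with h5 | h5
      · have := i05 (by rw [h0, h5])
        exact absurd this (by decide)
      · exact h5
    intro i
    have hi : (i : ℕ) < 6 := i.2
    rcases hw i with h | h
    · obtain ⟨iv, hiv⟩ := i
      simp only at hi h ⊢
      interval_cases iv
      · exact h0
      · exact h
      · exact h2'
      · exact h
      · exact h4'
      · exact h5'
    · exact h

end Cfsg.Agent.Lib.helper11
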