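import Cfsg.Agent.Lib.helper11d.Aut12

/-! The outer automorphism group of the Chevalley groups of type `E₆`: the count. -/

set_option autoImplicit false

namespace Cfsg.Agent.Lib.helper11

open Cfsg Cfsg.Lie Cfsg.Agent.Lib.helper2
open scoped Pointwise

theorem e6_mem : chevE6 ∈ [chevG2, chevB2, chevD4, chevF4, chevE6, chevE7, chevE8] := by simp

/-- the graph automorphism of `E₆(F)` -/
noncomputable def gamE6 (F : Type*) [Field F] : MulAut ↥(chevE6.group F) :=
  gaAut chevE6 e6_mem gaPtE6 gaQtE6 [5, 1, 4, 3, 2, 0] gaCert_E6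

/-- the identity or the graph automorphism -/
noncomputable def gbE6 (F : Type*) [Field F] (b : Bool) : MulAut ↥(chevE6.group F) :=
  if b then gamE6 F else 1

/-- the identity or the symmetry of the diagram -/
def pbE6 (b : Bool) (i : ℕ) : ℕ := if b then ([5, 1, 4, 3, 2, 0] : List ℕ).getD i 0 else i

theorem pbE6_lt (b : Bool) (i : ℕ) (hi : i < 6) : pbE6 b i < 6 := by
  cases b
  · exact hi
  · exact (e6_perm i hi).2

theorem pbE6_invol (b : Bool) (i : ℕ) (hi : i < 6) : pbE6 b (pbE6 b i) = i := by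
  cases b
  · rfl
  · exact (e6_perm i hi).1

variable {F : Type*} [Field F]

theorem gbE6_simple (b : Bool) (i : ℕ) (hi : i < 6) (t : F) :
    gbE6 F b (xG chevE6 e6_mem (chevE6.simple i) t) =
      xG chevE6 e6_mem (chevE6.simple (pbE6 b i)) t ∧
    gbE6 F b (xG chevE6 e6_mem (chevE6.neg (chevE6.simple i)) t) =
      xG chevE6 e6_mem (chevE6.neg (chevE6.simple (pbE6 b i))) t := by
  cases b
  · exact ⟨rfl, rfl⟩
  · exact gaAut_simple chevE6 e6_mem gaPtE6 gaQtE6 _ gaCert_E6 i hi t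

theorem gbE6_inv_simple (b : Bool) (i : ℕ) (hi : i < 6) (t : F) :
    (gbE6 F b)⁻¹ (xG chevE6 e6_mem (chevE6.simple i) t) =
      xG chevE6 e6_mem (chevE6.simple (pbE6 b i)) t ∧
    (gbE6 F b)⁻¹ (xG chevE6 e6_mem (chevE6.neg (chevE6.simple i)) t) =
      xG chevE6 e6_mem (chevE6.neg (chevE6.simple (pbE6 b i))) t := by
  have h := gbE6_simple (F := F) b (pbE6 b i) (pbE6_lt b i hi) t
  rw [pbE6_invol b i hi] at h
  constructor
  · rw [← h.1, MulAut.inv_apply_self]
  · rw [← h.2, MulAut.inv_apply_self]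

theorem autNorm_gbE6 (b : Bool) : AutNorm chevE6 (gbE6 F b) := by
  cases b
  · exact autNorm_one chevE6
  · exact autNorm_of_roots chevE6 e6_mem _ (fun r hr t =>
      ⟨_, _, (gaPos_E6 r hr).1, (gaPos_E6 r hr).2,
        gaAut_root chevE6 e6_mem gaPtE6 gaQtE6 _ gaCert_E6 r hr t⟩)

theorem e6_graphExp (c a b : ℕ) (hb : b < chevE6.rank) : chevE6.graphExp c a b = 1 := by
  unfold ChevalleyDatum.graphExp
  rw [(slOK_spec chevE6 slOK_E6 b hb).1]
  simp

/-- a graph automorphism for the non-trivial symmetry is the standard one -/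
theorem graph_eq_gam (g : MulAut ↥(chevE6.group F)) (π : Equiv.Perm (Fin chevE6.rank))
    (hπ : ∀ i, (π i : ℕ) = ([5, 1, 4, 3, 2, 0] : List ℕ).getD i 0)
    (hgπ : ∀ (y : ↥(chevE6.group F)) (i : Fin chevE6.rank) (t : F),
      (((y : GL chevE6.Idx F) : Matrix chevE6.Idx chevE6.Idx F) =
          chevE6.x F (chevE6.simple i) t →
        ((g y : GL chevE6.Idx F) : Matrix chevE6.Idx chevE6.Idx F) =
          chevE6.x F (chevE6.simple (π i)) (t ^ chevE6.graphExp (ringChar F) i (π i))) ∧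
      (((y : GL chevE6.Idx F) : Matrix chevE6.Idx chevE6.Idx F) =
          chevE6.x F (chevE6.neg (chevE6.simple i)) t →
        ((g y : GL chevE6.Idx F) : Matrix chevE6.Idx chevE6.Idx F) =
          chevE6.x F (chevE6.neg (chevE6.simple (π i)))
            (t ^ chevE6.graphExp (ringChar F) i (π i))))
    (y : ↥(chevE6.group F)) : g y = gbE6 F true y := by
  obtain ⟨hnx, hcert, htri, hup, hcm'⟩ := certs_of_mem F chevE6 e6_mem
  refine hom_ext_simple chevE6 e6_mem hnx hcert g.toMonoidHom (gbE6 F true).toMonoidHom ?_ y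
  intro y i u hi hy
  show g y = gbE6 F true y
  have hπi := hπ ⟨i, hi⟩
  have hs := gbE6_simple (F := F) true i hi u
  rcases hy with hy | hy
  · have h1 := (hgπ y ⟨i, hi⟩ u).1 hy
    rw [e6_graphExp _ _ _ (π ⟨i, hi⟩).2, pow_one, hπi] at h1
    have hy' : y = xG chevE6 e6_mem (chevE6.simple i) u := Subtype.ext (Units.ext hy)
    rw [hy', hs.1]
    rw [hy'] at h1
    exact Subtype.ext (Units.ext h1)
  · have h1 := (hgπ y ⟨i, hi⟩ u).2 hy
    rw [e6_graphExp _ _ _ (π ⟨i, hi⟩).2, pow_one, hπi] at h1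
    have hy' : y = xG chevE6 e6_mem (chevE6.neg (chevE6.simple i)) u :=
      Subtype.ext (Units.ext hy)
    rw [hy', hs.2]
    rw [hy'] at h1
    exact Subtype.ext (Units.ext h1)

/-- the outer automorphism group of `E₆(q)` -/
theorem out_card_E6 {F : Type*} [Field F] [Fintype F] (p f : ℕ) [Fact p.Prime] [CharP F p]
    (hF : Fintype.card F = p ^ f) :
    Nat.card (Cfsg.Out ↥(chevE6.group F)) = 2 * Nat.gcd 3 (p ^ f - 1) * f := by
  obtain ⟨hnx, hcert, htri, hup, hcm'⟩ := certs_of_mem F chevE6 e6_mem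
  have hC := outCert_E6
  have hc := aut_ringAut_card (F := F) p f hF
  obtain ⟨Sq, hSq⟩ : ∃ Sq : Subgroup Fˣ, Sq = (powMonoidHom 3 : Fˣ →* Fˣ).range := ⟨_, rfl⟩
  have hQ : Nat.card (Fˣ ⧸ Sq) = Nat.gcd 3 (p ^ f - 1) := by
    rw [← Subgroup.index_eq_card, hSq, IsCyclic.index_powMonoidHom_range, Nat.card_units,
      Nat.card_eq_fintype_card, hF, Nat.gcd_comm]
  have hmem : ∀ u : Fˣ, u ∈ Sq ↔ ∃ s : Fˣ, s ^ 3 = u := fun u => by
    rw [hSq]
    exact MonoidHom.mem_range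
  have hcard : Nat.card ((Fˣ ⧸ Sq) × Bool × (F ≃+* F)) = 2 * Nat.gcd 3 (p ^ f - 1) * f := by
    rw [Nat.card_prod, Nat.card_prod, hQ, hc, Nat.card_eq_fintype_card, Fintype.card_bool]
    ring
  rw [← hcard]
  symm
  have hχc : ∀ c : Fˣ, chevE6.IsRootCharacter (cwChar chevE6 (cvec 0 c)) :=
    fun c => cwChar_isRoot chevE6 e6_mem _
  have hεc : ∀ c : Fˣ, epsC chevE6 [1, 0, 2, 0, 1, 2]
      (fun j => cwChar chevE6 (cvec 0 c) (chevE6.simple j)) = c := fun c => by
    rw [epsC_cwChar chevE6 e6_mem, epsC_cvec chevE6 _ 0 hC.hj0 hC.he]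
  apply Nat.card_eq_of_bijective (fun a : (Fˣ ⧸ Sq) × Bool × (F ≃+* F) =>
    (QuotientGroup.mk (diagAut chevE6 e6_mem (cwChar chevE6 (cvec 0 a.1.out)) (hχc _) *
      gbE6 F a.2.1 * fieldAut chevE6 a.2.2) : Cfsg.Out ↥(chevE6.group F)))
  constructor
  · rintro ⟨a, b, τ⟩ ⟨a', b', τ'⟩ h
    have h' : (QuotientGroup.mk
        (diagAut chevE6 e6_mem (cwChar chevE6 (cvec 0 a.out)) (hχc _) * gbE6 F b *
          fieldAut chevE6 τ) : Cfsg.Out ↥(chevE6.group F)) =
        QuotientGroup.mk (diagAut chevE6 e6_mem (cwChar chevE6 (cvec 0 a'.out)) (hχc _) *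
          gbE6 F b' * fieldAut chevE6 τ') := h
    rw [QuotientGroup.eq] at h'
    have l0 : (0 : ℕ) < 6 := by norm_num
    have hb : b = b' := by
      obtain ⟨z₀, hz₀⟩ := MonoidHom.mem_range.mp h'
      have hN : AutNorm chevE6 (MulAut.conj z₀) := by
        rw [hz₀]
        exact (((autNorm_diag chevE6 e6_mem _ (hχc _)).mul (autNorm_gbE6 b)).mul
          (autNorm_field chevE6 e6_mem τ)).inv.mul
          (((autNorm_diag chevE6 e6_mem _ (hχc _)).mul (autNorm_gbE6 b')).mul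
            (autNorm_field chevE6 e6_mem τ'))
      have hH := diag_of_autNorm_conj chevE6 e6_mem z₀ hN
      obtain ⟨χ₀, -, hχ₀⟩ := diag_conj_x chevE6 e6_mem hnx hcert _ hH
      by_contra hne
      have hlt0 := simple_lt chevE6 hcert 0 l0
      have hlt1 := simple_lt chevE6 hcert (pbE6 b' 0) (pbE6_lt b' 0 l0)
      have hlt2 := simple_lt chevE6 hcert (pbE6 b (pbE6 b' 0))
        (pbE6_lt b _ (pbE6_lt b' 0 l0))
      have h1 := hχ₀ _ hlt0 1
      have h2 : ∃ v : F, MulAut.conj z₀ (xG chevE6 e6_mem (chevE6.simple 0) (1 : F)) =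
          xG chevE6 e6_mem (chevE6.simple (pbE6 b (pbE6 b' 0))) v := by
        refine ⟨τ.symm ((((cwChar chevE6 (cvec 0 a.out) (chevE6.simple (pbE6 b' 0)))⁻¹ : Fˣ) : F) *
          ((cwChar chevE6 (cvec 0 a'.out) (chevE6.simple (pbE6 b' 0)) : F) * τ' 1)), ?_⟩
        rw [hz₀]
        simp only [MulAut.mul_apply, mul_inv_rev]
        rw [fieldAut_xG, (gbE6_simple b' 0 l0 _).1, diagAut_xG chevE6 e6_mem _ _ _ hlt1,
          diagAut_inv_xG chevE6 e6_mem _ _ _ hlt1,
          (gbE6_inv_simple b _ (pbE6_lt b' 0 l0) _).1, fieldAut_inv_xG]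
      obtain ⟨v, h2⟩ := h2
      rw [MulAut.conj_apply] at h2
      have h3 : xU chevE6 e6_mem (chevE6.simple 0) ((χ₀ (chevE6.simple 0) : F) * 1) =
          xU chevE6 e6_mem (chevE6.simple (pbE6 b (pbE6 b' 0))) v := by
        rw [← h1]
        exact congrArg Subtype.val h2
      have hk : pbE6 b (pbE6 b' 0) = 5 := by
        cases b <;> cases b'
        · exact absurd rfl hne
        · rfl
        · rfl
        · exact absurd rfl hne
      have hne' : chevE6.simple 0 ≠ chevE6.simple (pbE6 b (pbE6 b' 0)) := by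
        rw [hk]
        intro h5
        have h6 : (0 : ℕ) = 5 := simple_inj chevE6 e6_mem 0 (by decide) 5 (by decide) h5
        exact absurd h6 (by decide)
      have h4 := aut_xU_root_inj chevE6 e6_mem _ _ hlt0 hlt2 hne' _ _ h3
      rw [mul_one] at h4
      exact Units.ne_zero _ h4
    subst hb
    have h2 := (Cfsg.innNormal ↥(chevE6.group F)).conj_mem _ h'
      (gbE6 F b * fieldAut chevE6 τ)
    obtain ⟨z, hz⟩ := MonoidHom.mem_range.mp h2
    have hz' : MulAut.conj z = (diagAut chevE6 e6_mem (cwChar chevE6 (cvec 0 a.out)) (hχc _))⁻¹ *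
        diagAut chevE6 e6_mem (cwChar chevE6 (cvec 0 a'.out)) (hχc _) * gbE6 F b *
          fieldAut chevE6 τ' * (fieldAut chevE6 τ)⁻¹ * (gbE6 F b)⁻¹ := by
      rw [hz]
      group
    have hN : AutNorm chevE6 (MulAut.conj z) := by
      rw [hz']
      exact ((((((autNorm_diag chevE6 e6_mem _ (hχc _)).inv).mul
        (autNorm_diag chevE6 e6_mem _ (hχc _))).mul (autNorm_gbE6 b)).mul
        (autNorm_field chevE6 e6_mem τ')).mul (autNorm_field chevE6 e6_mem τ).inv).mul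
        (autNorm_gbE6 b).inv
    have hH := diag_of_autNorm_conj chevE6 e6_mem z hN
    have hact : ∀ i < chevE6.rank, ∀ t : F, z * xG chevE6 e6_mem (chevE6.simple i) t * z⁻¹ =
        xG chevE6 e6_mem (chevE6.simple i)
          ((((cwChar chevE6 (cvec 0 a.out) (chevE6.simple i))⁻¹ *
            cwChar chevE6 (cvec 0 a'.out) (chevE6.simple i) : Fˣ) : F) *
              (τ.symm.trans τ') t) := by
      intro i hi t
      have hlt := simple_lt chevE6 hcert i hi
      rw [← MulAut.conj_apply, hz']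
      simp only [MulAut.mul_apply]
      rw [(gbE6_inv_simple b i hi t).1, fieldAut_inv_xG, fieldAut_xG,
        (gbE6_simple b _ (pbE6_lt b i hi) _).1, pbE6_invol b i hi,
        diagAut_xG chevE6 e6_mem _ _ _ hlt, diagAut_inv_xG chevE6 e6_mem _ _ _ hlt,
        Units.val_mul, mul_assoc]
      rfl
    obtain ⟨hρ, s, hs⟩ := out_inner_diag' chevE6 e6_mem 3 _ 0 hC z hH _ (τ.symm.trans τ') hact
    have hτ : τ = τ' := by
      apply RingEquiv.ext
      intro u
      have := hρ (τ u)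
      rw [RingEquiv.trans_apply, RingEquiv.symm_apply_apply] at this
      exact this.symm
    have ha : a = a' := by
      rw [← QuotientGroup.out_eq' a, ← QuotientGroup.out_eq' a', QuotientGroup.eq, hmem]
      refine ⟨s, ?_⟩
      rw [← hs, epsC_inv_mul chevE6 _ (fun j => cwChar chevE6 (cvec 0 a.out) (chevE6.simple j))
        (fun j => cwChar chevE6 (cvec 0 a'.out) (chevE6.simple j)), hεc, hεc]
    rw [hτ, ha]
  · intro o
    obtain ⟨θ, rfl⟩ := QuotientGroup.mk_surjective o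
    obtain ⟨x, d, g, f', hd, hg, hf, hθ⟩ := aut_main chevE6 e6_mem θ
    obtain ⟨τ, hτ⟩ := hf
    obtain ⟨π, hπ, hgπ⟩ := hg
    obtain ⟨χ, hχ, hdχ⟩ := hd
    have hgb : ∃ b : Bool, ∀ y, g y = gbE6 F b y := by
      rcases e6_symm π hπ with h | h
      · exact ⟨false, fun y => graph_trivial chevE6 e6_mem g π h hgπ y⟩
      · exact ⟨true, fun y => graph_eq_gam g π h hgπ y⟩
    obtain ⟨b, hgb⟩ := hgb
    obtain ⟨c₀, hc₀⟩ : ∃ c₀ : Fˣ,
      c₀ = epsC chevE6 [1, 0, 2, 0, 1, 2] (fun j => χ (chevE6.simple j)) := ⟨_, rfl⟩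
    obtain ⟨a, ha⟩ : ∃ a : Fˣ ⧸ Sq, a = QuotientGroup.mk c₀ := ⟨_, rfl⟩
    have h1 : (QuotientGroup.mk a.out : Fˣ ⧸ Sq) = QuotientGroup.mk c₀ := by
      rw [QuotientGroup.out_eq', ha]
    rw [QuotientGroup.eq, hmem] at h1
    obtain ⟨s, hs⟩ := h1
    have hs' : c₀ = a.out * s ^ 3 := by
      rw [hs, mul_inv_cancel_left]
    obtain ⟨h, hh⟩ := out_diag_conj chevE6 e6_mem 3 _ 0 hC χ (cwChar chevE6 (cvec 0 a.out)) hχ
      (hχc _) s (by rw [← hc₀, hεc, hs'])
    refine ⟨(a, b, τ), ?_⟩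
    have hd1 : ∀ y, d y =
        h * diagAut chevE6 e6_mem (cwChar chevE6 (cvec 0 a.out)) (hχc _) y * h⁻¹ := by
      intro y
      rw [← hh y]
      exact Subtype.ext (Units.ext (hdχ y))
    have hθ' : θ = MulAut.conj (x * h) *
        (diagAut chevE6 e6_mem (cwChar chevE6 (cvec 0 a.out)) (hχc _) * gbE6 F b *
          fieldAut chevE6 τ) := by
      ext y
      rw [hθ y, hgb, hd1, isField_eq chevE6 e6_mem f' τ hτ y]
      simp only [MulAut.mul_apply, MulAut.conj_apply]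
      group
    show (QuotientGroup.mk (diagAut chevE6 e6_mem (cwChar chevE6 (cvec 0 a.out)) (hχc _) *
      gbE6 F b * fieldAut chevE6 τ) : Cfsg.Out ↥(chevE6.group F)) = QuotientGroup.mk θ
    rw [hθ']
    have h4 : (QuotientGroup.mk (MulAut.conj (x * h)) : Cfsg.Out ↥(chevE6.group F)) = 1 :=
      (QuotientGroup.eq_one_iff _).mpr ⟨x * h, rfl⟩
    show _ = (QuotientGroup.mk (MulAut.conj (x * h)) : Cfsg.Out ↥(chevE6.group F)) *
      QuotientGroup.mk (diagAut chevE6 e6_mem (cwChar chevE6 (cvec 0 a.out)) (hχc _) *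
        gbE6 F b * fieldAut chevE6 τ)
    rw [h4, one_mul]

end Cfsg.Agent.Lib.helper11
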