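import Cfsg.Agent.Lib.helper11d.Aut13
import Cfsg.Agent.S2160

/-! The structure of the outer automorphism group of a finite Chevalley group: diagonal,
field and graph automorphisms. -/

set_option autoImplicit false

namespace Cfsg.Agent.Lib.helper11

open Cfsg Cfsg.Lie Cfsg.Agent.Lib.helper2
open scoped Pointwise

variable {F : Type*} [Field F]

/-- automorphisms agreeing on the fundamental root elements are equal -/
theorem aut_ext_simple (D : ChevalleyDatum)
    (hD : D ∈ [chevG2, chevB2, chevD4, chevF4, chevE6, chevE7, chevE8])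
    (θ θ' : MulAut ↥(D.group F))
    (h : ∀ i < D.rank, ∀ t : F,
      θ (xG D hD (D.simple i) t) = θ' (xG D hD (D.simple i) t) ∧
      θ (xG D hD (D.neg (D.simple i)) t) = θ' (xG D hD (D.neg (D.simple i)) t)) : θ = θ' := by
  obtain ⟨hnx, hcert, htri, hup, hcm'⟩ := certs_of_mem F D hD
  apply MulEquiv.ext
  intro y
  refine hom_ext_simple D hD hnx hcert θ.toMonoidHom θ'.toMonoidHom ?_ y
  intro y i u hi hy
  show θ y = θ' y
  rcases hy with hy | hy
  · have hy' : y = xG D hD (D.simple i) u := Subtype.ext (Units.ext hy)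
    rw [hy']
    exact (h i hi u).1
  · have hy' : y = xG D hD (D.neg (D.simple i)) u := Subtype.ext (Units.ext hy)
    rw [hy']
    exact (h i hi u).2

theorem isRootChar_mul (D : ChevalleyDatum) (χ ψ : ℕ → Fˣ) (hχ : D.IsRootCharacter χ)
    (hψ : D.IsRootCharacter ψ) : D.IsRootCharacter (fun v => χ v * ψ v) := by
  constructor
  · intro r hr
    show χ (D.neg r) * ψ (D.neg r) = (χ r * ψ r)⁻¹
    rw [hχ.1 r hr, hψ.1 r hr, mul_inv]
  · intro r s k hr hs hk
    show χ k * ψ k = χ r * ψ r * (χ s * ψ s)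
    rw [hχ.2 r s k hr hs hk, hψ.2 r s k hr hs hk, mul_mul_mul_comm]

theorem isRootChar_one (D : ChevalleyDatum) : D.IsRootCharacter (fun _ => (1 : Fˣ)) :=
  ⟨fun _ _ => by simp, fun _ _ _ _ _ _ => by simp⟩

/-- a diagonal automorphism is the standard one -/
theorem isDiag_eq (D : ChevalleyDatum)
    (hD : D ∈ [chevG2, chevB2, chevD4, chevF4, chevE6, chevE7, chevE8])
    (φ : MulAut ↥(D.group F)) (h : D.IsDiagonalAut φ) :
    ∃ χ : ℕ → Fˣ, ∃ hχ : D.IsRootCharacter χ, φ = diagAut D hD χ hχ := by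
  obtain ⟨χ, hχ, hd⟩ := h
  refine ⟨χ, hχ, ?_⟩
  apply MulEquiv.ext
  intro y
  exact Subtype.ext (Units.ext (hd y))

theorem isField_eq' (D : ChevalleyDatum)
    (hD : D ∈ [chevG2, chevB2, chevD4, chevF4, chevE6, chevE7, chevE8])
    (φ : MulAut ↥(D.group F)) (h : D.IsFieldAut φ) : ∃ τ : F ≃+* F, φ = fieldAut D τ := by
  obtain ⟨τ, hτ⟩ := h
  refine ⟨τ, ?_⟩
  apply MulEquiv.ext
  intro y
  exact isField_eq D hD φ τ hτ y

theorem diagAut_mul (D : ChevalleyDatum)
    (hD : D ∈ [chevG2, chevB2, chevD4, chevF4, chevE6, chevE7, chevE8]) (χ ψ : ℕ → Fˣ)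
    (hχ : D.IsRootCharacter χ) (hψ : D.IsRootCharacter ψ) :
    diagAut D hD χ hχ * diagAut D hD ψ hψ =
      diagAut D hD (fun v => χ v * ψ v) (isRootChar_mul D χ ψ hχ hψ) := by
  obtain ⟨hnx, hcert, htri, hup, hcm'⟩ := certs_of_mem F D hD
  apply aut_ext_simple D hD
  intro i hi t
  have hlt := simple_lt D hcert i hi
  have hlt' := neg_lt' D hD hnx _ hlt
  constructor
  · rw [MulAut.mul_apply, diagAut_xG D hD ψ hψ _ hlt, diagAut_xG D hD χ hχ _ hlt,
      diagAut_xG D hD _ _ _ hlt, Units.val_mul, mul_assoc]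
  · rw [MulAut.mul_apply, diagAut_xG D hD ψ hψ _ hlt', diagAut_xG D hD χ hχ _ hlt',
      diagAut_xG D hD _ _ _ hlt', Units.val_mul, mul_assoc]

theorem diagAut_inv (D : ChevalleyDatum)
    (hD : D ∈ [chevG2, chevB2, chevD4, chevF4, chevE6, chevE7, chevE8]) (χ : ℕ → Fˣ)
    (hχ : D.IsRootCharacter χ) :
    (diagAut D hD χ hχ)⁻¹ = diagAut D hD (fun v => (χ v)⁻¹) (isRootChar_inv D χ hχ) := by
  obtain ⟨hnx, hcert, htri, hup, hcm'⟩ := certs_of_mem F D hD
  apply aut_ext_simple D hD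
  intro i hi t
  have hlt := simple_lt D hcert i hi
  have hlt' := neg_lt' D hD hnx _ hlt
  constructor
  · rw [diagAut_inv_xG D hD χ hχ _ hlt, diagAut_xG D hD _ _ _ hlt]
  · rw [diagAut_inv_xG D hD χ hχ _ hlt', diagAut_xG D hD _ _ _ hlt']

theorem diagAut_comm (D : ChevalleyDatum)
    (hD : D ∈ [chevG2, chevB2, chevD4, chevF4, chevE6, chevE7, chevE8]) (χ ψ : ℕ → Fˣ)
    (hχ : D.IsRootCharacter χ) (hψ : D.IsRootCharacter ψ) :
    diagAut D hD χ hχ * diagAut D hD ψ hψ = diagAut D hD ψ hψ * diagAut D hD χ hχ := by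
  obtain ⟨hnx, hcert, htri, hup, hcm'⟩ := certs_of_mem F D hD
  apply aut_ext_simple D hD
  intro i hi t
  have hlt := simple_lt D hcert i hi
  have hlt' := neg_lt' D hD hnx _ hlt
  constructor
  · rw [MulAut.mul_apply, MulAut.mul_apply, diagAut_xG D hD ψ hψ _ hlt,
      diagAut_xG D hD χ hχ _ hlt, diagAut_xG D hD χ hχ _ hlt, diagAut_xG D hD ψ hψ _ hlt,
      mul_left_comm]
  · rw [MulAut.mul_apply, MulAut.mul_apply, diagAut_xG D hD ψ hψ _ hlt',
      diagAut_xG D hD χ hχ _ hlt', diagAut_xG D hD χ hχ _ hlt', diagAut_xG D hD ψ hψ _ hlt',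
      mul_left_comm]

theorem isDiag_one (D : ChevalleyDatum) : D.IsDiagonalAut (1 : MulAut ↥(D.group F)) := by
  refine ⟨fun _ => 1, isRootChar_one D, fun g => ?_⟩
  rw [charDiag_eq_one D _ (fun _ _ => rfl), charDiag_eq_one D _ (fun _ _ => inv_one)]
  simp

/-- the group of diagonal automorphisms -/
def diagSub (D : ChevalleyDatum)
    (hD : D ∈ [chevG2, chevB2, chevD4, chevF4, chevE6, chevE7, chevE8]) :
    Subgroup (MulAut ↥(D.group F)) where
  carrier := {φ | D.IsDiagonalAut φ}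
  mul_mem' := by
    intro a b ha hb
    obtain ⟨χ, hχ, rfl⟩ := isDiag_eq D hD a ha
    obtain ⟨ψ, hψ, rfl⟩ := isDiag_eq D hD b hb
    show D.IsDiagonalAut (diagAut D hD χ hχ * diagAut D hD ψ hψ)
    rw [diagAut_mul]
    exact diagAut_isDiag D hD _ _
  one_mem' := isDiag_one D
  inv_mem' := by
    intro a ha
    obtain ⟨χ, hχ, rfl⟩ := isDiag_eq D hD a ha
    show D.IsDiagonalAut (diagAut D hD χ hχ)⁻¹
    rw [diagAut_inv]
    exact diagAut_isDiag D hD _ _

theorem mem_diagSub (D : ChevalleyDatum)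
    (hD : D ∈ [chevG2, chevB2, chevD4, chevF4, chevE6, chevE7, chevE8])
    (φ : MulAut ↥(D.group F)) : φ ∈ diagSub D hD ↔ D.IsDiagonalAut φ := Iff.rfl

/-- the homomorphism from the automorphisms of the field to the automorphisms of the group -/
noncomputable def fieldHom (D : ChevalleyDatum)
    (hD : D ∈ [chevG2, chevB2, chevD4, chevF4, chevE6, chevE7, chevE8]) :
    (F ≃+* F) →* MulAut ↥(D.group F) where
  toFun := fieldAut D
  map_one' := by
    apply aut_ext_simple D hD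
    intro i hi t
    constructor <;> rw [fieldAut_xG] <;> rfl
  map_mul' := by
    intro σ τ
    apply aut_ext_simple D hD
    intro i hi t
    constructor <;> rw [MulAut.mul_apply, fieldAut_xG, fieldAut_xG, fieldAut_xG] <;> rfl

theorem fieldHom_apply (D : ChevalleyDatum)
    (hD : D ∈ [chevG2, chevB2, chevD4, chevF4, chevE6, chevE7, chevE8]) (τ : F ≃+* F) :
    fieldHom D hD τ = fieldAut D τ := rfl

theorem isField_set (D : ChevalleyDatum)
    (hD : D ∈ [chevG2, chevB2, chevD4, chevF4, chevE6, chevE7, chevE8]) :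
    {φ : MulAut ↥(D.group F) | D.IsFieldAut φ} =
      ((fieldHom (F := F) D hD).range : Set (MulAut ↥(D.group F))) := by
  ext φ
  constructor
  · intro h
    obtain ⟨τ, rfl⟩ := isField_eq' D hD φ h
    exact ⟨τ, rfl⟩
  · rintro ⟨τ, rfl⟩
    exact fieldAut_isField D τ

/-- the automorphism group of a finite field is cyclic -/
theorem ringAut_isCyclic [Finite F] : IsCyclic (F ≃+* F) := by
  haveI : Fintype F := Fintype.ofFinite F
  haveI : Fact (ringChar F).Prime := ⟨CharP.char_is_prime F (ringChar F)⟩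
  letI : Algebra (ZMod (ringChar F)) F := ZMod.algebra F (ringChar F)
  let e : (F ≃ₐ[ZMod (ringChar F)] F) →* (F ≃+* F) :=
    { toFun := fun a => a.toRingEquiv
      map_one' := rfl
      map_mul' := fun a b => rfl }
  have hsurj : Function.Surjective e := by
    intro σ
    refine ⟨AlgEquiv.ofRingEquiv (f := σ) (fun r => ?_), ?_⟩
    · exact RingHom.congr_fun (Subsingleton.elim
        ((σ : F →+* F).comp (algebraMap (ZMod (ringChar F)) F))
          (algebraMap (ZMod (ringChar F)) F)) r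
    · ext x
      rfl
  exact isCyclic_of_surjective e hsurj

/-- a field automorphism normalizes the diagonal automorphisms -/
theorem field_conj_diag (D : ChevalleyDatum)
    (hD : D ∈ [chevG2, chevB2, chevD4, chevF4, chevE6, chevE7, chevE8]) (τ : F ≃+* F)
    (δ : MulAut ↥(D.group F)) (hδ : δ ∈ diagSub D hD) :
    fieldAut D τ * δ * (fieldAut D τ)⁻¹ ∈ diagSub D hD := by
  obtain ⟨hnx, hcert, htri, hup, hcm'⟩ := certs_of_mem F D hD
  obtain ⟨χ, hχ, rfl⟩ := isDiag_eq D hD δ hδ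
  obtain ⟨c, hc⟩ : ∃ c : ℕ → Fˣ,
      c = fun j => Units.map (τ : F ≃* F).toMonoidHom (χ (D.simple j)) := ⟨_, rfl⟩
  have hcv : ∀ j, ((c j : Fˣ) : F) = τ (χ (D.simple j) : F) := fun j => by
    rw [hc]
    rfl
  have e : fieldAut D τ * diagAut D hD χ hχ * (fieldAut D τ)⁻¹ =
      diagAut D hD (cwChar D c) (cwChar_isRoot D hD c) := by
    apply aut_ext_simple D hD
    intro i hi t
    have hlt := simple_lt D hcert i hi
    have hlt' := neg_lt' D hD hnx _ hlt
    constructor
    · rw [MulAut.mul_apply, MulAut.mul_apply, fieldAut_inv_xG, diagAut_xG D hD χ hχ _ hlt,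
        fieldAut_xG, diagAut_xG D hD _ _ _ hlt, cwChar_simple D hD c i hi, map_mul,
        RingEquiv.apply_symm_apply, hcv]
    · rw [MulAut.mul_apply, MulAut.mul_apply, fieldAut_inv_xG, diagAut_xG D hD χ hχ _ hlt',
        fieldAut_xG, diagAut_xG D hD _ _ _ hlt', (cwChar_isRoot D hD c).1 _ hlt,
        cwChar_simple D hD c i hi, map_mul, RingEquiv.apply_symm_apply, hχ.1 _ hlt,
        Units.val_inv_eq_inv_val, Units.val_inv_eq_inv_val, map_inv₀, hcv]
  rw [e]
  exact diagAut_isDiag D hD _ _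

end Cfsg.Agent.Lib.helper11
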