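import Cfsg.Agent.Lib.helper11d.Aut14

/-! The structure of the outer automorphism group of a finite Chevalley group: normality of
the diagonal and field parts, and the index bound. -/

set_option autoImplicit false

namespace Cfsg.Agent.Lib.helper11

open Cfsg Cfsg.Lie Cfsg.Agent.Lib.helper2
open scoped Pointwise

variable {F : Type*} [Field F]

/-- the action of a graph automorphism on the fundamental root elements -/
def GraphSpec (D : ChevalleyDatum)
    (hD : D ∈ [chevG2, chevB2, chevD4, chevF4, chevE6, chevE7, chevE8])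
    (g : MulAut ↥(D.group F)) (π : Equiv.Perm (Fin D.rank)) : Prop :=
  ∀ (i : Fin D.rank) (t : F),
    g (xG D hD (D.simple i) t) =
      xG D hD (D.simple (π i)) (t ^ D.graphExp (ringChar F) i (π i)) ∧
    g (xG D hD (D.neg (D.simple i)) t) =
      xG D hD (D.neg (D.simple (π i))) (t ^ D.graphExp (ringChar F) i (π i))

theorem isGraph_iff (D : ChevalleyDatum)
    (hD : D ∈ [chevG2, chevB2, chevD4, chevF4, chevE6, chevE7, chevE8])
    (g : MulAut ↥(D.group F)) :
    D.IsGraphAut g ↔ ∃ π : Equiv.Perm (Fin D.rank), D.IsDiagramSymmetry π ∧ GraphSpec D hD g π := by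
  constructor
  · rintro ⟨π, hπ, hgπ⟩
    exact ⟨π, hπ, fun i t => ⟨Subtype.ext (Units.ext ((hgπ _ i t).1 rfl)),
      Subtype.ext (Units.ext ((hgπ _ i t).2 rfl))⟩⟩
  · rintro ⟨π, hπ, hs⟩
    refine ⟨π, hπ, fun y i t => ⟨fun hy => ?_, fun hy => ?_⟩⟩
    · have hy' : y = xG D hD (D.simple i) t := Subtype.ext (Units.ext hy)
      rw [hy', (hs i t).1]
      rfl
    · have hy' : y = xG D hD (D.neg (D.simple i)) t := Subtype.ext (Units.ext hy)
      rw [hy', (hs i t).2]
      rfl

theorem graph_unique (D : ChevalleyDatum)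
    (hD : D ∈ [chevG2, chevB2, chevD4, chevF4, chevE6, chevE7, chevE8])
    (g g' : MulAut ↥(D.group F)) (π : Equiv.Perm (Fin D.rank)) (h : GraphSpec D hD g π)
    (h' : GraphSpec D hD g' π) : g = g' :=
  aut_ext_simple D hD g g' (fun i hi t =>
    ⟨((h ⟨i, hi⟩ t).1).trans ((h' ⟨i, hi⟩ t).1).symm,
      ((h ⟨i, hi⟩ t).2).trans ((h' ⟨i, hi⟩ t).2).symm⟩)

theorem graphSpec_one (D : ChevalleyDatum)
    (hD : D ∈ [chevG2, chevB2, chevD4, chevF4, chevE6, chevE7, chevE8]) :
    GraphSpec (F := F) D hD 1 1 := by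
  intro i t
  have e : D.graphExp (ringChar F) i ((1 : Equiv.Perm (Fin D.rank)) i) = 1 := graphExp_self D _ _
  rw [e, pow_one]
  exact ⟨rfl, rfl⟩

/-- automorphisms agreeing on the fundamental root elements, indexed through a permutation -/
theorem aut_ext_perm (D : ChevalleyDatum)
    (hD : D ∈ [chevG2, chevB2, chevD4, chevF4, chevE6, chevE7, chevE8])
    (θ θ' : MulAut ↥(D.group F)) (π : Equiv.Perm (Fin D.rank))
    (h : ∀ (i : Fin D.rank) (t : F),
      θ (xG D hD (D.simple (π i)) t) = θ' (xG D hD (D.simple (π i)) t) ∧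
      θ (xG D hD (D.neg (D.simple (π i))) t) = θ' (xG D hD (D.neg (D.simple (π i))) t)) :
    θ = θ' := by
  apply aut_ext_simple D hD
  intro j hj t
  have := h (π.symm ⟨j, hj⟩) t
  rw [Equiv.apply_symm_apply] at this
  exact this

theorem graphExp_surj [Finite F] (D : ChevalleyDatum) (a b : ℕ) (t : F) :
    ∃ u : F, u ^ D.graphExp (ringChar F) a b = t := by
  unfold ChevalleyDatum.graphExp
  split_ifs
  · haveI : ExpChar F (ringChar F) := ExpChar.prime (CharP.char_is_prime F (ringChar F))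
    have hinj : Function.Injective (frobenius F (ringChar F)) := frobenius_inj F (ringChar F)
    obtain ⟨u, hu⟩ := Finite.injective_iff_surjective.mp hinj t
    exact ⟨u, hu⟩
  · exact ⟨t, pow_one t⟩

/-- a graph automorphism normalizes the diagonal automorphisms -/
theorem graph_conj_diag [Finite F] (D : ChevalleyDatum)
    (hD : D ∈ [chevG2, chevB2, chevD4, chevF4, chevE6, chevE7, chevE8])
    (g : MulAut ↥(D.group F)) (hg : D.IsGraphAut g)
    (δ : MulAut ↥(D.group F)) (hδ : δ ∈ diagSub D hD) : g * δ * g⁻¹ ∈ diagSub D hD := by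
  obtain ⟨hnx, hcert, htri, hup, hcm'⟩ := certs_of_mem F D hD
  obtain ⟨χ, hχ, rfl⟩ := isDiag_eq D hD δ hδ
  obtain ⟨π, hπ, hs⟩ := (isGraph_iff D hD g).mp hg
  obtain ⟨c, hc⟩ : ∃ c : ℕ → Fˣ, c = fun j => if h : j < D.rank then
      χ (D.simple (π.symm ⟨j, h⟩)) ^ D.graphExp (ringChar F) (π.symm ⟨j, h⟩) j else 1 := ⟨_, rfl⟩
  have hcπ : ∀ i : Fin D.rank,
      c (π i) = χ (D.simple i) ^ D.graphExp (ringChar F) i (π i) := by
    intro i
    rw [hc]
    show (if h : (π i : ℕ) < D.rank then χ (D.simple (π.symm ⟨(π i : ℕ), h⟩)) ^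
      D.graphExp (ringChar F) (π.symm ⟨(π i : ℕ), h⟩) (π i) else 1) = _
    rw [dif_pos (π i).2]
    have e : π.symm ⟨(π i : ℕ), (π i).2⟩ = i := π.symm_apply_apply i
    rw [e]
  have e : g * diagAut D hD χ hχ * g⁻¹ = diagAut D hD (cwChar D c) (cwChar_isRoot D hD c) := by
    apply aut_ext_perm D hD _ _ π
    intro i t
    obtain ⟨u, hu⟩ := graphExp_surj (F := F) D i (π i) t
    have hlti := simple_lt D hcert i i.2
    have hlti' := neg_lt' D hD hnx _ hlti
    have hltj := simple_lt D hcert (π i) (π i).2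
    have hltj' := neg_lt' D hD hnx _ hltj
    constructor
    · have e1 : xG D hD (D.simple (π i)) t = g (xG D hD (D.simple i) u) := by
        rw [(hs i u).1, hu]
      have hL : (g * diagAut D hD χ hχ * g⁻¹) (xG D hD (D.simple (π i)) t) =
          xG D hD (D.simple (π i))
            ((χ (D.simple i) : F) ^ D.graphExp (ringChar F) i (π i) * t) := by
        rw [MulAut.mul_apply, MulAut.mul_apply, e1, MulAut.inv_apply_self,
          diagAut_xG D hD χ hχ _ hlti, (hs i _).1, mul_pow, hu]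
      rw [hL, diagAut_xG D hD _ _ _ hltj, cwChar_simple D hD c _ (π i).2, hcπ,
        Units.val_pow_eq_pow_val]
    · have e1 : xG D hD (D.neg (D.simple (π i))) t = g (xG D hD (D.neg (D.simple i)) u) := by
        rw [(hs i u).2, hu]
      have hL : (g * diagAut D hD χ hχ * g⁻¹) (xG D hD (D.neg (D.simple (π i))) t) =
          xG D hD (D.neg (D.simple (π i)))
            ((((χ (D.simple i))⁻¹ : Fˣ) : F) ^ D.graphExp (ringChar F) i (π i) * t) := by
        rw [MulAut.mul_apply, MulAut.mul_apply, e1, MulAut.inv_apply_self,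
          diagAut_xG D hD χ hχ _ hlti', hχ.1 _ hlti, (hs i _).2, mul_pow, hu]
      rw [hL, diagAut_xG D hD _ _ _ hltj', (cwChar_isRoot D hD c).1 _ hltj,
        cwChar_simple D hD c _ (π i).2, hcπ, ← Units.val_pow_eq_pow_val, inv_pow]
  rw [e]
  exact diagAut_isDiag D hD _ _

/-- graph and field automorphisms commute -/
theorem graph_field_comm (D : ChevalleyDatum)
    (hD : D ∈ [chevG2, chevB2, chevD4, chevF4, chevE6, chevE7, chevE8])
    (g : MulAut ↥(D.group F)) (hg : D.IsGraphAut g) (τ : F ≃+* F) :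
    g * fieldAut D τ * g⁻¹ = fieldAut D τ := by
  apply MulEquiv.ext
  intro y
  rw [MulAut.mul_apply, MulAut.mul_apply,
    ← Cfsg.Agent.S2160.main D hD (fieldAut D τ) g (fieldAut_isField D τ) hg, MulAut.apply_inv_self]

/-- the class of an automorphism is the class of a product of a diagonal, a graph and a
field automorphism -/
theorem out_decomp [Finite F] (D : ChevalleyDatum)
    (hD : D ∈ [chevG2, chevB2, chevD4, chevF4, chevE6, chevE7, chevE8])
    (θ : MulAut ↥(D.group F)) :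
    ∃ δ ∈ diagSub D hD, ∃ g : MulAut ↥(D.group F), D.IsGraphAut g ∧ ∃ τ : F ≃+* F,
      (QuotientGroup.mk θ : Cfsg.Out ↥(D.group F)) = QuotientGroup.mk (δ * g * fieldAut D τ) := by
  obtain ⟨x, d, g, f', hd, hg, hf, hθ⟩ := aut_main D hD θ
  obtain ⟨τ, rfl⟩ := isField_eq' D hD f' hf
  refine ⟨d, hd, g, hg, τ, ?_⟩
  have hθ' : θ = MulAut.conj x * (d * g * fieldAut D τ) := by
    apply MulEquiv.ext
    intro y
    rw [hθ y]
    simp only [MulAut.mul_apply, MulAut.conj_apply]
  rw [hθ']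
  have h4 : (QuotientGroup.mk (MulAut.conj x) : Cfsg.Out ↥(D.group F)) = 1 :=
    (QuotientGroup.eq_one_iff _).mpr ⟨x, rfl⟩
  show (QuotientGroup.mk (MulAut.conj x) : Cfsg.Out ↥(D.group F)) *
    QuotientGroup.mk (d * g * fieldAut D τ) = _
  rw [h4, one_mul]

/-- the image of the diagonal automorphisms in the outer automorphism group -/
noncomputable def dbar (F : Type*) [Field F] (D : ChevalleyDatum)
    (hD : D ∈ [chevG2, chevB2, chevD4, chevF4, chevE6, chevE7, chevE8]) :
    Subgroup (Cfsg.Out ↥(D.group F)) :=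
  (diagSub D hD).map (QuotientGroup.mk' (Cfsg.Inn ↥(D.group F)))

/-- the image of the field automorphisms in the outer automorphism group -/
noncomputable def fbar (F : Type*) [Field F] (D : ChevalleyDatum)
    (hD : D ∈ [chevG2, chevB2, chevD4, chevF4, chevE6, chevE7, chevE8]) :
    Subgroup (Cfsg.Out ↥(D.group F)) :=
  (fieldHom D hD).range.map (QuotientGroup.mk' (Cfsg.Inn ↥(D.group F)))

theorem dbar_normal [Finite F] (D : ChevalleyDatum)
    (hD : D ∈ [chevG2, chevB2, chevD4, chevF4, chevE6, chevE7, chevE8]) :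
    (dbar F D hD).Normal := by
  constructor
  intro n hn o
  obtain ⟨δ, hδ, rfl⟩ := Subgroup.mem_map.mp hn
  obtain ⟨θ, rfl⟩ := QuotientGroup.mk_surjective o
  obtain ⟨d', hd', g, hg, τ, hq⟩ := out_decomp D hD θ
  rw [hq]
  refine Subgroup.mem_map.mpr
    ⟨(d' * g * fieldAut D τ) * δ * (d' * g * fieldAut D τ)⁻¹, ?_, rfl⟩
  have h1 := field_conj_diag D hD τ δ hδ
  have h2 := graph_conj_diag D hD g hg _ h1
  have h3 := mul_mem (mul_mem hd' h2) (inv_mem hd')
  have e : (d' * g * fieldAut D τ) * δ * (d' * g * fieldAut D τ)⁻¹ =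
      d' * (g * (fieldAut D τ * δ * (fieldAut D τ)⁻¹) * g⁻¹) * d'⁻¹ := by group
  rw [e]
  exact h3

theorem dbar_comm (D : ChevalleyDatum)
    (hD : D ∈ [chevG2, chevB2, chevD4, chevF4, chevE6, chevE7, chevE8]) :
    IsMulCommutative ↥(dbar F D hD) := by
  refine ⟨⟨fun a b => Subtype.ext ?_⟩⟩
  obtain ⟨δ, hδ, ha⟩ := Subgroup.mem_map.mp a.2
  obtain ⟨δ', hδ', hb⟩ := Subgroup.mem_map.mp b.2
  obtain ⟨χ, hχ, rfl⟩ := isDiag_eq D hD δ hδ
  obtain ⟨ψ, hψ, rfl⟩ := isDiag_eq D hD δ' hδ'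
  show (a : Cfsg.Out ↥(D.group F)) * (b : Cfsg.Out ↥(D.group F)) = b * a
  rw [← ha, ← hb, ← map_mul, ← map_mul, diagAut_comm]

theorem fbar_cyclic [Finite F] (D : ChevalleyDatum)
    (hD : D ∈ [chevG2, chevB2, chevD4, chevF4, chevE6, chevE7, chevE8]) :
    IsCyclic ↥(fbar F D hD) := by
  haveI := ringAut_isCyclic (F := F)
  have e : fbar F D hD =
      ((QuotientGroup.mk' (Cfsg.Inn ↥(D.group F))).comp (fieldHom D hD)).range := by
    unfold fbar
    rw [MonoidHom.range_comp]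
  rw [e]
  exact isCyclic_of_surjective
    ((QuotientGroup.mk' (Cfsg.Inn ↥(D.group F))).comp (fieldHom D hD)).rangeRestrict
    (MonoidHom.rangeRestrict_surjective _)

theorem dfbar_normal [Finite F] (D : ChevalleyDatum)
    (hD : D ∈ [chevG2, chevB2, chevD4, chevF4, chevE6, chevE7, chevE8]) :
    (dbar F D hD ⊔ fbar F D hD).Normal := by
  haveI := dbar_normal (F := F) D hD
  constructor
  intro n hn o
  obtain ⟨a, ha, b, hb, rfl⟩ := Subgroup.mem_sup_of_normal_left.mp hn
  have e : o * (a * b) * o⁻¹ = (o * a * o⁻¹) * (o * b * o⁻¹) := by group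
  rw [e]
  refine mul_mem (Subgroup.mem_sup_left (Subgroup.Normal.conj_mem inferInstance a ha o)) ?_
  obtain ⟨φ, hφ, rfl⟩ := Subgroup.mem_map.mp hb
  obtain ⟨σ, rfl⟩ := hφ
  obtain ⟨θ, rfl⟩ := QuotientGroup.mk_surjective o
  obtain ⟨d', hd', g, hg, τ, hq⟩ := out_decomp D hD θ
  rw [hq]
  have e1 : fieldAut D τ * fieldAut D σ * (fieldAut D τ)⁻¹ = fieldAut D (τ * σ * τ⁻¹) := by
    rw [← fieldHom_apply D hD, ← fieldHom_apply D hD, ← fieldHom_apply D hD, ← map_inv,
      ← map_mul, ← map_mul]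
  obtain ⟨ρ, hρ⟩ : ∃ ρ : F ≃+* F, ρ = τ * σ * τ⁻¹ := ⟨_, rfl⟩
  rw [← hρ] at e1
  have e2 : g * fieldAut D ρ * g⁻¹ = fieldAut D ρ := graph_field_comm D hD g hg ρ
  have e3 : (d' * g * fieldAut D τ) * fieldAut D σ * (d' * g * fieldAut D τ)⁻¹ =
      (d' * (fieldAut D ρ * d'⁻¹ * (fieldAut D ρ)⁻¹)) * fieldAut D ρ := by
    have e4 : (d' * g * fieldAut D τ) * fieldAut D σ * (d' * g * fieldAut D τ)⁻¹ =
        d' * (g * (fieldAut D τ * fieldAut D σ * (fieldAut D τ)⁻¹) * g⁻¹) * d'⁻¹ := by group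
    rw [e4, e1, e2]
    group
  have h5 : d' * (fieldAut D ρ * d'⁻¹ * (fieldAut D ρ)⁻¹) ∈ diagSub D hD :=
    mul_mem hd' (field_conj_diag D hD ρ _ (inv_mem hd'))
  show (QuotientGroup.mk' (Cfsg.Inn ↥(D.group F)))
    ((d' * g * fieldAut D τ) * fieldAut D σ * (d' * g * fieldAut D τ)⁻¹) ∈ _
  rw [e3, map_mul]
  exact mul_mem (Subgroup.mem_sup_left (Subgroup.mem_map_of_mem _ h5))
    (Subgroup.mem_sup_right (Subgroup.mem_map_of_mem _ ⟨ρ, rfl⟩))

/-- every class is a graph class modulo the diagonal and field classes -/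
theorem out_graph_coset [Finite F] (D : ChevalleyDatum)
    (hD : D ∈ [chevG2, chevB2, chevD4, chevF4, chevE6, chevE7, chevE8])
    (o : Cfsg.Out ↥(D.group F)) :
    ∃ g : MulAut ↥(D.group F), D.IsGraphAut g ∧
      (QuotientGroup.mk g : Cfsg.Out ↥(D.group F))⁻¹ * o ∈ dbar F D hD ⊔ fbar F D hD := by
  haveI := dbar_normal (F := F) D hD
  obtain ⟨θ, rfl⟩ := QuotientGroup.mk_surjective o
  obtain ⟨d', hd', g, hg, τ, hq⟩ := out_decomp D hD θ
  refine ⟨g, hg, ?_⟩
  rw [hq]
  have e : (QuotientGroup.mk g : Cfsg.Out ↥(D.group F))⁻¹ *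
      QuotientGroup.mk (d' * g * fieldAut D τ) =
      ((QuotientGroup.mk g : Cfsg.Out ↥(D.group F))⁻¹ * QuotientGroup.mk d' *
        ((QuotientGroup.mk g : Cfsg.Out ↥(D.group F))⁻¹)⁻¹) *
          QuotientGroup.mk (fieldAut D τ) := by
    rw [show (QuotientGroup.mk (d' * g * fieldAut D τ) : Cfsg.Out ↥(D.group F)) =
      QuotientGroup.mk d' * QuotientGroup.mk g * QuotientGroup.mk (fieldAut D τ) from rfl]
    group
  rw [e]
  have hN := dbar_normal (F := F) D hD
  have hd'' : (QuotientGroup.mk d' : Cfsg.Out ↥(D.group F)) ∈ dbar F D hD :=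
    Subgroup.mem_map_of_mem _ hd'
  have hτ'' : (QuotientGroup.mk (fieldAut D τ) : Cfsg.Out ↥(D.group F)) ∈ fbar F D hD :=
    Subgroup.mem_map_of_mem _ ⟨τ, rfl⟩
  exact mul_mem (Subgroup.mem_sup_left (hN.conj_mem _ hd'' _)) (Subgroup.mem_sup_right hτ'')

/-- a normal subgroup with at most two cosets -/
theorem index_one_or_two {G : Type*} [Group G] [Finite G] (N : Subgroup G) [N.Normal]
    (o₂ : G) (h : ∀ o : G, o ∈ N ∨ o₂⁻¹ * o ∈ N) : N.index = 1 ∨ N.index = 2 := by
  have h1 : N.index ≠ 0 := Subgroup.index_ne_zero_of_finite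
  have h2 : N.index ≤ 2 := by
    rw [Subgroup.index_eq_card]
    have hsurj : Function.Surjective (fun b : Bool =>
        if b then (QuotientGroup.mk o₂ : G ⧸ N) else 1) := by
      intro x
      obtain ⟨o, rfl⟩ := QuotientGroup.mk_surjective x
      rcases h o with h | h
      · exact ⟨false, ((QuotientGroup.eq_one_iff o).mpr h).symm⟩
      · exact ⟨true, QuotientGroup.eq.mpr h⟩
    have := Nat.card_le_card_of_surjective _ hsurj
    have hb : Nat.card Bool = 2 := by rw [Nat.card_eq_fintype_card, Fintype.card_bool]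
    rw [hb] at this
    exact this
  omega

/-- the index of the diagonal and field classes when the diagram has at most one non-trivial
symmetry -/
theorem out_index_le_two [Finite F] (D : ChevalleyDatum)
    (hD : D ∈ [chevG2, chevB2, chevD4, chevF4, chevE6, chevE7, chevE8]) (L : List ℕ)
    (hsym : ∀ π : Equiv.Perm (Fin D.rank), D.IsDiagramSymmetry π →
      (∀ i, π i = i) ∨ (∀ i, (π i : ℕ) = L.getD i 0)) :
    (dbar F D hD ⊔ fbar F D hD).index = 1 ∨ (dbar F D hD ⊔ fbar F D hD).index = 2 := by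
  haveI := dfbar_normal (F := F) D hD
  have hone : ∀ (g : MulAut ↥(D.group F)) (π : Equiv.Perm (Fin D.rank)),
      GraphSpec D hD g π → (∀ i, π i = i) → g = 1 := by
    intro g π hs h
    have hπ1 : π = 1 := Equiv.ext h
    rw [hπ1] at hs
    exact graph_unique D hD g 1 1 hs (graphSpec_one D hD)
  by_cases hex : ∃ (g₂ : MulAut ↥(D.group F)) (π : Equiv.Perm (Fin D.rank)),
      D.IsDiagramSymmetry π ∧ GraphSpec D hD g₂ π ∧ (∀ i, (π i : ℕ) = L.getD i 0)
  · obtain ⟨g₂, π₂, hπ₂, hs₂, hL₂⟩ := hex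
    apply index_one_or_two _ (QuotientGroup.mk g₂ : Cfsg.Out ↥(D.group F))
    intro o
    obtain ⟨g, hg, hgo⟩ := out_graph_coset D hD o
    obtain ⟨π, hπ, hs⟩ := (isGraph_iff D hD g).mp hg
    rcases hsym π hπ with h | h
    · left
      rw [hone g π hs h] at hgo
      have e : (QuotientGroup.mk (1 : MulAut ↥(D.group F)) : Cfsg.Out ↥(D.group F))⁻¹ * o = o := by
        rw [show (QuotientGroup.mk (1 : MulAut ↥(D.group F)) : Cfsg.Out ↥(D.group F)) = 1 from rfl,
          inv_one, one_mul]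
      rw [e] at hgo
      exact hgo
    · right
      have hππ : π = π₂ := Equiv.ext (fun i => Fin.ext ((h i).trans (hL₂ i).symm))
      rw [hππ] at hs
      rw [graph_unique D hD g g₂ π₂ hs hs₂] at hgo
      exact hgo
  · apply index_one_or_two _ (1 : Cfsg.Out ↥(D.group F))
    intro o
    left
    obtain ⟨g, hg, hgo⟩ := out_graph_coset D hD o
    obtain ⟨π, hπ, hs⟩ := (isGraph_iff D hD g).mp hg
    rcases hsym π hπ with h | h
    · rw [hone g π hs h] at hgo
      have e : (QuotientGroup.mk (1 : MulAut ↥(D.group F)) : Cfsg.Out ↥(D.group F))⁻¹ * o = o := by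
        rw [show (QuotientGroup.mk (1 : MulAut ↥(D.group F)) : Cfsg.Out ↥(D.group F)) = 1 from rfl,
          inv_one, one_mul]
      rw [e] at hgo
      exact hgo
    · exact absurd ⟨g, π, hπ, hs, h⟩ hex

end Cfsg.Agent.Lib.helper11
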