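import Cfsg.Agent.Lib.helper11d.Aut15

/-! The structure of the outer automorphism group of a finite Chevalley group: the symmetries
of the diagrams and the triality of `D₄`. -/

set_option autoImplicit false

namespace Cfsg.Agent.Lib.helper11

open Cfsg Cfsg.Lie Cfsg.Agent.Lib.helper2
open scoped Pointwise commutatorElement

/-- the permutations of two nodes -/
theorem sym_rank2 (D : ChevalleyDatum) (hr : D.rank = 2) (π : Equiv.Perm (Fin D.rank)) :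
    (∀ i, π i = i) ∨ (∀ i, (π i : ℕ) = ([1, 0] : List ℕ).getD i 0) := by
  have l0 : (0 : ℕ) < D.rank := by omega
  have l1 : (1 : ℕ) < D.rank := by omega
  have hinj : ∀ a b : Fin D.rank, (π a : ℕ) = (π b : ℕ) → (a : ℕ) = b :=
    fun a b h => congrArg Fin.val (π.injective (Fin.ext h))
  have b0 : (π ⟨0, l0⟩ : ℕ) < D.rank := (π ⟨0, l0⟩).2
  have b1 : (π ⟨1, l1⟩ : ℕ) < D.rank := (π ⟨1, l1⟩).2
  have h01 : (π ⟨0, l0⟩ : ℕ) = (π ⟨1, l1⟩ : ℕ) → (0 : ℕ) = 1 := hinj ⟨0, l0⟩ ⟨1, l1⟩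
  have hne : (π ⟨0, l0⟩ : ℕ) ≠ (π ⟨1, l1⟩ : ℕ) := fun h => absurd (h01 h) (by decide)
  by_cases h : (π ⟨0, l0⟩ : ℕ) = 0
  · left
    have h1 : (π ⟨1, l1⟩ : ℕ) = 1 := by omega
    intro i
    apply Fin.ext
    obtain ⟨iv, hiv⟩ := i
    have hiv' : iv = 0 ∨ iv = 1 := by omega
    rcases hiv' with rfl | rfl
    · exact h
    · exact h1
  · right
    have h0 : (π ⟨0, l0⟩ : ℕ) = 1 := by omega
    have h1 : (π ⟨1, l1⟩ : ℕ) = 0 := by omega
    intro i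
    obtain ⟨iv, hiv⟩ := i
    have hiv' : iv = 0 ∨ iv = 1 := by omega
    rcases hiv' with rfl | rfl
    · exact h0
    · exact h1

theorem wv3_F4 : ∀ i < 4, wv3 chevF4 i = ([155, 309, 309, 155] : List ℤ).getD i 0 := by
  decide +kernel

theorem wv3_F4_inj : ∀ i < 4, ∀ j < 4,
    ([155, 309, 309, 155] : List ℤ).getD i 0 = ([155, 309, 309, 155] : List ℤ).getD j 0 →
    j = i ∨ j = ([3, 2, 1, 0] : List ℕ).getD i 0 := by decide

theorem f4_bonds : chevF4.bonds 0 1 = 1 ∧ chevF4.bonds 0 2 = 0 ∧ chevF4.bonds 3 1 = 0 ∧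
    chevF4.bonds 3 2 = 1 := by decide +kernel

/-- the symmetries of the Dynkin diagram of type `F₄` -/
theorem f4_symm (π : Equiv.Perm (Fin chevF4.rank)) (hπ : chevF4.IsDiagramSymmetry π) :
    (∀ i, π i = i) ∨ (∀ i, (π i : ℕ) = ([3, 2, 1, 0] : List ℕ).getD i 0) := by
  have hD : chevF4 ∈ [chevG2, chevB2, chevD4, chevF4, chevE6, chevE7, chevE8] := by simp
  have hss := cartanSS_spec chevF4 (cartanSS_of_mem chevF4 hD)
  have hw : ∀ i : Fin chevF4.rank, (π i : ℕ) = i ∨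
      (π i : ℕ) = ([3, 2, 1, 0] : List ℕ).getD i 0 := by
    intro i
    have h := wv3_perm chevF4 hss π hπ i
    have hi : (i : ℕ) < 4 := i.2
    have hpi : (π i : ℕ) < 4 := (π i).2
    rw [wv3_F4 _ hpi, wv3_F4 _ hi] at h
    exact wv3_F4_inj _ hi _ hpi h.symm
  have l0 : (0 : ℕ) < chevF4.rank := by decide
  have l1 : (1 : ℕ) < chevF4.rank := by decide
  have l2 : (2 : ℕ) < chevF4.rank := by decide
  have l3 : (3 : ℕ) < chevF4.rank := by decide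
  have h0 := hw ⟨0, l0⟩
  have h1 := hw ⟨1, l1⟩
  have h2 := hw ⟨2, l2⟩
  have h3 := hw ⟨3, l3⟩
  have hb := hπ ⟨0, l0⟩ ⟨1, l1⟩ (by
    intro h
    have h' : (0 : ℕ) = 1 := congrArg Fin.val h
    exact absurd h' (by decide))
  have hinj : ∀ a b : Fin chevF4.rank, (π a : ℕ) = (π b : ℕ) → (a : ℕ) = b :=
    fun a b h => congrArg Fin.val (π.injective (Fin.ext h))
  have i03 : (π ⟨0, l0⟩ : ℕ) = (π ⟨3, l3⟩ : ℕ) → (0 : ℕ) = 3 := hinj ⟨0, l0⟩ ⟨3, l3⟩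
  have i12 : (π ⟨1, l1⟩ : ℕ) = (π ⟨2, l2⟩ : ℕ) → (1 : ℕ) = 2 := hinj ⟨1, l1⟩ ⟨2, l2⟩
  obtain ⟨b01, b02, b31, b32⟩ := f4_bonds
  simp only [List.getD_cons_zero, List.getD_cons_succ] at h0 h1 h2 h3
  change chevF4.bonds (π ⟨0, l0⟩ : ℕ) (π ⟨1, l1⟩ : ℕ) = chevF4.bonds 0 1 at hb
  rcases h0 with h0 | h0
  · left
    have h1' : (π ⟨1, l1⟩ : ℕ) = 1 := by
      rcases h1 with h1 | h1
      · exact h1
      · rw [h0, h1, b02, b01] at hb
        exact absurd hb (by decide)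
    have h2' : (π ⟨2, l2⟩ : ℕ) = 2 := by
      rcases h2 with h2 | h2
      · exact h2
      · have := i12 (by rw [h1', h2])
        exact absurd this (by decide)
    have h3' : (π ⟨3, l3⟩ : ℕ) = 3 := by
      rcases h3 with h3 | h3
      · exact h3
      · have := i03 (by rw [h0, h3])
        exact absurd this (by decide)
    intro i
    apply Fin.ext
    have hi : (i : ℕ) < 4 := i.2
    obtain ⟨iv, hiv⟩ := i
    simp only at hi ⊢
    interval_cases iv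
    · exact h0
    · exact h1'
    · exact h2'
    · exact h3'
  · right
    have h1' : (π ⟨1, l1⟩ : ℕ) = 2 := by
      rcases h1 with h1 | h1
      · rw [h0, h1, b31, b01] at hb
        exact absurd hb (by decide)
      · exact h1
    have h2' : (π ⟨2, l2⟩ : ℕ) = 1 := by
      rcases h2 with h2 | h2
      · have := i12 (by rw [h1', h2])
        exact absurd this (by decide)
      · exact h2
    have h3' : (π ⟨3, l3⟩ : ℕ) = 0 := by
      rcases h3 with h3 | h3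
      · have := i03 (by rw [h0, h3])
        exact absurd this (by decide)
      · exact h3
    intro i
    have hi : (i : ℕ) < 4 := i.2
    obtain ⟨iv, hiv⟩ := i
    simp only at hi ⊢
    interval_cases iv
    · exact h0
    · exact h1'
    · exact h2'
    · exact h3'

/-- groups of order at most five are commutative -/
theorem comm_of_card_le_five {G : Type*} [Group G] [Finite G] (h : Nat.card G ≤ 5) (a b : G) :
    a * b = b * a := by
  have hpos : 0 < Nat.card G := Nat.card_pos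
  have hcases : Nat.card G = 1 ∨ Nat.card G = 2 ∨ Nat.card G = 3 ∨ Nat.card G = 4 ∨
      Nat.card G = 5 := by omega
  rcases hcases with h1 | h2 | h3 | h4 | h5
  · haveI : Subsingleton G := (Nat.card_eq_one_iff_unique.mp h1).1
    exact Subsingleton.elim _ _
  · haveI : Fact (Nat.Prime 2) := ⟨by norm_num⟩
    haveI := isCyclic_of_prime_card (p := 2) h2
    exact (IsCyclic.commGroup (α := G)).mul_comm a b
  · haveI : Fact (Nat.Prime 3) := ⟨by norm_num⟩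
    haveI := isCyclic_of_prime_card (p := 3) h3
    exact (IsCyclic.commGroup (α := G)).mul_comm a b
  · haveI : Fact (Nat.Prime 2) := ⟨by norm_num⟩
    have h4' : Nat.card G = 2 ^ 2 := by rw [h4]; norm_num
    exact (IsPGroup.isMulCommutative_of_card_eq_prime_sq (p := 2) h4').is_comm.comm a b
  · haveI : Fact (Nat.Prime 5) := ⟨by norm_num⟩
    haveI := isCyclic_of_prime_card (p := 5) h5
    exact (IsCyclic.commGroup (α := G)).mul_comm a b

theorem d4_mem : chevD4 ∈ [chevG2, chevB2, chevD4, chevF4, chevE6, chevE7, chevE8] := by simp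

def gaPtD4c : List (ℕ × ℤ) := [(2, 1), (1, 1), (0, 1), (3, 1), (4, 1), (5, 1), (6, 1), (10, -1), (11, -1), (14, 1), (7, -1), (8, -1), (12, 1), (13, 1), (9, 1), (15, 1), (16, 1), (22, 1), (18, 1), (19, 1), (23, -1), (24, -1), (17, 1), (20, -1), (21, -1), (25, 1), (26, 1), (27, 1)]
def gaQtD4c : List (ℕ × ℤ) := [(2, 1), (1, 1), (0, 1), (3, 1), (4, 1), (5, 1), (6, 1), (10, -1), (11, -1), (14, 1), (7, -1), (8, -1), (12, 1), (13, 1), (9, 1), (15, 1), (16, 1), (22, 1), (18, 1), (19, 1), (23, -1), (24, -1), (17, 1), (20, -1), (21, -1), (25, 1), (26, 1), (27, 1)]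
theorem gaInv_D4c : gaInvOK gaPtD4c gaQtD4c = true := by decide +kernel
theorem gaRows_D4c : (List.range' 0 24).all (gaRow chevD4 gaPtD4c) = true := by
  decide +kernel
theorem gaBack_D4c : (List.range' 0 24).all (gaBackOK chevD4 gaQtD4c) = true := by
  decide +kernel
theorem gaSimp_D4c : (List.range' 0 4).all (gaSimpOK chevD4 gaPtD4c [2, 1, 0, 3]) = true := by
  decide +kernel
theorem gaCert_D4c : GaCert chevD4 gaPtD4c gaQtD4c [2, 1, 0, 3] :=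
  gaCert_of chevD4 gaPtD4c gaQtD4c [2, 1, 0, 3] 24 4 rfl rfl (by decide) gaInv_D4c gaRows_D4c
    gaBack_D4c gaSimp_D4c
theorem gaPos_D4a : ∀ r < 24,
    (chevD4.IsPosRoot r → chevD4.IsPosRoot (gaRho chevD4 gaPtD4a r)) ∧
    (chevD4.IsNegRoot r → chevD4.IsNegRoot (gaRho chevD4 gaPtD4a r)) := by
  decide +kernel
theorem gaPos_D4c : ∀ r < 24,
    (chevD4.IsPosRoot r → chevD4.IsPosRoot (gaRho chevD4 gaPtD4c r)) ∧
    (chevD4.IsNegRoot r → chevD4.IsNegRoot (gaRho chevD4 gaPtD4c r)) := by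
  decide +kernel
theorem wv3_D4 : ∀ i < 4, wv3 chevD4 i = ([151, 253, 151, 151] : List ℤ).getD i 0 := by
  decide +kernel
theorem wv3_D4_inj : ∀ j < 4, ([151, 253, 151, 151] : List ℤ).getD j 0 = 253 → j = 1 := by
  decide

theorem d4_pairs_card :
    Fintype.card {p : Fin 4 × Fin 4 // p.1 ≠ p.2 ∧ (p.1 : ℕ) ≠ 1 ∧ (p.2 : ℕ) ≠ 1} = 6 := by
  decide

theorem d4_perm_a : ∀ i < 4, ([2, 1, 3, 0] : List ℕ).getD i 0 < 4 := by decide

theorem d4_perm_c : ∀ i < 4, ([2, 1, 0, 3] : List ℕ).getD i 0 < 4 := by decide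

/-- a symmetry of the diagram of type `D₄` fixes the central node -/
theorem d4_symm_centre (π : Equiv.Perm (Fin chevD4.rank)) (hπ : chevD4.IsDiagramSymmetry π)
    (l1 : (1 : ℕ) < chevD4.rank) : (π ⟨1, l1⟩ : ℕ) = 1 := by
  have hss := cartanSS_spec chevD4 (cartanSS_of_mem chevD4 d4_mem)
  have h := wv3_perm chevD4 hss π hπ ⟨1, l1⟩
  have hpi : (π ⟨1, l1⟩ : ℕ) < 4 := (π ⟨1, l1⟩).2
  rw [wv3_D4 _ hpi, wv3_D4 1 (by decide)] at h
  exact wv3_D4_inj _ hpi h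

/-- a symmetry of the diagram of type `D₄` is determined by the images of two outer nodes -/
theorem d4_symm_ext (π π' : Equiv.Perm (Fin chevD4.rank)) (hπ : chevD4.IsDiagramSymmetry π)
    (hπ' : chevD4.IsDiagramSymmetry π') (l0 : (0 : ℕ) < chevD4.rank)
    (l2 : (2 : ℕ) < chevD4.rank)
    (h0 : (π ⟨0, l0⟩ : ℕ) = (π' ⟨0, l0⟩ : ℕ)) (h2 : (π ⟨2, l2⟩ : ℕ) = (π' ⟨2, l2⟩ : ℕ)) :
    π = π' := by
  have l1 : (1 : ℕ) < chevD4.rank := by decide
  have l3 : (3 : ℕ) < chevD4.rank := by decide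
  have c1 := d4_symm_centre π hπ l1
  have c1' := d4_symm_centre π' hπ' l1
  have hinj : ∀ (ρ : Equiv.Perm (Fin chevD4.rank)) (a b : Fin chevD4.rank),
      (ρ a : ℕ) = (ρ b : ℕ) → (a : ℕ) = b :=
    fun ρ a b h => congrArg Fin.val (ρ.injective (Fin.ext h))
  have a01 : (π ⟨0, l0⟩ : ℕ) = (π ⟨1, l1⟩ : ℕ) → (0 : ℕ) = 1 := hinj π ⟨0, l0⟩ ⟨1, l1⟩
  have a02 : (π ⟨0, l0⟩ : ℕ) = (π ⟨2, l2⟩ : ℕ) → (0 : ℕ) = 2 := hinj π ⟨0, l0⟩ ⟨2, l2⟩
  have a03 : (π ⟨0, l0⟩ : ℕ) = (π ⟨3, l3⟩ : ℕ) → (0 : ℕ) = 3 := hinj π ⟨0, l0⟩ ⟨3, l3⟩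
  have a12 : (π ⟨1, l1⟩ : ℕ) = (π ⟨2, l2⟩ : ℕ) → (1 : ℕ) = 2 := hinj π ⟨1, l1⟩ ⟨2, l2⟩
  have a13 : (π ⟨1, l1⟩ : ℕ) = (π ⟨3, l3⟩ : ℕ) → (1 : ℕ) = 3 := hinj π ⟨1, l1⟩ ⟨3, l3⟩
  have a23 : (π ⟨2, l2⟩ : ℕ) = (π ⟨3, l3⟩ : ℕ) → (2 : ℕ) = 3 := hinj π ⟨2, l2⟩ ⟨3, l3⟩
  have a03' : (π' ⟨0, l0⟩ : ℕ) = (π' ⟨3, l3⟩ : ℕ) → (0 : ℕ) = 3 := hinj π' ⟨0, l0⟩ ⟨3, l3⟩
  have a13' : (π' ⟨1, l1⟩ : ℕ) = (π' ⟨3, l3⟩ : ℕ) → (1 : ℕ) = 3 := hinj π' ⟨1, l1⟩ ⟨3, l3⟩
  have a23' : (π' ⟨2, l2⟩ : ℕ) = (π' ⟨3, l3⟩ : ℕ) → (2 : ℕ) = 3 := hinj π' ⟨2, l2⟩ ⟨3, l3⟩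
  have b0 : (π ⟨0, l0⟩ : ℕ) < 4 := (π ⟨0, l0⟩).2
  have b2 : (π ⟨2, l2⟩ : ℕ) < 4 := (π ⟨2, l2⟩).2
  have b3 : (π ⟨3, l3⟩ : ℕ) < 4 := (π ⟨3, l3⟩).2
  have b3' : (π' ⟨3, l3⟩ : ℕ) < 4 := (π' ⟨3, l3⟩).2
  have h3 : (π ⟨3, l3⟩ : ℕ) = (π' ⟨3, l3⟩ : ℕ) := by omega
  apply Equiv.ext
  intro i
  apply Fin.ext
  have hi : (i : ℕ) < 4 := i.2
  obtain ⟨iv, hiv⟩ := i
  simp only at hi ⊢
  interval_cases iv
  · exact h0
  · rw [c1, c1']
  · exact h2
  · exact h3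

variable {F : Type*} [Field F]

/-- the index of the diagonal and field classes in type `D₄` is at most six -/
theorem d4_index_le [Finite F] :
    (dbar F chevD4 d4_mem ⊔ fbar F chevD4 d4_mem).index ≤ 6 := by
  haveI := dfbar_normal (F := F) chevD4 d4_mem
  have l0 : (0 : ℕ) < chevD4.rank := by decide
  have l2 : (2 : ℕ) < chevD4.rank := by decide
  have l1 : (1 : ℕ) < chevD4.rank := by decide
  have hx : ∀ x : Cfsg.Out ↥(chevD4.group F) ⧸ (dbar F chevD4 d4_mem ⊔ fbar F chevD4 d4_mem),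
      ∃ (π : Equiv.Perm (Fin chevD4.rank)) (g : MulAut ↥(chevD4.group F)),
        chevD4.IsDiagramSymmetry π ∧ GraphSpec chevD4 d4_mem g π ∧
        x = QuotientGroup.mk (QuotientGroup.mk g : Cfsg.Out ↥(chevD4.group F)) := by
    intro x
    obtain ⟨o, rfl⟩ := QuotientGroup.mk_surjective x
    obtain ⟨g, hg, hgo⟩ := out_graph_coset chevD4 d4_mem o
    obtain ⟨π, hπ, hs⟩ := (isGraph_iff chevD4 d4_mem g).mp hg
    exact ⟨π, g, hπ, hs, (QuotientGroup.eq.mpr hgo).symm⟩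
  choose π g hπ hs hxg using hx
  have hinj : ∀ (x : Cfsg.Out ↥(chevD4.group F) ⧸ (dbar F chevD4 d4_mem ⊔ fbar F chevD4 d4_mem))
      (a b : Fin chevD4.rank), (π x a : ℕ) = (π x b : ℕ) → (a : ℕ) = b :=
    fun x a b h => congrArg Fin.val ((π x).injective (Fin.ext h))
  have hkey : ∀ x : Cfsg.Out ↥(chevD4.group F) ⧸ (dbar F chevD4 d4_mem ⊔ fbar F chevD4 d4_mem),
      ((⟨(π x ⟨0, l0⟩ : ℕ), (π x ⟨0, l0⟩).2⟩ : Fin 4) ≠ ⟨(π x ⟨2, l2⟩ : ℕ), (π x ⟨2, l2⟩).2⟩) ∧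
      (π x ⟨0, l0⟩ : ℕ) ≠ 1 ∧ (π x ⟨2, l2⟩ : ℕ) ≠ 1 := by
    intro x
    have c1 := d4_symm_centre (π x) (hπ x) l1
    refine ⟨fun h => ?_, fun h => ?_, fun h => ?_⟩
    · have h' : (π x ⟨0, l0⟩ : ℕ) = (π x ⟨2, l2⟩ : ℕ) := congrArg Fin.val h
      have h'' : (0 : ℕ) = 2 := hinj x ⟨0, l0⟩ ⟨2, l2⟩ h'
      exact absurd h'' (by decide)
    · have h'' : (0 : ℕ) = 1 := hinj x ⟨0, l0⟩ ⟨1, l1⟩ (h.trans c1.symm)
      exact absurd h'' (by decide)
    · have h'' : (2 : ℕ) = 1 := hinj x ⟨2, l2⟩ ⟨1, l1⟩ (h.trans c1.symm)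
      exact absurd h'' (by decide)
  have hinjkey : Function.Injective
      (fun x : Cfsg.Out ↥(chevD4.group F) ⧸ (dbar F chevD4 d4_mem ⊔ fbar F chevD4 d4_mem) =>
        (⟨((⟨(π x ⟨0, l0⟩ : ℕ), (π x ⟨0, l0⟩).2⟩ : Fin 4),
          (⟨(π x ⟨2, l2⟩ : ℕ), (π x ⟨2, l2⟩).2⟩ : Fin 4)), hkey x⟩ :
          {p : Fin 4 × Fin 4 // p.1 ≠ p.2 ∧ (p.1 : ℕ) ≠ 1 ∧ (p.2 : ℕ) ≠ 1})) := by
    intro x y hxy
    have h1 := congrArg (fun p : {p : Fin 4 × Fin 4 // p.1 ≠ p.2 ∧ (p.1 : ℕ) ≠ 1 ∧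
      (p.2 : ℕ) ≠ 1} => ((p : Fin 4 × Fin 4).1 : ℕ)) hxy
    have h2 := congrArg (fun p : {p : Fin 4 × Fin 4 // p.1 ≠ p.2 ∧ (p.1 : ℕ) ≠ 1 ∧
      (p.2 : ℕ) ≠ 1} => ((p : Fin 4 × Fin 4).2 : ℕ)) hxy
    have hππ : π x = π y := d4_symm_ext (π x) (π y) (hπ x) (hπ y) l0 l2 h1 h2
    have hsx := hs x
    rw [hππ] at hsx
    have hgg : g x = g y := graph_unique chevD4 d4_mem _ _ _ hsx (hs y)
    rw [hxg x, hxg y, hgg]
  have hle := Nat.card_le_card_of_injective _ hinjkey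
  rw [Nat.card_eq_fintype_card (α := {p : Fin 4 × Fin 4 // p.1 ≠ p.2 ∧ (p.1 : ℕ) ≠ 1 ∧
    (p.2 : ℕ) ≠ 1}), d4_pairs_card] at hle
  rw [Subgroup.index_eq_card]
  exact hle

/-- automorphisms stabilizing `U` and `U⁻`, permuting the fundamental root elements, whose
classes agree modulo the diagonal and field classes, induce the same permutation -/
theorem graph_coset_perm [Finite F] (D : ChevalleyDatum)
    (hD : D ∈ [chevG2, chevB2, chevD4, chevF4, chevE6, chevE7, chevE8])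
    (θ₁ θ₂ : MulAut ↥(D.group F)) (p₁ p₂ : ℕ → ℕ)
    (hN₁ : AutNorm D θ₁) (hN₂ : AutNorm D θ₂)
    (h₁ : ∀ i < D.rank, ∀ t : F, θ₁ (xG D hD (D.simple i) t) = xG D hD (D.simple (p₁ i)) t)
    (h₂ : ∀ i < D.rank, ∀ t : F, θ₂ (xG D hD (D.simple i) t) = xG D hD (D.simple (p₂ i)) t)
    (hp₁ : ∀ i < D.rank, p₁ i < D.rank) (hp₂ : ∀ i < D.rank, p₂ i < D.rank)
    (hmem : (QuotientGroup.mk θ₁ : Cfsg.Out ↥(D.group F))⁻¹ * QuotientGroup.mk θ₂ ∈
      dbar F D hD ⊔ fbar F D hD) :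
    ∀ i < D.rank, p₁ i = p₂ i := by
  haveI := dbar_normal (F := F) D hD
  obtain ⟨hnx, hcert, htri, hup, hcm'⟩ := certs_of_mem F D hD
  obtain ⟨a, ha, b, hb, hab⟩ := Subgroup.mem_sup_of_normal_left.mp hmem
  obtain ⟨δ, hδ, rfl⟩ := Subgroup.mem_map.mp ha
  obtain ⟨φ, hφ, rfl⟩ := Subgroup.mem_map.mp hb
  obtain ⟨τ, rfl⟩ := hφ
  obtain ⟨χ, hχ, rfl⟩ := isDiag_eq D hD δ hδ
  have hq : (QuotientGroup.mk (θ₁⁻¹ * θ₂) : Cfsg.Out ↥(D.group F)) =
      QuotientGroup.mk (diagAut D hD χ hχ * fieldAut D τ) := hab.symm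
  rw [QuotientGroup.eq] at hq
  obtain ⟨z, hz⟩ := MonoidHom.mem_range.mp hq
  have hN : AutNorm D (MulAut.conj z) := by
    rw [hz]
    exact ((hN₁.inv.mul hN₂).inv).mul ((autNorm_diag D hD χ hχ).mul (autNorm_field D hD τ))
  have hH := diag_of_autNorm_conj D hD z hN
  obtain ⟨χ₀, -, hχ₀⟩ := diag_conj_x D hD hnx hcert _ hH
  intro i hi
  by_contra hne
  have e : ∀ y, θ₂ (MulAut.conj z y) = θ₁ (diagAut D hD χ hχ (fieldAut D τ y)) := by
    intro y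
    rw [hz]
    simp only [MulAut.mul_apply, mul_inv_rev, inv_inv, MulAut.apply_inv_self]
  have hlt := simple_lt D hcert i hi
  have h1 := hχ₀ _ hlt 1
  have e1 := e (xG D hD (D.simple i) 1)
  rw [fieldAut_xG, diagAut_xG D hD _ _ _ hlt, h₁ i hi] at e1
  have e2 : MulAut.conj z (xG D hD (D.simple i) (1 : F)) =
      xG D hD (D.simple i) ((χ₀ (D.simple i) : F) * 1) := by
    apply Subtype.ext
    rw [MulAut.conj_apply]
    exact h1
  rw [e2, h₂ i hi] at e1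
  have h3 : xU D hD (D.simple (p₂ i)) ((χ₀ (D.simple i) : F) * 1) =
      xU D hD (D.simple (p₁ i)) ((χ (D.simple i) : F) * τ 1) := congrArg Subtype.val e1
  have hne' : D.simple (p₂ i) ≠ D.simple (p₁ i) :=
    fun h5 => hne (simple_inj D hD _ (hp₂ i hi) _ (hp₁ i hi) h5).symm
  have h4 := aut_xU_root_inj D hD _ _ (simple_lt D hcert _ (hp₂ i hi))
    (simple_lt D hcert _ (hp₁ i hi)) hne' _ _ h3
  rw [mul_one] at h4
  exact Units.ne_zero _ h4

/-- the graph automorphism of `D₄(F)` of order three -/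
noncomputable def gamD4a (F : Type*) [Field F] : MulAut ↥(chevD4.group F) :=
  gaAut chevD4 d4_mem gaPtD4a gaQtD4a [2, 1, 3, 0] gaCert_D4a

/-- a graph automorphism of `D₄(F)` of order two -/
noncomputable def gamD4c (F : Type*) [Field F] : MulAut ↥(chevD4.group F) :=
  gaAut chevD4 d4_mem gaPtD4c gaQtD4c [2, 1, 0, 3] gaCert_D4c

theorem autNorm_gamD4a : AutNorm chevD4 (gamD4a F) :=
  autNorm_of_roots chevD4 d4_mem _ (fun r hr t =>
    ⟨_, _, (gaPos_D4a r hr).1, (gaPos_D4a r hr).2,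
      gaAut_root chevD4 d4_mem gaPtD4a gaQtD4a _ gaCert_D4a r hr t⟩)

theorem autNorm_gamD4c : AutNorm chevD4 (gamD4c F) :=
  autNorm_of_roots chevD4 d4_mem _ (fun r hr t =>
    ⟨_, _, (gaPos_D4c r hr).1, (gaPos_D4c r hr).2,
      gaAut_root chevD4 d4_mem gaPtD4c gaQtD4c _ gaCert_D4c r hr t⟩)

/-- the classes of the two graph automorphisms of `D₄(F)` do not commute modulo the diagonal
and field classes -/
theorem d4_noncomm [Finite F] :
    ¬ ((QuotientGroup.mk (gamD4c F) * QuotientGroup.mk (gamD4a F) :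
        Cfsg.Out ↥(chevD4.group F))⁻¹ *
      (QuotientGroup.mk (gamD4a F) * QuotientGroup.mk (gamD4c F)) ∈
        dbar F chevD4 d4_mem ⊔ fbar F chevD4 d4_mem) := by
  intro hmem
  have hmem' : (QuotientGroup.mk (gamD4c F * gamD4a F) : Cfsg.Out ↥(chevD4.group F))⁻¹ *
      QuotientGroup.mk (gamD4a F * gamD4c F) ∈ dbar F chevD4 d4_mem ⊔ fbar F chevD4 d4_mem :=
    hmem
  have h := graph_coset_perm chevD4 d4_mem (gamD4c F * gamD4a F) (gamD4a F * gamD4c F)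
    (fun i => ([2, 1, 0, 3] : List ℕ).getD (([2, 1, 3, 0] : List ℕ).getD i 0) 0)
    (fun i => ([2, 1, 3, 0] : List ℕ).getD (([2, 1, 0, 3] : List ℕ).getD i 0) 0)
    (autNorm_gamD4c.mul autNorm_gamD4a) (autNorm_gamD4a.mul autNorm_gamD4c)
    (fun i hi t => by
      rw [MulAut.mul_apply]
      show gamD4c F (gaAut chevD4 d4_mem gaPtD4a gaQtD4a [2, 1, 3, 0] gaCert_D4a _) = _
      rw [(gaAut_simple chevD4 d4_mem gaPtD4a gaQtD4a _ gaCert_D4a i hi t).1]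
      exact (gaAut_simple chevD4 d4_mem gaPtD4c gaQtD4c _ gaCert_D4c _ (d4_perm_a i hi) t).1)
    (fun i hi t => by
      rw [MulAut.mul_apply]
      show gamD4a F (gaAut chevD4 d4_mem gaPtD4c gaQtD4c [2, 1, 0, 3] gaCert_D4c _) = _
      rw [(gaAut_simple chevD4 d4_mem gaPtD4c gaQtD4c _ gaCert_D4c i hi t).1]
      exact (gaAut_simple chevD4 d4_mem gaPtD4a gaQtD4a _ gaCert_D4a _ (d4_perm_c i hi) t).1)
    (fun i hi => d4_perm_c _ (d4_perm_a i hi)) (fun i hi => d4_perm_a _ (d4_perm_c i hi))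
    hmem' 0 (by decide)
  exact absurd h (by decide)

/-- the quotient of `Out(D₄(q))` by the diagonal and field classes has order six and is not
commutative -/
theorem d4_index [Finite F] :
    (dbar F chevD4 d4_mem ⊔ fbar F chevD4 d4_mem).index = 6 ∧
      ¬ commutator (Cfsg.Out ↥(chevD4.group F)) ≤
        dbar F chevD4 d4_mem ⊔ fbar F chevD4 d4_mem := by
  haveI := dfbar_normal (F := F) chevD4 d4_mem
  have hnc := d4_noncomm (F := F)
  have hle := d4_index_le (F := F)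
  have h0 : (dbar F chevD4 d4_mem ⊔ fbar F chevD4 d4_mem).index ≠ 0 :=
    Subgroup.index_ne_zero_of_finite
  constructor
  · by_contra hne
    have h5 : Nat.card (Cfsg.Out ↥(chevD4.group F) ⧸
        (dbar F chevD4 d4_mem ⊔ fbar F chevD4 d4_mem)) ≤ 5 := by
      rw [← Subgroup.index_eq_card]
      omega
    apply hnc
    rw [← QuotientGroup.eq]
    show (QuotientGroup.mk (QuotientGroup.mk (gamD4c F) : Cfsg.Out ↥(chevD4.group F)) :
        Cfsg.Out ↥(chevD4.group F) ⧸ (dbar F chevD4 d4_mem ⊔ fbar F chevD4 d4_mem)) *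
      QuotientGroup.mk (QuotientGroup.mk (gamD4a F) : Cfsg.Out ↥(chevD4.group F)) =
      QuotientGroup.mk (QuotientGroup.mk (gamD4a F) : Cfsg.Out ↥(chevD4.group F)) *
      QuotientGroup.mk (QuotientGroup.mk (gamD4c F) : Cfsg.Out ↥(chevD4.group F))
    exact comm_of_card_le_five h5 _ _
  · intro hcomm
    apply hnc
    have e : (QuotientGroup.mk (gamD4c F) * QuotientGroup.mk (gamD4a F) :
          Cfsg.Out ↥(chevD4.group F))⁻¹ *
        (QuotientGroup.mk (gamD4a F) * QuotientGroup.mk (gamD4c F)) =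
        ⁅(QuotientGroup.mk (gamD4a F) : Cfsg.Out ↥(chevD4.group F))⁻¹,
          (QuotientGroup.mk (gamD4c F) : Cfsg.Out ↥(chevD4.group F))⁻¹⁆ := by
      rw [commutatorElement_def]
      group
    rw [e]
    apply hcomm
    rw [commutator_def]
    exact Subgroup.commutator_mem_commutator (Subgroup.mem_top _) (Subgroup.mem_top _)

/-- the structure of the outer automorphism group of a finite Chevalley group -/
theorem out_structure [Finite F] (D : ChevalleyDatum)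
    (hD : D ∈ [chevG2, chevB2, chevD4, chevF4, chevE6, chevE7, chevE8])
    (Dbar Fbar : Subgroup (Cfsg.Out ↥(D.group F)))
    (hDbar : Dbar = (Subgroup.closure {φ : MulAut ↥(D.group F) | D.IsDiagonalAut φ}).map
      (QuotientGroup.mk' (Cfsg.Inn ↥(D.group F))))
    (hFbar : Fbar = (Subgroup.closure {φ : MulAut ↥(D.group F) | D.IsFieldAut φ}).map
      (QuotientGroup.mk' (Cfsg.Inn ↥(D.group F)))) :
    Dbar.Normal ∧ IsMulCommutative ↥Dbar ∧ IsCyclic ↥Fbar ∧ (Dbar ⊔ Fbar).Normal ∧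
      ((Dbar ⊔ Fbar).index = 1 ∨ (Dbar ⊔ Fbar).index = 2 ∨
        ((Dbar ⊔ Fbar).index = 6 ∧ ¬ commutator (Cfsg.Out ↥(D.group F)) ≤ Dbar ⊔ Fbar)) := by
  have e1 : Subgroup.closure {φ : MulAut ↥(D.group F) | D.IsDiagonalAut φ} = diagSub D hD :=
    Subgroup.closure_eq (diagSub D hD)
  have e2 : Subgroup.closure {φ : MulAut ↥(D.group F) | D.IsFieldAut φ} =
      (fieldHom (F := F) D hD).range := by
    rw [isField_set D hD]
    exact Subgroup.closure_eq _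
  rw [e1] at hDbar
  rw [e2] at hFbar
  have hD' : Dbar = dbar F D hD := hDbar
  have hF' : Fbar = fbar F D hD := hFbar
  rw [hD', hF']
  refine ⟨dbar_normal D hD, dbar_comm D hD, fbar_cyclic D hD, dfbar_normal D hD, ?_⟩
  have h2 : ∀ L : List ℕ, (∀ π : Equiv.Perm (Fin D.rank), D.IsDiagramSymmetry π →
      (∀ i, π i = i) ∨ (∀ i, (π i : ℕ) = L.getD i 0)) →
      ((dbar F D hD ⊔ fbar F D hD).index = 1 ∨ (dbar F D hD ⊔ fbar F D hD).index = 2 ∨
        ((dbar F D hD ⊔ fbar F D hD).index = 6 ∧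
          ¬ commutator (Cfsg.Out ↥(D.group F)) ≤ dbar F D hD ⊔ fbar F D hD)) := by
    intro L hL
    rcases out_index_le_two (F := F) D hD L hL with h | h
    · exact Or.inl h
    · exact Or.inr (Or.inl h)
  have hD0 := hD
  simp only [List.mem_cons, List.not_mem_nil, or_false] at hD0
  rcases hD0 with rfl | rfl | rfl | rfl | rfl | rfl | rfl
  · exact h2 [1, 0] (fun π _ => sym_rank2 chevG2 (by decide) π)
  · exact h2 [1, 0] (fun π _ => sym_rank2 chevB2 (by decide) π)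
  · exact Or.inr (Or.inr d4_index)
  · exact h2 [3, 2, 1, 0] f4_symm
  · exact h2 [5, 1, 4, 3, 2, 0] e6_symm
  · exact h2 [] (fun π hπ => Or.inl (e7_symm_trivial π hπ))
  · exact h2 [] (fun π hπ => Or.inl (e8_symm_trivial π hπ))

end Cfsg.Agent.Lib.helper11
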