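import Cfsg.Agent.Lib.helper11d.Iso3

/-! The exceptional isogenies as automorphisms: the main statement. -/

set_option autoImplicit false

namespace Cfsg.Agent.Lib.helper11

open Cfsg Cfsg.Lie

theorem x_eq_xMat {F : Type*} [Field F] (D : ChevalleyDatum) (r : ℕ) (hr : r < D.nroots) (t : F) :
    D.x F r t = D.xMat F ⟨r, hr⟩ t := by
  unfold ChevalleyDatum.x
  rw [dif_pos hr]

theorem iso_main {F : Type*} [Field F] (D : ChevalleyDatum)
    (hD : D ∈ [chevG2, chevB2, chevD4, chevF4, chevE6, chevE7, chevE8]) (X : IsoData) (p : ℕ)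
    [Fact p.Prime] [CharP F p] (hX : IsoCert D X p) (hperf : ∀ x : F, ∃ y : F, y ^ p = x) :
    ∃ α : ↥(D.group F) ≃* ↥(D.group F), ∀ (g : ↥(D.group F)) (r : ℕ) (t : F), r < D.nroots →
      ((g : GL D.Idx F) : Matrix D.Idx D.Idx F) = D.x F r t →
      ((α g : GL D.Idx F) : Matrix D.Idx D.Idx F) =
        D.x F (X.rho.getD r 0) (t ^ X.lam p r) := by
  have hG : D.group F ≤ btGroup F D X := by
    unfold ChevalleyDatum.group
    rw [Subgroup.closure_le]
    rintro g ⟨r, t, hg⟩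
    have hg' : g = xU D hD r.val t :=
      eq_xU D hD r.val t g (by rw [hg, x_eq_xMat D r.val r.isLt])
    rw [hg']
    refine ⟨gen_BT D X p hX r.val t, ?_⟩
    rw [xU_inv]
    exact gen_BT D X p hX r.val (-t)
  have hι : Function.Injective (isoHom D X hX.1 hG).toHomUnits :=
    isoHom_injective D hD X hX.1 hX.2.1 hG
  have hΘ : Function.Injective (Units.map (frobPair F p (SIdx D X))) :=
    Units.map_injective (frobPair_injective p (SIdx D X))
  have key : ∀ (r : ℕ) (hr : r < D.nroots) (t : F),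
      Units.map (frobPair F p (SIdx D X))
        ((isoHom D X hX.1 hG).toHomUnits ⟨xU D hD r t, xU_mem_group D hD r t⟩) =
      (isoHom D X hX.1 hG).toHomUnits ⟨xU D hD (X.rho.getD r 0) (t ^ X.lam p r),
        xU_mem_group D hD _ _⟩ := by
    intro r hr t
    apply Units.ext
    show frobPair F p (SIdx D X) (blkS D X (D.x F r t), blkT D X (D.x F r t)) =
      (blkS D X (D.x F (X.rho.getD r 0) (t ^ X.lam p r)),
        blkT D X (D.x F (X.rho.getD r 0) (t ^ X.lam p r)))
    rw [frobPair_apply, gen_E1 D X p hX r hr t, gen_E2 D X p hX r hr t]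
  have hmap : (isoHom D X hX.1 hG).toHomUnits.range.map (Units.map (frobPair F p (SIdx D X))) =
      (isoHom D X hX.1 hG).toHomUnits.range := by
    have htop : Subgroup.closure (Subtype.val ⁻¹' {g : GL D.Idx F | ∃ (r : Fin D.nroots) (t : F),
        (g : Matrix D.Idx D.Idx F) = D.xMat F r t}) = (⊤ : Subgroup ↥(D.group F)) :=
      Subgroup.closure_closure_coe_preimage
    rw [MonoidHom.range_eq_map, ← htop, MonoidHom.map_closure, MonoidHom.map_closure]
    congr 1
    ext y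
    constructor
    · rintro ⟨_, ⟨g, ⟨r, t, hg⟩, rfl⟩, rfl⟩
      have hg' : g = ⟨xU D hD r.val t, xU_mem_group D hD r.val t⟩ :=
        Subtype.ext (eq_xU D hD r.val t g.1 (by rw [hg, x_eq_xMat D r.val r.isLt]))
      rw [hg', key r.val r.isLt t]
      have hr' := ((isoBasic_spec D X hX.1).2 r.val r.isLt).1
      exact ⟨_, ⟨⟨X.rho.getD r.val 0, hr'⟩, t ^ X.lam p r.val, x_eq_xMat D _ hr' _⟩, rfl⟩
    · rintro ⟨g, ⟨s, u, hg⟩, rfl⟩
      have hg' : g = ⟨xU D hD s.val u, xU_mem_group D hD s.val u⟩ :=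
        Subtype.ext (eq_xU D hD s.val u g.1 (by rw [hg, x_eq_xMat D s.val s.isLt]))
      obtain ⟨hr', hrr, -⟩ := (isoBasic_spec D X hX.1).2 s.val s.isLt
      obtain ⟨t, ht⟩ : ∃ t : F, t ^ X.lam p (X.rho.getD s.val 0) = u := by
        unfold IsoData.lam
        split_ifs
        · exact hperf u
        · exact ⟨u, pow_one u⟩
      refine ⟨(isoHom D X hX.1 hG).toHomUnits
        ⟨xU D hD (X.rho.getD s.val 0) t, xU_mem_group D hD _ _⟩,
        ⟨_, ⟨⟨X.rho.getD s.val 0, hr'⟩, t, x_eq_xMat D _ hr' _⟩, rfl⟩, ?_⟩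
      rw [key _ hr' t, hg']
      simp only [hrr, ht]
  obtain ⟨α, hα⟩ := exists_aut_of_map _ hι _ hΘ hmap
  refine ⟨α, fun g r t hr hg => ?_⟩
  have hg' : g = ⟨xU D hD r t, xU_mem_group D hD r t⟩ := Subtype.ext (eq_xU D hD r t g.1 hg)
  have h1 := hα g
  rw [hg', key r hr t] at h1
  have h2 := hι h1
  rw [hg', h2]
  rfl

end Cfsg.Agent.Lib.helper11
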