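import Cfsg.Agent.Lib.helper11d.Iso1
import Cfsg.Agent.Lib.helper11.ChevNX
import Cfsg.Prelude.Def_ChevB2
import Cfsg.Prelude.Def_ChevG2
import Cfsg.Prelude.Def_ChevF4
import Cfsg.Prelude.Def_LieChev

/-! Kernel-checked certificates for the exceptional isogenies (generated). -/

set_option autoImplicit false

namespace Cfsg.Agent.Lib.helper11

open Cfsg Cfsg.Lie

theorem isoCert_of (D : ChevalleyDatum) (X : IsoData) (p n : ℕ) (hn : D.nroots = n)
    (hb : isoBasic D X = true) (hs : isoSimple D X = true)
    (hrows : (List.range' 0 n).all (isoRow D X p) = true) : IsoCert D X p := by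
  refine ⟨hb, hs, fun r hr => ?_⟩
  rw [hn] at hr
  exact all_range' _ 0 n hrows r (by omega) (by omega)

def isoB2 : IsoData :=
  ⟨[1, 0], [1, 0, 3, 2, 5, 4, 7, 6],
    [true, false],
    [false, true, true, false, false, true, true, false]⟩

theorem isoBasic_B2 : isoBasic chevB2 isoB2 = true := by decide +kernel

theorem isoSimple_B2 : isoSimple chevB2 isoB2 = true := by decide +kernel

theorem isoRows_B2 : (List.range' 0 8).all (isoRow chevB2 isoB2 2) = true := by
  decide +kernel

theorem isoCert_B2 : IsoCert chevB2 isoB2 2 :=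
  isoCert_of chevB2 isoB2 2 8 rfl isoBasic_B2 isoSimple_B2 isoRows_B2

def isoG2 : IsoData :=
  ⟨[1, 0], [2, 3, 0, 1, 5, 4, 7, 6, 10, 11, 8, 9],
    [true, false],
    [false, false, true, true, true, false, false, true, true, true, false, false]⟩

theorem isoBasic_G2 : isoBasic chevG2 isoG2 = true := by decide +kernel

theorem isoSimple_G2 : isoSimple chevG2 isoG2 = true := by decide +kernel

theorem isoRows_G2 : (List.range' 0 12).all (isoRow chevG2 isoG2 3) = true := by
  decide +kernel

theorem isoCert_G2 : IsoCert chevG2 isoG2 3 :=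
  isoCert_of chevG2 isoG2 3 12 rfl isoBasic_G2 isoSimple_G2 isoRows_G2

def isoF4 : IsoData :=
  ⟨[3, 2, 1, 0], [3, 7, 8, 0, 9, 11, 18, 1, 2, 4, 15, 5, 16, 21, 23, 10, 12, 19, 6, 17, 22, 13, 20, 14, 33, 27, 34, 25, 30, 41, 28, 35, 37, 24, 26, 31, 42, 32, 43, 45, 46, 29, 36, 38, 47, 39, 40, 44],
    [true, true, false, false],
    [false, false, false, true, false, false, false, true, true, true, true, true, true, true, true, false, false, false, true, true, true, false, false, false, false, false, false, true, true, true, false, false, false, true, true, true, true, true, true, true, true, false, false, false, true, false, false, false]⟩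

theorem isoBasic_F4 : isoBasic chevF4 isoF4 = true := by decide +kernel

theorem isoSimple_F4 : isoSimple chevF4 isoF4 = true := by decide +kernel

theorem isoRows_F4 : (List.range' 0 48).all (isoRow chevF4 isoF4 2) = true := by
  decide +kernel

theorem isoCert_F4 : IsoCert chevF4 isoF4 2 :=
  isoCert_of chevF4 isoF4 2 48 rfl isoBasic_F4 isoSimple_F4 isoRows_F4

end Cfsg.Agent.Lib.helper11
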