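import Cfsg.Agent.Lib.helper11d.Aut16
import Cfsg.Agent.Lib.helper11d.Iso4
import Cfsg.Agent.Lib.helper11d.IsoOK

/-! The outer automorphism groups of the Chevalley groups of types `G₂` and `F₄` over finite
fields. -/

set_option autoImplicit false

namespace Cfsg.Agent.Lib.helper11

open Cfsg Cfsg.Lie Cfsg.Agent.Lib.helper2
open scoped Pointwise

/-- the identity or a given automorphism -/
def gbOf {G : Type*} [Group G] (γ : MulAut G) (b : Bool) : MulAut G := if b then γ else 1

theorem gbOf_false {G : Type*} [Group G] (γ : MulAut G) : gbOf γ false = 1 := rfl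

theorem gbOf_true {G : Type*} [Group G] (γ : MulAut G) : gbOf γ true = γ := rfl

variable {F : Type*} [Field F]

/-- the relation between the exponents of a graph automorphism and the Cartan integers -/
theorem graph_rel [Finite F] (D : ChevalleyDatum)
    (hD : D ∈ [chevG2, chevB2, chevD4, chevF4, chevE6, chevE7, chevE8])
    (g : MulAut ↥(D.group F)) (π : Equiv.Perm (Fin D.rank)) (hs : GraphSpec D hD g π)
    (i j : Fin D.rank) (t : F) (ht : t ≠ 0) :
    (t ^ D.graphExp (ringChar F) i (π i)) ^ D.cartan (π i) (D.simple (π j)) =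
      (t ^ D.graphExp (ringChar F) j (π j)) ^ D.cartan i (D.simple j) := by
  haveI : ExpChar F (ringChar F) := ExpChar.prime (CharP.char_is_prime F (ringChar F))
  obtain ⟨σ, hσ⟩ : ∃ σ : Fin D.rank → F ≃+* F,
      ∀ (i : Fin D.rank) (t : F), σ i t = t ^ D.graphExp (ringChar F) i (π i) := by
    refine ⟨fun i => if D.isLong (D.simple (π i)) && !D.isLong (D.simple i) then
      frobeniusEquiv F (ringChar F) else RingEquiv.refl F, fun i t => ?_⟩
    unfold ChevalleyDatum.graphExp
    beta_reduce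
    split_ifs with h
    · rw [frobeniusEquiv_apply]
      rfl
    · rw [pow_one]
      rfl
  have h := (aut_rel D hD g π σ (fun i t => by rw [hσ]; exact hs i t)).2 i j t ht
  rw [hσ, hσ] at h
  exact h

/-- on a finite field of characteristic `p` the `p`-th power map is not the square or the cube -/
theorem no_pow_eq [Fintype F] (p : ℕ) [Fact p.Prime] [CharP F p] (m : ℕ) (hm : m = 2 ∨ m = 3)
    (hpm : p ≠ m) (hq : m ≤ Fintype.card F) (h : ∀ t : F, t ≠ 0 → t ^ p = t ^ m) : False := by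
  obtain ⟨ζ, hζ⟩ := IsCyclic.exists_generator (α := Fˣ)
  have hord : orderOf ζ = Fintype.card F - 1 := by
    rw [orderOf_eq_card_of_forall_mem_zpowers hζ, Nat.card_units, Nat.card_eq_fintype_card]
  have hζp : ζ ^ p = ζ ^ m := Units.ext (by
    rw [Units.val_pow_eq_pow_val, Units.val_pow_eq_pow_val]
    exact h _ (Units.ne_zero ζ))
  have hmod : m ≡ p [MOD Fintype.card F - 1] := by
    rw [← hord]
    exact pow_eq_pow_iff_modEq.mp hζp.symm
  obtain ⟨n, -, hn⟩ := FiniteField.card F p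
  have hp2 : 2 ≤ p := (Fact.out : p.Prime).two_le
  have hqp : p ≤ Fintype.card F := by
    rw [hn]
    exact Nat.le_self_pow n.ne_zero p
  rcases Nat.lt_or_gt_of_ne hpm with hlt | hgt
  · have hd : (Fintype.card F - 1) ∣ m - p := (Nat.modEq_iff_dvd' hlt.le).mp hmod.symm
    have hle : Fintype.card F - 1 ≤ m - p := Nat.le_of_dvd (by omega) hd
    omega
  · have hd : (Fintype.card F - 1) ∣ p - m := (Nat.modEq_iff_dvd' hgt.le).mp hmod
    have hle : Fintype.card F - 1 ≤ p - m := Nat.le_of_dvd (by omega) hd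
    omega

/-- field automorphisms with the same class are equal -/
theorem field_inner_eq (D : ChevalleyDatum)
    (hD : D ∈ [chevG2, chevB2, chevD4, chevF4, chevE6, chevE7, chevE8]) (σ σ' : F ≃+* F)
    (h : (fieldAut (F := F) D σ)⁻¹ * fieldAut D σ' ∈ Cfsg.Inn ↥(D.group F)) : σ = σ' := by
  obtain ⟨hnx, hcert, htri, hup, hcm'⟩ := certs_of_mem F D hD
  obtain ⟨x, hx⟩ := MonoidHom.mem_range.mp h
  have hcomm : ∀ r < D.nroots, (x : GL D.Idx F) * xU D hD r 1 =
      xU D hD r 1 * (x : GL D.Idx F) := by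
    intro r hr
    have h1 : MulAut.conj x (xG D hD r (1 : F)) = xG D hD r 1 := by
      rw [hx, MulAut.mul_apply, fieldAut_xG, fieldAut_inv_xG, map_one, map_one]
    rw [MulAut.conj_apply] at h1
    have h2 : x * xG D hD r (1 : F) = xG D hD r 1 * x := by
      calc x * xG D hD r (1 : F) = x * xG D hD r 1 * x⁻¹ * x := by group
        _ = xG D hD r 1 * x := by rw [h1]
    exact congrArg Subtype.val h2
  have hx1 : (x : GL D.Idx F) = 1 := fld_cen_trivial D hD _ x.2 hcomm
  have hx1' : x = 1 := Subtype.ext hx1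
  rw [hx1', map_one] at hx
  have h3 : fieldAut (F := F) D σ = fieldAut D σ' := inv_mul_eq_one.mp hx.symm
  apply RingEquiv.ext
  intro u
  have h0 := simple_lt D hcert 0 (rank_pos D hD)
  have h4 : fieldAut D σ (xG D hD (D.simple 0) u) = fieldAut D σ' (xG D hD (D.simple 0) u) := by
    rw [h3]
  rw [fieldAut_xG, fieldAut_xG] at h4
  exact xG_inj D hD _ h0 _ _ h4

/-- a graph automorphism for the trivial symmetry is trivial -/
theorem graph_one_of_id (D : ChevalleyDatum)
    (hD : D ∈ [chevG2, chevB2, chevD4, chevF4, chevE6, chevE7, chevE8])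
    (g : MulAut ↥(D.group F)) (π : Equiv.Perm (Fin D.rank)) (hs : GraphSpec D hD g π)
    (h : ∀ i, π i = i) : g = 1 := by
  have hπ1 : π = 1 := Equiv.ext h
  rw [hπ1] at hs
  exact graph_unique D hD g 1 1 hs (graphSpec_one D hD)

/-- the order of the outer automorphism group when the Cartan matrix is unimodular and there
is no graph automorphism -/
theorem out_card_field' {F : Type*} [Field F] [Fintype F] (D : ChevalleyDatum)
    (hD : D ∈ [chevG2, chevB2, chevD4, chevF4, chevE6, chevE7, chevE8]) (h1 : cinvD D = 1)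
    (hgraph : ∀ g : MulAut ↥(D.group F), D.IsGraphAut g → g = 1)
    (p f : ℕ) [Fact p.Prime] [CharP F p] (hF : Fintype.card F = p ^ f) :
    Nat.card (Cfsg.Out ↥(D.group F)) = f := by
  obtain ⟨hnx, hcert, htri, hup, hcm'⟩ := certs_of_mem F D hD
  have hc := aut_ringAut_card (F := F) p f hF
  rw [← hc]
  symm
  apply Nat.card_eq_of_bijective (fun σ : F ≃+* F =>
    (QuotientGroup.mk (fieldAut D σ) : Cfsg.Out ↥(D.group F)))
  constructor
  · intro σ σ' h
    have h' : (QuotientGroup.mk (fieldAut D σ) : Cfsg.Out ↥(D.group F)) =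
        QuotientGroup.mk (fieldAut D σ') := h
    rw [QuotientGroup.eq] at h'
    exact field_inner_eq D hD σ σ' h'
  · intro o
    obtain ⟨θ, rfl⟩ := QuotientGroup.mk_surjective o
    obtain ⟨x, d, g, f', hd, hg, hf, hθ⟩ := aut_main D hD θ
    obtain ⟨τ, hτ⟩ := hf
    obtain ⟨χ, hχ, hdχ⟩ := hd
    obtain ⟨h, hh⟩ := diag_inner D hD h1 χ hχ
    refine ⟨τ, ?_⟩
    have hg1 : g = 1 := hgraph g hg
    have hd1 : ∀ y, d y = h * y * h⁻¹ := by
      intro y
      rw [← hh y]
      exact Subtype.ext (Units.ext (hdχ y))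
    have hθ' : θ = MulAut.conj (x * h) * fieldAut D τ := by
      ext y
      rw [hθ y, hg1, hd1, isField_eq D hD f' τ hτ y]
      simp only [MulAut.mul_apply, MulAut.conj_apply, MulAut.one_apply]
      group
    show (QuotientGroup.mk (fieldAut D τ) : Cfsg.Out ↥(D.group F)) = QuotientGroup.mk θ
    rw [hθ']
    have h4 : (QuotientGroup.mk (MulAut.conj (x * h)) : Cfsg.Out ↥(D.group F)) = 1 :=
      (QuotientGroup.eq_one_iff _).mpr ⟨x * h, rfl⟩
    show _ = (QuotientGroup.mk (MulAut.conj (x * h)) : Cfsg.Out ↥(D.group F)) *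
      QuotientGroup.mk (fieldAut D τ)
    rw [h4, one_mul]

/-- the order of the outer automorphism group when the Cartan matrix is unimodular and there
is exactly one non-trivial graph automorphism -/
theorem out_card_graph' {F : Type*} [Field F] [Fintype F] (D : ChevalleyDatum)
    (hD : D ∈ [chevG2, chevB2, chevD4, chevF4, chevE6, chevE7, chevE8]) (h1 : cinvD D = 1)
    (γ : MulAut ↥(D.group F)) (hγN : AutNorm D γ) (i₀ j₀ e₀ : ℕ) (hi₀ : i₀ < D.rank)
    (hj₀ : j₀ < D.rank) (hij : i₀ ≠ j₀)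
    (hγ : ∀ t : F, γ (xG D hD (D.simple i₀) t) = xG D hD (D.simple j₀) (t ^ e₀))
    (hgraph : ∀ g : MulAut ↥(D.group F), D.IsGraphAut g → g = 1 ∨ g = γ)
    (p f : ℕ) [Fact p.Prime] [CharP F p] (hF : Fintype.card F = p ^ f) :
    Nat.card (Cfsg.Out ↥(D.group F)) = 2 * f := by
  obtain ⟨hnx, hcert, htri, hup, hcm'⟩ := certs_of_mem F D hD
  have hc := aut_ringAut_card (F := F) p f hF
  have hcard : Nat.card (Bool × (F ≃+* F)) = 2 * f := by
    rw [Nat.card_prod, hc, Nat.card_eq_fintype_card, Fintype.card_bool]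
  rw [← hcard]
  symm
  have hgbN : ∀ b, AutNorm D (gbOf γ b) := by
    intro b
    cases b
    · exact autNorm_one D
    · exact hγN
  apply Nat.card_eq_of_bijective (fun a : Bool × (F ≃+* F) =>
    (QuotientGroup.mk (gbOf γ a.1 * fieldAut D a.2) : Cfsg.Out ↥(D.group F)))
  constructor
  · rintro ⟨b, τ⟩ ⟨b', τ'⟩ h
    have h' : (QuotientGroup.mk (gbOf γ b * fieldAut D τ) : Cfsg.Out ↥(D.group F)) =
        QuotientGroup.mk (gbOf γ b' * fieldAut D τ') := h
    rw [QuotientGroup.eq] at h'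
    have hb : b = b' := by
      obtain ⟨z, hz⟩ := MonoidHom.mem_range.mp h'
      have hN : AutNorm D (MulAut.conj z) := by
        rw [hz]
        exact ((hgbN b).mul (autNorm_field D hD τ)).inv.mul
          ((hgbN b').mul (autNorm_field D hD τ'))
      have hH := diag_of_autNorm_conj D hD z hN
      obtain ⟨χ₀, -, hχ₀⟩ := diag_conj_x D hD hnx hcert _ hH
      have hlti := simple_lt D hcert i₀ hi₀
      have hltj := simple_lt D hcert j₀ hj₀
      have hne : D.simple j₀ ≠ D.simple i₀ :=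
        fun h5 => hij (simple_inj D hD _ hj₀ _ hi₀ h5).symm
      have e : ∀ y, (gbOf γ b * fieldAut D τ) (MulAut.conj z y) =
          (gbOf γ b' * fieldAut D τ') y := by
        intro y
        rw [hz]
        simp only [MulAut.mul_apply, MulAut.apply_inv_self]
      have e2 : MulAut.conj z (xG D hD (D.simple i₀) (1 : F)) =
          xG D hD (D.simple i₀) ((χ₀ (D.simple i₀) : F) * 1) := by
        apply Subtype.ext
        rw [MulAut.conj_apply]
        exact hχ₀ _ hlti 1
      have e1 := e (xG D hD (D.simple i₀) 1)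
      rw [e2, MulAut.mul_apply, MulAut.mul_apply, fieldAut_xG, fieldAut_xG, map_one] at e1
      by_contra hbb
      cases b <;> cases b'
      · exact hbb rfl
      · rw [gbOf_false, gbOf_true, MulAut.one_apply, hγ] at e1
        have h3 : xU D hD (D.simple j₀) ((1 : F) ^ e₀) =
            xU D hD (D.simple i₀) (τ ((χ₀ (D.simple i₀) : F) * 1)) :=
          (congrArg Subtype.val e1).symm
        have h4 := aut_xU_root_inj D hD _ _ hltj hlti hne _ _ h3
        rw [one_pow] at h4
        exact one_ne_zero h4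
      · rw [gbOf_false, gbOf_true, MulAut.one_apply, hγ] at e1
        have h3 : xU D hD (D.simple i₀) (1 : F) =
            xU D hD (D.simple j₀) ((τ ((χ₀ (D.simple i₀) : F) * 1)) ^ e₀) :=
          (congrArg Subtype.val e1).symm
        have h4 := aut_xU_root_inj D hD _ _ hlti hltj (Ne.symm hne) _ _ h3
        exact one_ne_zero h4
      · exact hbb rfl
    subst hb
    have e3 : (gbOf γ b * fieldAut D τ)⁻¹ * (gbOf γ b * fieldAut D τ') =
        (fieldAut D τ)⁻¹ * fieldAut D τ' := by group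
    rw [e3] at h'
    rw [field_inner_eq D hD τ τ' h']
  · intro o
    obtain ⟨θ, rfl⟩ := QuotientGroup.mk_surjective o
    obtain ⟨x, d, g, f', hd, hg, hf, hθ⟩ := aut_main D hD θ
    obtain ⟨τ, hτ⟩ := hf
    obtain ⟨χ, hχ, hdχ⟩ := hd
    obtain ⟨h, hh⟩ := diag_inner D hD h1 χ hχ
    have hgb' : ∃ b : Bool, g = gbOf γ b := by
      rcases hgraph g hg with h | h
      · exact ⟨false, h⟩
      · exact ⟨true, h⟩
    obtain ⟨b, hb⟩ := hgb'
    refine ⟨(b, τ), ?_⟩
    have hd1 : ∀ y, d y = h * y * h⁻¹ := by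
      intro y
      rw [← hh y]
      exact Subtype.ext (Units.ext (hdχ y))
    have hθ' : θ = MulAut.conj (x * h) * (gbOf γ b * fieldAut D τ) := by
      ext y
      rw [hθ y, hb, hd1, isField_eq D hD f' τ hτ y]
      simp only [MulAut.mul_apply, MulAut.conj_apply]
      group
    show (QuotientGroup.mk (gbOf γ b * fieldAut D τ) : Cfsg.Out ↥(D.group F)) =
      QuotientGroup.mk θ
    rw [hθ']
    have h4 : (QuotientGroup.mk (MulAut.conj (x * h)) : Cfsg.Out ↥(D.group F)) = 1 :=
      (QuotientGroup.eq_one_iff _).mpr ⟨x * h, rfl⟩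
    show _ = (QuotientGroup.mk (MulAut.conj (x * h)) : Cfsg.Out ↥(D.group F)) *
      QuotientGroup.mk (gbOf γ b * fieldAut D τ)
    rw [h4, one_mul]

/-- table certificate relating an exceptional isogeny to the symmetry of the diagram -/
structure ExcCert (D : ChevalleyDatum) (X : IsoData) (L : List ℕ) : Prop where
  pos : ∀ r < D.nroots, (D.IsPosRoot r → D.IsPosRoot (X.rho.getD r 0)) ∧
    (D.IsNegRoot r → D.IsNegRoot (X.rho.getD r 0))
  smp : ∀ i < D.rank, X.rho.getD (D.simple i) 0 = D.simple (L.getD i 0) ∧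
    X.rho.getD (D.neg (D.simple i)) 0 = D.neg (D.simple (L.getD i 0)) ∧
    X.shR.getD (D.simple i) false =
      (D.isLong (D.simple (L.getD i 0)) && !D.isLong (D.simple i)) ∧
    X.shR.getD (D.neg (D.simple i)) false =
      (D.isLong (D.simple (L.getD i 0)) && !D.isLong (D.simple i))

/-- the exceptional graph automorphism -/
theorem exc_aut [Finite F] (D : ChevalleyDatum)
    (hD : D ∈ [chevG2, chevB2, chevD4, chevF4, chevE6, chevE7, chevE8]) (X : IsoData)
    (L : List ℕ) (p : ℕ) [Fact p.Prime] [CharP F p] (hX : IsoCert D X p)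
    (hE : ExcCert D X L) :
    ∃ γ : MulAut ↥(D.group F), AutNorm D γ ∧
      (∀ i < D.rank, ∀ t : F, γ (xG D hD (D.simple i) t) =
        xG D hD (D.simple (L.getD i 0)) (t ^ X.lam p (D.simple i))) ∧
      ∀ π : Equiv.Perm (Fin D.rank), (∀ i, (π i : ℕ) = L.getD i 0) → GraphSpec D hD γ π := by
  obtain ⟨hnx, hcert, htri, hup, hcm'⟩ := certs_of_mem F D hD
  have hperf : ∀ x : F, ∃ y : F, y ^ p = x := by
    intro x
    haveI : ExpChar F p := ExpChar.prime (Fact.out : p.Prime)
    have hinj : Function.Injective (frobenius F p) := frobenius_inj F p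
    obtain ⟨u, hu⟩ := Finite.injective_iff_surjective.mp hinj x
    exact ⟨u, hu⟩
  obtain ⟨α, hα⟩ := iso_main (F := F) D hD X p hX hperf
  have key : ∀ r < D.nroots, ∀ t : F,
      α (xG D hD r t) = xG D hD (X.rho.getD r 0) (t ^ X.lam p r) :=
    fun r hr t => Subtype.ext (Units.ext (hα _ r t hr rfl))
  refine ⟨α, autNorm_of_roots D hD α (fun r hr t =>
    ⟨_, _, (hE.pos r hr).1, (hE.pos r hr).2, key r hr t⟩), fun i hi t => ?_,
    fun π hπ i t => ?_⟩
  · rw [key _ (simple_lt D hcert i hi) t, (hE.smp i hi).1]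
  · obtain ⟨e1, e2, e3, e4⟩ := hE.smp i i.2
    have hlt := simple_lt D hcert i i.2
    have hlt' := neg_lt' D hD hnx _ hlt
    have hc : ringChar F = p := ringChar.eq F p
    have ex : X.lam p (D.simple i) = D.graphExp (ringChar F) i (π i) := by
      unfold IsoData.lam ChevalleyDatum.graphExp
      rw [e3, hπ i, hc]
    have ex' : X.lam p (D.neg (D.simple i)) = D.graphExp (ringChar F) i (π i) := by
      unfold IsoData.lam ChevalleyDatum.graphExp
      rw [e4, hπ i, hc]
    constructor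
    · rw [key _ hlt t, e1, ex, hπ i]
    · rw [key _ hlt' t, e2, ex', hπ i]

theorem excCert_G2 : ExcCert chevG2 isoG2 [1, 0] where
  pos := by decide +kernel
  smp := by decide +kernel

theorem excCert_F4 : ExcCert chevF4 isoF4 [3, 2, 1, 0] where
  pos := by decide +kernel
  smp := by decide +kernel

theorem g2_mem : chevG2 ∈ [chevG2, chevB2, chevD4, chevF4, chevE6, chevE7, chevE8] := by simp

theorem f4_mem : chevF4 ∈ [chevG2, chevB2, chevD4, chevF4, chevE6, chevE7, chevE8] := by simp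

theorem g2_graph_facts : chevG2.cartan 1 (chevG2.simple 0) = -1 ∧
    chevG2.cartan 0 (chevG2.simple 1) = -3 ∧ chevG2.isLong (chevG2.simple 0) = false ∧
    chevG2.isLong (chevG2.simple 1) = true := by decide +kernel

theorem f4_graph_facts : chevF4.cartan 2 (chevF4.simple 1) = -1 ∧
    chevF4.cartan 1 (chevF4.simple 2) = -2 ∧ chevF4.isLong (chevF4.simple 1) = false ∧
    chevF4.isLong (chevF4.simple 2) = true := by decide +kernel

/-- no graph automorphism of `G₂(q)` for the non-trivial symmetry unless `p = 3` -/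
theorem g2_no_graph [Fintype F] (p : ℕ) [Fact p.Prime] [CharP F p] (hp : p ≠ 3)
    (hq : 3 ≤ Fintype.card F) (g : MulAut ↥(chevG2.group F))
    (π : Equiv.Perm (Fin chevG2.rank)) (hs : GraphSpec chevG2 g2_mem g π)
    (hπ : ∀ i, (π i : ℕ) = ([1, 0] : List ℕ).getD i 0) : False := by
  obtain ⟨c10, c01, l0, l1⟩ := g2_graph_facts
  have l0' : (0 : ℕ) < chevG2.rank := by decide
  have l1' : (1 : ℕ) < chevG2.rank := by decide
  have hπ0 : ((π ⟨0, l0'⟩ : Fin chevG2.rank) : ℕ) = 1 := hπ ⟨0, l0'⟩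
  have hπ1 : ((π ⟨1, l1'⟩ : Fin chevG2.rank) : ℕ) = 0 := hπ ⟨1, l1'⟩
  have hc : ringChar F = p := ringChar.eq F p
  apply no_pow_eq (F := F) p 3 (Or.inr rfl) hp hq
  intro t ht
  have h : (t ^ chevG2.graphExp (ringChar F) 0 (π ⟨0, l0'⟩ : Fin chevG2.rank)) ^
        chevG2.cartan (π ⟨0, l0'⟩ : Fin chevG2.rank)
          (chevG2.simple (π ⟨1, l1'⟩ : Fin chevG2.rank)) =
      (t ^ chevG2.graphExp (ringChar F) 1 (π ⟨1, l1'⟩ : Fin chevG2.rank)) ^
        chevG2.cartan 0 (chevG2.simple 1) :=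
    graph_rel chevG2 g2_mem g π hs ⟨0, l0'⟩ ⟨1, l1'⟩ t ht
  rw [hπ0, hπ1] at h
  have e0 : chevG2.graphExp (ringChar F) 0 1 = p := by
    unfold ChevalleyDatum.graphExp
    simp [l0, l1, hc]
  have e1 : chevG2.graphExp (ringChar F) 1 0 = 1 := by
    unfold ChevalleyDatum.graphExp
    simp [l0, l1]
  rw [e0, e1, c10, c01, pow_one] at h
  have hz1 : (t ^ p) ^ (-1 : ℤ) = (t ^ p)⁻¹ := zpow_neg_one _
  have hz3 : t ^ (-3 : ℤ) = (t ^ 3)⁻¹ := by
    rw [zpow_neg]
    norm_cast
  rw [hz1, hz3, inv_inj] at h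
  exact h

/-- no graph automorphism of `F₄(q)` for the non-trivial symmetry unless `p = 2` -/
theorem f4_no_graph [Fintype F] (p : ℕ) [Fact p.Prime] [CharP F p] (hp : p ≠ 2)
    (g : MulAut ↥(chevF4.group F))
    (π : Equiv.Perm (Fin chevF4.rank)) (hs : GraphSpec chevF4 f4_mem g π)
    (hπ : ∀ i, (π i : ℕ) = ([3, 2, 1, 0] : List ℕ).getD i 0) : False := by
  obtain ⟨c21, c12, l1, l2⟩ := f4_graph_facts
  have l1' : (1 : ℕ) < chevF4.rank := by decide
  have l2' : (2 : ℕ) < chevF4.rank := by decide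
  have hπ1 : ((π ⟨1, l1'⟩ : Fin chevF4.rank) : ℕ) = 2 := hπ ⟨1, l1'⟩
  have hπ2 : ((π ⟨2, l2'⟩ : Fin chevF4.rank) : ℕ) = 1 := hπ ⟨2, l2'⟩
  have hc : ringChar F = p := ringChar.eq F p
  have hq : 2 ≤ Fintype.card F := Fintype.one_lt_card
  apply no_pow_eq (F := F) p 2 (Or.inl rfl) hp hq
  intro t ht
  have h : (t ^ chevF4.graphExp (ringChar F) 1 (π ⟨1, l1'⟩ : Fin chevF4.rank)) ^
        chevF4.cartan (π ⟨1, l1'⟩ : Fin chevF4.rank)
          (chevF4.simple (π ⟨2, l2'⟩ : Fin chevF4.rank)) =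
      (t ^ chevF4.graphExp (ringChar F) 2 (π ⟨2, l2'⟩ : Fin chevF4.rank)) ^
        chevF4.cartan 1 (chevF4.simple 2) :=
    graph_rel chevF4 f4_mem g π hs ⟨1, l1'⟩ ⟨2, l2'⟩ t ht
  rw [hπ1, hπ2] at h
  have e0 : chevF4.graphExp (ringChar F) 1 2 = p := by
    unfold ChevalleyDatum.graphExp
    simp [l1, l2, hc]
  have e1 : chevF4.graphExp (ringChar F) 2 1 = 1 := by
    unfold ChevalleyDatum.graphExp
    simp [l1, l2]
  rw [e0, e1, c21, c12, pow_one] at h
  have hz1 : (t ^ p) ^ (-1 : ℤ) = (t ^ p)⁻¹ := zpow_neg_one _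
  have hz2 : t ^ (-2 : ℤ) = (t ^ 2)⁻¹ := by
    rw [zpow_neg]
    norm_cast
  rw [hz1, hz2, inv_inj] at h
  exact h

/-- the outer automorphism group of `G₂(q)` -/
theorem out_card_G2 {F : Type*} [Field F] [Fintype F] (p f : ℕ) [Fact p.Prime] [CharP F p]
    (hF : Fintype.card F = p ^ f) (hq : 3 ≤ p ^ f) :
    Nat.card (Cfsg.Out ↥(chevG2.group F)) = if p = 3 then 2 * f else f := by
  have hsym : ∀ π : Equiv.Perm (Fin chevG2.rank),
      (∀ i, π i = i) ∨ (∀ i, (π i : ℕ) = ([1, 0] : List ℕ).getD i 0) :=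
    fun π => sym_rank2 chevG2 (by decide) π
  by_cases hp : p = 3
  · subst hp
    rw [if_pos rfl]
    obtain ⟨γ, hγN, hγ, hγS⟩ :=
      exc_aut (F := F) chevG2 g2_mem isoG2 [1, 0] 3 isoCert_G2 excCert_G2
    refine out_card_graph' chevG2 g2_mem (by decide) γ hγN 0 1 _ (by decide) (by decide)
      (by decide) (hγ 0 (by decide)) ?_ 3 f hF
    intro g hg
    obtain ⟨π, hπ, hs⟩ := (isGraph_iff chevG2 g2_mem g).mp hg
    rcases hsym π with h | h
    · exact Or.inl (graph_one_of_id chevG2 g2_mem g π hs h)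
    · exact Or.inr (graph_unique chevG2 g2_mem g γ π hs (hγS π h))
  · rw [if_neg hp]
    refine out_card_field' chevG2 g2_mem (by decide) ?_ p f hF
    intro g hg
    obtain ⟨π, hπ, hs⟩ := (isGraph_iff chevG2 g2_mem g).mp hg
    rcases hsym π with h | h
    · exact graph_one_of_id chevG2 g2_mem g π hs h
    · exact (g2_no_graph p hp (by rw [hF]; exact hq) g π hs h).elim

/-- the outer automorphism group of `F₄(q)` -/
theorem out_card_F4 {F : Type*} [Field F] [Fintype F] (p f : ℕ) [Fact p.Prime] [CharP F p]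
    (hF : Fintype.card F = p ^ f) :
    Nat.card (Cfsg.Out ↥(chevF4.group F)) = Nat.gcd 2 p * f := by
  by_cases hp : p = 2
  · subst hp
    have e : Nat.gcd 2 2 = 2 := rfl
    rw [e]
    obtain ⟨γ, hγN, hγ, hγS⟩ :=
      exc_aut (F := F) chevF4 f4_mem isoF4 [3, 2, 1, 0] 2 isoCert_F4 excCert_F4
    refine out_card_graph' chevF4 f4_mem (by decide) γ hγN 0 3 _ (by decide) (by decide)
      (by decide) (hγ 0 (by decide)) ?_ 2 f hF
    intro g hg
    obtain ⟨π, hπ, hs⟩ := (isGraph_iff chevF4 f4_mem g).mp hg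
    rcases f4_symm π hπ with h | h
    · exact Or.inl (graph_one_of_id chevF4 f4_mem g π hs h)
    · exact Or.inr (graph_unique chevF4 f4_mem g γ π hs (hγS π h))
  · have e : Nat.gcd 2 p = 1 :=
      (Nat.coprime_primes Nat.prime_two (Fact.out : p.Prime)).mpr (Ne.symm hp)
    rw [e, one_mul]
    refine out_card_field' chevF4 f4_mem (by decide) ?_ p f hF
    intro g hg
    obtain ⟨π, hπ, hs⟩ := (isGraph_iff chevF4 f4_mem g).mp hg
    rcases f4_symm π hπ with h | h
    · exact graph_one_of_id chevF4 f4_mem g π hs h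
    · exact (f4_no_graph p hp g π hs h).elim

end Cfsg.Agent.Lib.helper11
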