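import Cfsg.Agent.Lib.helper11d.Aut1

/-! Automorphisms of a finite Chevalley group: normalization by an inner automorphism. -/

set_option autoImplicit false

namespace Cfsg.Agent.Lib.helper11

open Cfsg Cfsg.Lie Cfsg.Agent.Lib.helper2
open scoped Pointwise

variable {F : Type*} [Field F]

theorem aut_sylow_conj {G : Type*} [Group G] {p : ℕ} (P : Sylow p G) (y x : G) :
    y * x * y⁻¹ ∈ ((y • P : Sylow p G) : Subgroup G) ↔ x ∈ (P : Subgroup G) := by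
  rw [Sylow.coe_subgroup_smul]
  have : y * x * y⁻¹ = MulAut.conj y • x := rfl
  rw [this, Subgroup.smul_mem_pointwise_smul_iff]

theorem aut_sylow_aut {G : Type*} [Group G] {p : ℕ} (P : Sylow p G) (θ : MulAut G) (x : G) :
    θ x ∈ ((θ • P : Sylow p G) : Subgroup G) ↔ x ∈ (P : Subgroup G) := by
  rw [Sylow.pointwise_smul_def]
  have : θ x = θ • x := rfl
  rw [this, Subgroup.smul_mem_pointwise_smul_iff]

/-- every automorphism is, up to an inner automorphism, one stabilizing `U` and `U⁻` -/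
theorem aut_normalize [Finite F] (D : ChevalleyDatum)
    (hD : D ∈ [chevG2, chevB2, chevD4, chevF4, chevE6, chevE7, chevE8])
    (θ : MulAut ↥(D.group F)) :
    ∃ y : ↥(D.group F),
      (∀ g : ↥(D.group F), (g : GL D.Idx F) ∈ D.posUnipotent F →
        ((y * θ g * y⁻¹ : ↥(D.group F)) : GL D.Idx F) ∈ D.posUnipotent F) ∧
      (∀ g : ↥(D.group F), (g : GL D.Idx F) ∈ D.negUnipotent F →
        ((y * θ g * y⁻¹ : ↥(D.group F)) : GL D.Idx F) ∈ D.negUnipotent F) := by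
  classical
  obtain ⟨hnx, hcert, htri, hup, hcm'⟩ := certs_of_mem F D hD
  obtain ⟨hBG, hNG, -⟩ := Cfsg.Agent.S1043.main0 (F := F) D hD hnx hcert
  have hUB : D.posUnipotent F ≤ D.borelSubgroup F := le_sup_left
  have hUG : D.posUnipotent F ≤ D.group F := le_trans hUB hBG
  haveI : CharP F (ringChar F) := ringChar.charP F
  haveI : Fact (ringChar F).Prime := ⟨CharP.char_is_prime F (ringChar F)⟩
  obtain ⟨P, hP⟩ := pos_sylow (F := F) (ringChar F) D hD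
  have memP : ∀ x : ↥(D.group F), x ∈ (P : Subgroup ↥(D.group F)) ↔
      (x : GL D.Idx F) ∈ D.posUnipotent F := by
    intro x
    rw [hP, Subgroup.mem_subgroupOf]
  obtain ⟨n₀, hn₀, p1, p2, p3, p4⟩ := aut_w0 (F := F) D hD
  let n₀G : ↥(D.group F) := ⟨n₀, hNG hn₀⟩
  have memPv : ∀ x : ↥(D.group F),
      x ∈ ((n₀G • P : Sylow (ringChar F) ↥(D.group F)) : Subgroup ↥(D.group F)) ↔
      (x : GL D.Idx F) ∈ D.negUnipotent F := by
    intro x
    have e : n₀G * (n₀G⁻¹ * x * n₀G) * n₀G⁻¹ = x := by group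
    constructor
    · intro hx
      have h1 : n₀G * (n₀G⁻¹ * x * n₀G) * n₀G⁻¹ ∈
          ((n₀G • P : Sylow (ringChar F) ↥(D.group F)) : Subgroup ↥(D.group F)) := by
        rw [e]; exact hx
      rw [aut_sylow_conj, memP] at h1
      have h2 := p1 _ h1
      have e2 : n₀ * ((n₀G⁻¹ * x * n₀G : ↥(D.group F)) : GL D.Idx F) * n₀⁻¹ =
          (x : GL D.Idx F) := by
        show n₀ * (n₀⁻¹ * (x : GL D.Idx F) * n₀) * n₀⁻¹ = x
        group
      rwa [e2] at h2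
    · intro hx
      have h1 : (((n₀G⁻¹ * x * n₀G : ↥(D.group F)) : GL D.Idx F)) ∈ D.posUnipotent F :=
        p4 _ hx
      rw [← memP, ← aut_sylow_conj P n₀G] at h1
      rwa [e] at h1
  -- step 1
  obtain ⟨y₁, hy₁⟩ := MulAction.exists_smul_eq ↥(D.group F) (θ • P) P
  let θ₁ : MulAut ↥(D.group F) := MulAut.conj y₁ * θ
  have hθ₁ : ∀ g, θ₁ g = y₁ * θ g * y₁⁻¹ := fun g => rfl
  have h1 : ∀ g : ↥(D.group F), θ₁ g ∈ (P : Subgroup ↥(D.group F)) ↔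
      g ∈ (P : Subgroup ↥(D.group F)) := by
    intro g
    rw [hθ₁]
    conv_lhs => rw [← hy₁]
    rw [aut_sylow_conj, aut_sylow_aut]
  -- step 3
  obtain ⟨g', hg'⟩ := MulAction.exists_smul_eq ↥(D.group F) P (θ₁ • (n₀G • P))
  have h2 : ∀ x v : ↥(D.group F), θ₁ v = g' * x * g'⁻¹ →
      ((x : GL D.Idx F) ∈ D.posUnipotent F ↔ (v : GL D.Idx F) ∈ D.negUnipotent F) := by
    intro x v hxv
    rw [← memP, ← memPv, ← aut_sylow_conj P g' x, ← aut_sylow_aut (n₀G • P) θ₁ v, hg', hxv]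
  obtain ⟨b, hb, n, hn, u₀, hu₀, e⟩ :=
    bruhat_exists D hD hnx hcert htri hup hcm' (g' : GL D.Idx F) g'.2
  have hu₀' := SnSet_le_pos D hD n hu₀
  have a1 : ∀ r, D.IsPosRoot r → n * xU D hD r 1 * n⁻¹ ∉ D.posUnipotent F := by
    intro r hr hmem
    have hX : u₀⁻¹ * xU D hD r 1 * u₀ ∈ D.posUnipotent F :=
      mul_mem (mul_mem (inv_mem hu₀') (xU_mem_pos D hD r hr 1)) hu₀'
    let X : ↥(D.group F) := ⟨u₀⁻¹ * xU D hD r 1 * u₀, hUG hX⟩
    let v : ↥(D.group F) := MulEquiv.symm θ₁ (g' * X * g'⁻¹)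
    have hv : θ₁ v = g' * X * g'⁻¹ := MulEquiv.apply_symm_apply θ₁ _
    have hvneg := (h2 X v hv).mp hX
    have hz : ((g' * X * g'⁻¹ : ↥(D.group F)) : GL D.Idx F) ∈ D.posUnipotent F := by
      have e1 : ((g' * X * g'⁻¹ : ↥(D.group F)) : GL D.Idx F) =
          b * (n * xU D hD r 1 * n⁻¹) * b⁻¹ := by
        show (g' : GL D.Idx F) * (u₀⁻¹ * xU D hD r 1 * u₀) * (g' : GL D.Idx F)⁻¹ = _
        rw [e]; group
      rw [e1]
      exact aut_borel_norm D hD _ _ hb hmem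
    have hvpos : (v : GL D.Idx F) ∈ D.posUnipotent F := by
      rw [← memP, ← h1, hv, memP]
      exact hz
    have hv1 : v = 1 := Subtype.ext (aut_pos_neg_one D hD _ hvpos hvneg)
    rw [hv1, map_one] at hv
    have hX1 : X = 1 := by
      have : X = g'⁻¹ * (g' * X * g'⁻¹) * g' := by group
      rw [this, ← hv]; group
    have hX1' : u₀⁻¹ * xU D hD r 1 * u₀ = 1 := congrArg Subtype.val hX1
    have h6 : xU D hD r (1 : F) = 1 := by
      have h7 : xU D hD r (1 : F) = u₀ * (u₀⁻¹ * xU D hD r 1 * u₀) * u₀⁻¹ := by group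
      rw [h7, hX1']; group
    exact one_ne_zero (α := F) (xU_eq_one D hD _ hr.1 _ h6)
  have hswap := (aut_conj_swap D hD n hn a1).1
  have h4 : (↑(D.posUnipotent F ⊔ D.diagonalSubgroup F) : Set (GL D.Idx F)) =
      (↑(D.posUnipotent F) : Set (GL D.Idx F)) * (↑(D.diagonalSubgroup F) : Set (GL D.Idx F)) :=
    Subgroup.coe_mul_of_right_le_normalizer_left _ _ (diag_le_normalizer_pos D hD hnx hcert)
  have hb' : b ∈ (↑(D.posUnipotent F ⊔ D.diagonalSubgroup F) : Set (GL D.Idx F)) := hb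
  rw [h4] at hb'
  obtain ⟨u₁, hu₁, h, hh, eb⟩ := hb'
  have hu₁ : u₁ ∈ D.posUnipotent F := hu₁
  have hh : h ∈ D.diagonalSubgroup F := hh
  have eb : u₁ * h = b := eb
  let u₁G : ↥(D.group F) := ⟨u₁, hUG hu₁⟩
  have e2 : ∀ g : ↥(D.group F),
      ((u₁G⁻¹ * y₁ * θ g * (u₁G⁻¹ * y₁)⁻¹ : ↥(D.group F)) : GL D.Idx F) =
        u₁⁻¹ * ((θ₁ g : ↥(D.group F)) : GL D.Idx F) * u₁ := by
    intro g
    have : u₁G⁻¹ * y₁ * θ g * (u₁G⁻¹ * y₁)⁻¹ = u₁G⁻¹ * θ₁ g * u₁G := by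
      rw [hθ₁]; group
    rw [this]; rfl
  refine ⟨u₁G⁻¹ * y₁, ?_, ?_⟩
  · intro g hg
    have h5 : ((θ₁ g : ↥(D.group F)) : GL D.Idx F) ∈ D.posUnipotent F := by
      rw [← memP, h1, memP]; exact hg
    rw [e2]
    exact mul_mem (mul_mem (inv_mem hu₁) h5) hu₁
  · intro g hg
    let x : ↥(D.group F) := g'⁻¹ * θ₁ g * g'
    have hx : θ₁ g = g' * x * g'⁻¹ := by
      show θ₁ g = g' * (g'⁻¹ * θ₁ g * g') * g'⁻¹
      group
    have hxU := (h2 x g hx).mpr hg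
    have e3 : ((θ₁ g : ↥(D.group F)) : GL D.Idx F) =
        u₁ * (h * (n * (u₀ * (x : GL D.Idx F) * u₀⁻¹) * n⁻¹) * h⁻¹) * u₁⁻¹ := by
      rw [hx]
      show (g' : GL D.Idx F) * (x : GL D.Idx F) * (g' : GL D.Idx F)⁻¹ = _
      rw [e, ← eb]; group
    have hw : n * (u₀ * (x : GL D.Idx F) * u₀⁻¹) * n⁻¹ ∈ D.negUnipotent F :=
      hswap _ (mul_mem (mul_mem hu₀' hxU) (inv_mem hu₀'))
    have hw' : h * (n * (u₀ * (x : GL D.Idx F) * u₀⁻¹) * n⁻¹) * h⁻¹ ∈ D.negUnipotent F :=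
      (Subgroup.mem_normalizer_iff.mp (diag_le_normalizer_neg D hD hnx hcert hh) _).mp hw
    rw [e2, e3]
    have e4 : u₁⁻¹ * (u₁ * (h * (n * (u₀ * (x : GL D.Idx F) * u₀⁻¹) * n⁻¹) * h⁻¹) * u₁⁻¹) * u₁ =
        h * (n * (u₀ * (x : GL D.Idx F) * u₀⁻¹) * n⁻¹) * h⁻¹ := by group
    rw [e4]; exact hw'

end Cfsg.Agent.Lib.helper11
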