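import Cfsg.Agent.Lib.helper11d.Aut2

/-! Automorphisms of a finite Chevalley group stabilizing `U` and `U⁻`: they permute the
negative fundamental root subgroups. -/

set_option autoImplicit false

namespace Cfsg.Agent.Lib.helper11

open Cfsg Cfsg.Lie Cfsg.Agent.Lib.helper2
open scoped Pointwise

variable {F : Type*} [Field F]

/-- `θ` stabilizes `U` and `U⁻` -/
def AutNorm (D : ChevalleyDatum) (θ : MulAut ↥(D.group F)) : Prop :=
  (∀ g : ↥(D.group F), (g : GL D.Idx F) ∈ D.posUnipotent F →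
    ((θ g : ↥(D.group F)) : GL D.Idx F) ∈ D.posUnipotent F) ∧
  (∀ g : ↥(D.group F), (g : GL D.Idx F) ∈ D.negUnipotent F →
    ((θ g : ↥(D.group F)) : GL D.Idx F) ∈ D.negUnipotent F)

theorem AutNorm.inv [Finite F] {D : ChevalleyDatum} {θ : MulAut ↥(D.group F)}
    (h : AutNorm D θ) : AutNorm D θ⁻¹ := by
  constructor
  · intro g hg
    apply aut_iff_of_imp (θ : ↥(D.group F) ≃* ↥(D.group F)).toEquiv
      {x | (x : GL D.Idx F) ∈ D.posUnipotent F} h.1
    show ((θ (θ⁻¹ g) : ↥(D.group F)) : GL D.Idx F) ∈ D.posUnipotent F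
    rw [MulAut.apply_inv_self]
    exact hg
  · intro g hg
    apply aut_iff_of_imp (θ : ↥(D.group F) ≃* ↥(D.group F)).toEquiv
      {x | (x : GL D.Idx F) ∈ D.negUnipotent F} h.2
    show ((θ (θ⁻¹ g) : ↥(D.group F)) : GL D.Idx F) ∈ D.negUnipotent F
    rw [MulAut.apply_inv_self]
    exact hg

theorem aut_neg_le_group (D : ChevalleyDatum)
    (hD : D ∈ [chevG2, chevB2, chevD4, chevF4, chevE6, chevE7, chevE8]) :
    D.negUnipotent F ≤ D.group F := by
  unfold ChevalleyDatum.negUnipotent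
  rw [Subgroup.closure_le]
  rintro g ⟨r, t, hr, hg⟩
  rw [eq_xU D hD r t g hg]
  exact xU_mem_group D hD r t

theorem aut_pos_le_group (D : ChevalleyDatum)
    (hD : D ∈ [chevG2, chevB2, chevD4, chevF4, chevE6, chevE7, chevE8]) :
    D.posUnipotent F ≤ D.group F := by
  unfold ChevalleyDatum.posUnipotent
  rw [Subgroup.closure_le]
  rintro g ⟨r, t, hr, hg⟩
  rw [eq_xU D hD r t g hg]
  exact xU_mem_group D hD r t

theorem AutNorm.borel [Finite F] {D : ChevalleyDatum}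
    (hD : D ∈ [chevG2, chevB2, chevD4, chevF4, chevE6, chevE7, chevE8])
    {θ : MulAut ↥(D.group F)} (h : AutNorm D θ) (b : ↥(D.group F))
    (hb : (b : GL D.Idx F) ∈ D.borelSubgroup F) :
    ((θ b : ↥(D.group F)) : GL D.Idx F) ∈ D.borelSubgroup F := by
  apply aut_norm_pos D hD _ (θ b).2
  intro u hu
  let uG : ↥(D.group F) := ⟨u, aut_pos_le_group D hD hu⟩
  have h1 : ((θ⁻¹ uG : ↥(D.group F)) : GL D.Idx F) ∈ D.posUnipotent F := h.inv.1 uG hu
  have h2 : ((b * θ⁻¹ uG * b⁻¹ : ↥(D.group F)) : GL D.Idx F) ∈ D.posUnipotent F :=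
    aut_borel_norm D hD _ _ hb h1
  have h3 := h.1 _ h2
  have e : θ (b * θ⁻¹ uG * b⁻¹) = θ b * uG * (θ b)⁻¹ := by
    rw [map_mul, map_mul, map_inv, MulAut.apply_inv_self]
  rw [e] at h3
  exact h3

/-- an element of `B` stabilizing `U⁻` lies in `H` -/
theorem aut_diag_of_norm (D : ChevalleyDatum)
    (hD : D ∈ [chevG2, chevB2, chevD4, chevF4, chevE6, chevE7, chevE8])
    (b : GL D.Idx F) (hb : b ∈ D.borelSubgroup F)
    (h : ∀ v ∈ D.negUnipotent F, b * v * b⁻¹ ∈ D.negUnipotent F) :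
    b ∈ D.diagonalSubgroup F := by
  obtain ⟨hnx, hcert, htri, hup, hcm'⟩ := certs_of_mem F D hD
  obtain ⟨hBG, hNG, -⟩ := Cfsg.Agent.S1043.main0 (F := F) D hD hnx hcert
  have hUB : D.posUnipotent F ≤ D.borelSubgroup F := le_sup_left
  obtain ⟨n₀, hn₀, p1, p2, p3, p4⟩ := aut_w0 (F := F) D hD
  have h4 : (↑(D.posUnipotent F ⊔ D.diagonalSubgroup F) : Set (GL D.Idx F)) =
      (↑(D.posUnipotent F) : Set (GL D.Idx F)) * (↑(D.diagonalSubgroup F) : Set (GL D.Idx F)) :=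
    Subgroup.coe_mul_of_right_le_normalizer_left _ _ (diag_le_normalizer_pos D hD hnx hcert)
  have hb' : b ∈ (↑(D.posUnipotent F ⊔ D.diagonalSubgroup F) : Set (GL D.Idx F)) := hb
  rw [h4] at hb'
  obtain ⟨u₁, hu₁, hh, hhh, eb⟩ := hb'
  have hu₁ : u₁ ∈ D.posUnipotent F := hu₁
  have hhh : hh ∈ D.diagonalSubgroup F := hhh
  have eb : u₁ * hh = b := eb
  have hu₁n : ∀ v ∈ D.negUnipotent F, u₁ * v * u₁⁻¹ ∈ D.negUnipotent F := by
    intro v hv
    have h5 : hh⁻¹ * v * hh⁻¹⁻¹ ∈ D.negUnipotent F :=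
      (Subgroup.mem_normalizer_iff.mp
        (diag_le_normalizer_neg D hD hnx hcert (inv_mem hhh)) _).mp hv
    have h6 := h _ h5
    have e : b * (hh⁻¹ * v * hh⁻¹⁻¹) * b⁻¹ = u₁ * v * u₁⁻¹ := by
      rw [← eb]; group
    rwa [e] at h6
  have hw1 : n₀⁻¹ * u₁ * n₀ ∈ D.negUnipotent F := p3 _ hu₁
  have hw2 : n₀⁻¹ * u₁ * n₀ ∈ D.borelSubgroup F := by
    apply aut_norm_pos D hD _
      (mul_mem (mul_mem (inv_mem (hNG hn₀)) (hBG (hUB hu₁))) (hNG hn₀))
    intro x hx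
    have h7 := p4 _ (hu₁n _ (p1 _ hx))
    have e : n₀⁻¹ * (u₁ * (n₀ * x * n₀⁻¹) * u₁⁻¹) * n₀ =
        n₀⁻¹ * u₁ * n₀ * x * (n₀⁻¹ * u₁ * n₀)⁻¹ := by group
    rwa [e] at h7
  have hw3 : n₀⁻¹ * u₁ * n₀ ∈ D.borelSubgroup F ⊓ D.negUnipotent F := ⟨hw2, hw1⟩
  rw [borel_inf_neg D hD hnx hcert htri, Subgroup.mem_bot] at hw3
  have hu1 : u₁ = 1 := by
    have : u₁ = n₀ * (n₀⁻¹ * u₁ * n₀) * n₀⁻¹ := by group
    rw [this, hw3]; group
  rw [← eb, hu1, one_mul]
  exact hhh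

theorem AutNorm.diag [Finite F] {D : ChevalleyDatum}
    (hD : D ∈ [chevG2, chevB2, chevD4, chevF4, chevE6, chevE7, chevE8])
    {θ : MulAut ↥(D.group F)} (h : AutNorm D θ) (x : ↥(D.group F))
    (hx : (x : GL D.Idx F) ∈ D.diagonalSubgroup F) :
    ((θ x : ↥(D.group F)) : GL D.Idx F) ∈ D.diagonalSubgroup F := by
  obtain ⟨hnx, hcert, htri, hup, hcm'⟩ := certs_of_mem F D hD
  apply aut_diag_of_norm D hD _
    (h.borel hD x ((le_sup_right : D.diagonalSubgroup F ≤ D.borelSubgroup F) hx))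
  intro v hv
  let vG : ↥(D.group F) := ⟨v, aut_neg_le_group D hD hv⟩
  have h1 : ((θ⁻¹ vG : ↥(D.group F)) : GL D.Idx F) ∈ D.negUnipotent F := h.inv.2 vG hv
  have h2 : ((x * θ⁻¹ vG * x⁻¹ : ↥(D.group F)) : GL D.Idx F) ∈ D.negUnipotent F :=
    (Subgroup.mem_normalizer_iff.mp (diag_le_normalizer_neg D hD hnx hcert hx) _).mp h1
  have h3 := h.2 _ h2
  have e : θ (x * θ⁻¹ vG * x⁻¹) = θ x * vG * (θ x)⁻¹ := by
    rw [map_mul, map_mul, map_inv, MulAut.apply_inv_self]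
  rw [e] at h3
  exact h3

/-- elements of `U⁻` in the cell `B n_i B` lie in the root subgroup of `-p_i` -/
theorem aut_cell_neg (D : ChevalleyDatum)
    (hD : D ∈ [chevG2, chevB2, chevD4, chevF4, chevE6, chevE7, chevE8])
    (i : ℕ) (hi : i < D.rank) (y b₁ b₂ : GL D.Idx F)
    (hy : y ∈ D.negUnipotent F) (hb₁ : b₁ ∈ D.borelSubgroup F) (hb₂ : b₂ ∈ D.borelSubgroup F)
    (e : y = b₁ * nU D hD (D.simple i) 1 * b₂) :
    ∃ t : F, y = xU D hD (D.neg (D.simple i)) t := by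
  obtain ⟨hnx, hcert, htri, hup, hcm'⟩ := certs_of_mem F D hD
  have hUB : D.posUnipotent F ≤ D.borelSubgroup F := le_sup_left
  have hHB : D.diagonalSubgroup F ≤ D.borelSubgroup F := le_sup_right
  have hpos : D.IsPosRoot (D.simple i) := (hcert.2 i hi).2
  have hnegr : D.IsNegRoot (D.neg (D.simple i)) := neg_of_pos D hD hnx htri _ hpos
  have hR := rk1_simple (F := F) D hD i hi
  obtain ⟨v, hv, t, h, hh, eb⟩ := borel_decomp D hD hnx hcert htri hup hcm' i hi b₁ hb₁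
  have hnorm := (up_main D hD hnx hcert htri hup hcm' i hi).1
  have hnpX : nU D hD (D.simple i) (1 : F) ∈
      D.rootSubgroup F (D.simple i) ⊔ D.rootSubgroup F (D.neg (D.simple i)) :=
    mul_mem (mul_mem (Subgroup.mem_sup_left (xU_mem_rootSubgroup D hD _ _))
      (Subgroup.mem_sup_right (xU_mem_rootSubgroup D hD _ _)))
      (Subgroup.mem_sup_left (xU_mem_rootSubgroup D hD _ _))
  have hnpN : nU D hD (D.simple i) (1 : F) ∈ D.monomialSubgroup F := nU_mem_mono D hD _ hpos.1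
  generalize hN1 : nU D hD (D.simple i) (1 : F) = N1 at *
  by_cases ht : t = 0
  · exfalso
    have hv' : N1⁻¹ * v * N1⁻¹⁻¹ ∈ Subgroup.closure (UpSet F D i) :=
      (Subgroup.mem_normalizer_iff.mp (hnorm (inv_mem hnpX)) v).mp hv
    have hh' : N1⁻¹ * h * N1 ∈ D.diagonalSubgroup F :=
      mono_conj_diag D hD hnx hcert N1 h hnpN hh
    have hc : (N1⁻¹ * v * N1⁻¹⁻¹ * (N1⁻¹ * h * N1) * b₂)⁻¹ ∈ D.borelSubgroup F :=
      inv_mem (mul_mem (mul_mem (hUB (Up_le_pos D hD i hv')) (hHB hh')) hb₂)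
    have e1 : N1 = y * (N1⁻¹ * v * N1⁻¹⁻¹ * (N1⁻¹ * h * N1) * b₂)⁻¹ := by
      rw [e, eb, ht, xU_zero]; group
    have hNB := aut_NUB D hD N1 y _ hnpN hy hc e1
    have hcon := conj_ne_aux (F := F) D hD hnx hcert htri i hi
    rw [hN1] at hcon
    exact hcon (mul_mem (mul_mem hNB (hUB (xU_mem_pos D hD _ hpos 1))) hNB)
  · refine ⟨t⁻¹, ?_⟩
    have hHt : hU D hD (D.simple i) (-t) ∈ D.diagonalSubgroup F :=
      hU_mem_diag D hD _ hpos.1 _ (neg_ne_zero.mpr ht)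
    have k1 : xU D hD (D.simple i) t * hU D hD (D.simple i) (-t) * N1 =
        xU D hD (D.neg (D.simple i)) t⁻¹ * xU D hD (D.simple i) (-t) := by
      have k2 : hU D hD (D.simple i) (-t) * N1 = nU D hD (D.simple i) (-t) := by
        rw [← hN1]; exact (hR.n_eq (-t)).symm
      have e5 : -(-t)⁻¹ = t⁻¹ := by rw [inv_neg, neg_neg]
      have k3 : nU D hD (D.simple i) (-t) = xU D hD (D.simple i) (-t) *
          xU D hD (D.neg (D.simple i)) t⁻¹ * xU D hD (D.simple i) (-t) := by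
        rw [hR.ndef (-t), e5]
      rw [mul_assoc, k2, k3, ← mul_assoc, ← mul_assoc, xU_add D hD _ hpos.1, add_neg_cancel,
        xU_zero, one_mul]
    generalize hHtdef : hU D hD (D.simple i) (-t) = Ht at *
    generalize hYt : xU D hD (D.neg (D.simple i)) t⁻¹ = Yt at *
    have hYtV : Yt ∈ D.negUnipotent F := by
      rw [← hYt]; exact xU_mem_neg D hD _ hnegr _
    have hYtX : Yt ∈ D.rootSubgroup F (D.simple i) ⊔ D.rootSubgroup F (D.neg (D.simple i)) := by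
      rw [← hYt]; exact Subgroup.mem_sup_right (xU_mem_rootSubgroup D hD _ _)
    have hh2 : N1⁻¹ * (Ht⁻¹ * h) * N1 ∈ D.diagonalSubgroup F :=
      mono_conj_diag D hD hnx hcert N1 _ hnpN (mul_mem (inv_mem hHt) hh)
    have hv' : Yt⁻¹ * v * Yt⁻¹⁻¹ ∈ Subgroup.closure (UpSet F D i) :=
      (Subgroup.mem_normalizer_iff.mp (hnorm (inv_mem hYtX)) v).mp hv
    have hz : Yt⁻¹ * y = Yt⁻¹ * v * Yt⁻¹⁻¹ * xU D hD (D.simple i) (-t) *
        (N1⁻¹ * (Ht⁻¹ * h) * N1) * b₂ := by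
      have e2 : y = v * (xU D hD (D.simple i) t * Ht * N1) * (N1⁻¹ * (Ht⁻¹ * h) * N1) * b₂ := by
        rw [e, eb]; group
      rw [e2, k1]; group
    have hzB : Yt⁻¹ * y ∈ D.borelSubgroup F := by
      rw [hz]
      exact mul_mem (mul_mem (mul_mem (hUB (Up_le_pos D hD i hv'))
        (hUB (xU_mem_pos D hD _ hpos _))) (hHB hh2)) hb₂
    have hzV : Yt⁻¹ * y ∈ D.negUnipotent F := mul_mem (inv_mem hYtV) hy
    have hz1 : Yt⁻¹ * y ∈ D.borelSubgroup F ⊓ D.negUnipotent F := ⟨hzB, hzV⟩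
    rw [borel_inf_neg D hD hnx hcert htri, Subgroup.mem_bot] at hz1
    calc y = Yt * (Yt⁻¹ * y) := by group
      _ = Yt := by rw [hz1, mul_one]

theorem aut_xneg_eq (D : ChevalleyDatum)
    (hD : D ∈ [chevG2, chevB2, chevD4, chevF4, chevE6, chevE7, chevE8])
    (i : ℕ) (hi : i < D.rank) (t : F) :
    xU D hD (D.neg (D.simple i)) t =
      nU D hD (D.simple i) 1 * xU D hD (D.simple i) (-t) * (nU D hD (D.simple i) 1)⁻¹ := by
  have hR := rk1_simple (F := F) D hD i hi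
  have := hR.nconj (-t)
  rw [neg_neg] at this
  exact this.symm

/-- the minimal parabolic subgroup of node `i` -/
def autPar (D : ChevalleyDatum)
    (hD : D ∈ [chevG2, chevB2, chevD4, chevF4, chevE6, chevE7, chevE8])
    (P : Cfsg.BNPair ↥(D.group F)) (i : ℕ) : Subgroup ↥(D.group F) :=
  P.B ⊔ Subgroup.closure {sG D hD i}

theorem aut_par_neg (D : ChevalleyDatum)
    (hD : D ∈ [chevG2, chevB2, chevD4, chevF4, chevE6, chevE7, chevE8])
    (P : Cfsg.BNPair ↥(D.group F)) (hP : IsStdBN D P) (i : ℕ) (hi : i < D.rank)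
    (y : ↥(D.group F)) (hy : (y : GL D.Idx F) ∈ D.negUnipotent F)
    (hyP : y ∈ autPar D hD P i) : ∃ t : F, y = xG D hD (D.neg (D.simple i)) t := by
  obtain ⟨hnx, hcert, htri, hup, hcm'⟩ := certs_of_mem F D hD
  have hsS : sG (F := F) D hD i ∈ P.S := sG_mem_S hD hP i hi
  have hJ : ({sG D hD i} : Set ↥(D.group F)) ⊆ P.S := by
    intro x hx
    rw [Set.mem_singleton_iff] at hx
    rw [hx]
    exact hsS
  obtain ⟨l, hl, -, hC⟩ := BN.exists_word_of_mem_parabolic P hJ hyP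
  let sS : P.S := ⟨sG D hD i, hsS⟩
  have hl' : ∀ x ∈ l, x = sS := fun x hx => Subtype.ext (hl x hx)
  rcases BN.wp_const P l hl' with h1 | h1
  · rw [h1, BN.mem_C_one, hP.memB] at hC
    have hz1 : (y : GL D.Idx F) ∈ D.borelSubgroup F ⊓ D.negUnipotent F := ⟨hC, hy⟩
    rw [borel_inf_neg D hD hnx hcert htri, Subgroup.mem_bot] at hz1
    refine ⟨0, Subtype.ext ?_⟩
    rw [hz1]
    exact (xU_zero D hD _).symm
  · rw [h1] at hC
    have hC2 : y ∈ BN.C P (BN.π P ⟨(sS : ↥(D.group F)), P.subset sS.2⟩) := hC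
    rw [BN.mem_C_π] at hC2
    obtain ⟨b₁, hb₁, b₂, hb₂, e⟩ := hC2
    obtain ⟨t, ht⟩ := aut_cell_neg D hD i hi (y : GL D.Idx F) b₁ b₂ hy
      ((hP.memB _).mp hb₁) ((hP.memB _).mp hb₂) (congrArg Subtype.val e)
    exact ⟨t, Subtype.ext ht⟩

theorem aut_over (D : ChevalleyDatum)
    (hD : D ∈ [chevG2, chevB2, chevD4, chevF4, chevE6, chevE7, chevE8])
    (P : Cfsg.BNPair ↥(D.group F)) (hP : IsStdBN D P) (M : Subgroup ↥(D.group F))
    (hM : P.B ≤ M) (x : ↥(D.group F)) (hx : x ∈ M) (hxB : x ∉ P.B) :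
    ∃ j < D.rank, sG D hD j ∈ M := by
  have h1 := BN.eq_parabolic P M hM
  by_contra hcon
  push_neg at hcon
  have h2 : P.S ∩ (M : Set ↥(D.group F)) = ∅ := by
    ext s
    simp only [Set.mem_inter_iff, Set.mem_empty_iff_false, iff_false, not_and]
    intro hs hsM
    obtain ⟨j, hj, rfl⟩ := exists_of_mem_S hD hP s hs
    exact hcon j hj hsM
  rw [h2, Subgroup.closure_empty, sup_bot_eq] at h1
  rw [h1] at hx
  exact hxB hx

theorem aut_par_step (D : ChevalleyDatum)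
    (hD : D ∈ [chevG2, chevB2, chevD4, chevF4, chevE6, chevE7, chevE8])
    (P : Cfsg.BNPair ↥(D.group F)) (hP : IsStdBN D P) (φ : MulAut ↥(D.group F))
    (hφ : ∀ x, x ∈ P.B ↔ φ x ∈ P.B) (i : ℕ) (hi : i < D.rank) :
    ∃ j < D.rank, ∀ z ∈ autPar D hD P j, φ⁻¹ z ∈ autPar D hD P i := by
  have hsS : sG (F := F) D hD i ∈ P.S := sG_mem_S hD hP i hi
  let M : Subgroup ↥(D.group F) := (autPar D hD P i).map φ.toMonoidHom
  have hM : P.B ≤ M := by
    intro b hb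
    refine ⟨φ⁻¹ b, ?_, MulAut.apply_inv_self _ φ b⟩
    apply (le_sup_left : P.B ≤ autPar D hD P i)
    rw [hφ, MulAut.apply_inv_self]
    exact hb
  have hx : φ (sG D hD i) ∈ M :=
    ⟨sG D hD i, Subgroup.mem_sup_right (Subgroup.subset_closure rfl), rfl⟩
  have hxB : φ (sG D hD i) ∉ P.B := fun h => BN.not_mem_B P hsS ((hφ _).mpr h)
  obtain ⟨j, hj, hjM⟩ := aut_over D hD P hP M hM _ hx hxB
  refine ⟨j, hj, ?_⟩
  obtain ⟨x, hxi, hxj⟩ := hjM
  have hxj' : φ x = sG D hD j := hxj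
  have hle : autPar D hD P j ≤ (autPar D hD P i).comap (φ⁻¹ : MulAut ↥(D.group F)).toMonoidHom := by
    apply sup_le
    · intro b hb
      rw [Subgroup.mem_comap]
      apply (le_sup_left : P.B ≤ autPar D hD P i)
      show φ⁻¹ b ∈ P.B
      rw [hφ, MulAut.apply_inv_self]
      exact hb
    · rw [Subgroup.closure_le]
      intro z hz
      rw [Set.mem_singleton_iff] at hz
      rw [hz]
      show φ⁻¹ (sG D hD j) ∈ autPar D hD P i
      have : φ⁻¹ (sG D hD j) = x := by rw [← hxj', MulAut.inv_apply_self]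
      rw [this]
      exact hxi
  exact fun z hz => hle hz

theorem aut_par_perm (D : ChevalleyDatum)
    (hD : D ∈ [chevG2, chevB2, chevD4, chevF4, chevE6, chevE7, chevE8])
    (P : Cfsg.BNPair ↥(D.group F)) (hP : IsStdBN D P) (θ : MulAut ↥(D.group F))
    (hθ : ∀ x, x ∈ P.B ↔ θ x ∈ P.B) :
    ∃ ρ : Fin D.rank → Fin D.rank, Function.Injective ρ ∧
      ∀ (i : Fin D.rank) (z : ↥(D.group F)), z ∈ autPar D hD P i → θ z ∈ autPar D hD P (ρ i) := by
  obtain ⟨hnx, hcert, htri, hup, hcm'⟩ := certs_of_mem F D hD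
  have sG_inj : ∀ k < D.rank, ∀ i < D.rank, sG D hD k ∈ autPar D hD P i → k = i := by
    intro k hk i hi h
    have hJ : ({sG D hD i} : Set ↥(D.group F)) ⊆ P.S := by
      intro x hx
      rw [Set.mem_singleton_iff] at hx
      rw [hx]
      exact sG_mem_S hD hP i hi
    have h0 := BN.mem_of_mem_parabolic P hJ (sG_mem_S hD hP k hk) h
    rw [Set.mem_singleton_iff] at h0
    have h1 : (nU D hD (D.simple k) (1 : F))⁻¹ * nU D hD (D.simple i) 1 ∈ D.borelSubgroup F := by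
      have h2 : nU D hD (D.simple k) (1 : F) = nU D hD (D.simple i) 1 := congrArg Subtype.val h0
      rw [h2, inv_mul_cancel]
      exact one_mem _
    exact inj_aux D hD hnx hcert htri hup k i hk hi h1
  have hθ' : ∀ x, x ∈ P.B ↔ θ⁻¹ x ∈ P.B := fun x => by
    rw [hθ (θ⁻¹ x), MulAut.apply_inv_self]
  have key : ∀ i : Fin D.rank, ∃ j : Fin D.rank,
      (∀ z ∈ autPar D hD P i, θ z ∈ autPar D hD P j) ∧
      (∀ z ∈ autPar D hD P j, θ⁻¹ z ∈ autPar D hD P i) := by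
    intro i
    obtain ⟨j, hj, h1⟩ := aut_par_step D hD P hP θ hθ i i.2
    obtain ⟨k, hk, h2⟩ := aut_par_step D hD P hP θ⁻¹ hθ' j hj
    have h3 : sG D hD k ∈ autPar D hD P i := by
      have h4 := h1 _ (h2 _ (Subgroup.mem_sup_right (Subgroup.subset_closure rfl)))
      rw [inv_inv, MulAut.inv_apply_self] at h4
      exact h4
    have hki := sG_inj k hk i i.2 h3
    subst hki
    refine ⟨⟨j, hj⟩, fun z hz => ?_, h1⟩
    have := h2 z hz
    rwa [inv_inv] at this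
  choose ρ hρ using key
  refine ⟨ρ, ?_, fun i z hz => (hρ i).1 z hz⟩
  intro i i' hii
  have h5 : sG D hD i ∈ autPar D hD P i' := by
    have h6 := (hρ i).1 _
      (Subgroup.mem_sup_right (Subgroup.subset_closure rfl) : sG D hD i ∈ autPar D hD P i)
    rw [hii] at h6
    have h7 := (hρ i').2 _ h6
    rwa [MulAut.inv_apply_self] at h7
  exact Fin.ext (sG_inj i i.2 i' i'.2 h5)

/-- a normalized automorphism permutes the negative fundamental root subgroups -/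
theorem aut_neg_perm [Finite F] (D : ChevalleyDatum)
    (hD : D ∈ [chevG2, chevB2, chevD4, chevF4, chevE6, chevE7, chevE8])
    (θ : MulAut ↥(D.group F)) (hθ : AutNorm D θ) :
    ∃ ρ : Fin D.rank → Fin D.rank, Function.Injective ρ ∧
      ∀ (i : Fin D.rank) (t : F), ∃ t' : F,
        θ (xG D hD (D.neg (D.simple i)) t) = xG D hD (D.neg (D.simple (ρ i))) t' := by
  obtain ⟨hnx, hcert, htri, hup, hcm'⟩ := certs_of_mem F D hD
  obtain ⟨P, hP⟩ := exists_stdBN D hD (certs_of_mem F D hD)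
  have hB : ∀ x, x ∈ P.B ↔ θ x ∈ P.B := by
    intro x
    rw [hP.memB, hP.memB]
    constructor
    · exact hθ.borel hD x
    · intro h
      have := hθ.inv.borel hD _ h
      rwa [MulAut.inv_apply_self] at this
  obtain ⟨ρ, hinj, hρ⟩ := aut_par_perm D hD P hP θ hB
  refine ⟨ρ, hinj, fun i t => ?_⟩
  have hpos : D.IsPosRoot (D.simple i) := (hcert.2 i i.2).2
  have hnegr : D.IsNegRoot (D.neg (D.simple i)) := neg_of_pos D hD hnx htri _ hpos
  have h1 : xG D hD (D.neg (D.simple i)) t ∈ autPar D hD P i := by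
    have e : xG D hD (D.neg (D.simple i)) t =
        sG D hD i * xG D hD (D.simple i) (-t) * (sG D hD i)⁻¹ :=
      Subtype.ext (aut_xneg_eq D hD i i.2 t)
    rw [e]
    have hs : sG D hD i ∈ autPar D hD P i :=
      Subgroup.mem_sup_right (Subgroup.subset_closure rfl)
    have hx : xG D hD (D.simple i) (-t) ∈ autPar D hD P i :=
      Subgroup.mem_sup_left ((hP.memB _).mpr
        (le_sup_left (α := Subgroup (GL D.Idx F)) (xU_mem_pos D hD _ hpos _)))
    exact mul_mem (mul_mem hs hx) (inv_mem hs)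
  have h2 := hρ i _ h1
  have h3 := hθ.2 (xG D hD (D.neg (D.simple i)) t) (xU_mem_neg D hD _ hnegr t)
  exact aut_par_neg D hD P hP (ρ i) (ρ i).2 _ h3 h2

end Cfsg.Agent.Lib.helper11
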