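import Cfsg.Agent.Lib.helper11d.AutOK

/-! Automorphisms of a finite Chevalley group stabilizing `U` and `U⁻`: they permute the
fundamental root subgroups. -/

set_option autoImplicit false

namespace Cfsg.Agent.Lib.helper11

open Cfsg Cfsg.Lie Cfsg.Agent.Lib.helper2
open scoped Pointwise

variable {F : Type*} [Field F]

theorem sl2_diag (c : F) (hc : c ≠ 0) :
    (!![1, c; 0, 1] : Matrix (Fin 2) (Fin 2) F) * !![1, 0; -c⁻¹, 1] *
      !![1, c; 0, 1] * (!![1, -1; 0, 1] * !![1, 0; -(-1 : F)⁻¹, 1] * !![1, -1; 0, 1]) =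
      !![c, 0; 0, c⁻¹] := by
  have h1 : c * c⁻¹ = 1 := mul_inv_cancel₀ hc
  have h2 : c⁻¹ * c = 1 := inv_mul_cancel₀ hc
  ext i j
  fin_cases i <;> fin_cases j <;>
    simp [Matrix.mul_apply, Fin.sum_univ_two, h1, h2, inv_neg]

theorem sl2_bigcell (a b : F) (hc : 1 + a * b ≠ 0) :
    sl2x a * sl2y b = sl2y (b / (1 + a * b)) *
      (sl2x (1 + a * b) * sl2y (-(1 + a * b)⁻¹) * sl2x (1 + a * b) *
        (sl2x (-1) * sl2y (-(-1 : F)⁻¹) * sl2x (-1))) * sl2x (a / (1 + a * b)) := by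
  apply Subtype.ext
  show (!![1, a; 0, 1] : Matrix (Fin 2) (Fin 2) F) * !![1, 0; b, 1] =
    !![1, 0; b / (1 + a * b), 1] * (!![1, 1 + a * b; 0, 1] * !![1, 0; -(1 + a * b)⁻¹, 1] *
      !![1, 1 + a * b; 0, 1] * (!![1, -1; 0, 1] * !![1, 0; -(-1 : F)⁻¹, 1] * !![1, -1; 0, 1])) *
      !![1, a / (1 + a * b); 0, 1]
  rw [sl2_diag _ hc]
  have hc' : 1 + b * a ≠ 0 := by rwa [mul_comm] at hc
  ext i j
  fin_cases i <;> fin_cases j
  · simp [Matrix.mul_apply, Fin.sum_univ_two]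
  · simp [Matrix.mul_apply, Fin.sum_univ_two]
    field_simp
  · simp [Matrix.mul_apply, Fin.sum_univ_two]
    field_simp
  · simp [Matrix.mul_apply, Fin.sum_univ_two]
    field_simp
    ring

/-- root elements of distinct roots are distinct -/
theorem aut_xU_root_inj (D : ChevalleyDatum)
    (hD : D ∈ [chevG2, chevB2, chevD4, chevF4, chevE6, chevE7, chevE8]) (r r' : ℕ)
    (hr : r < D.nroots) (hr' : r' < D.nroots) (hne : r ≠ r') (a b : F)
    (h : xU D hD r a = xU D hD r' b) : a = 0 := by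
  obtain ⟨i, hi, hne0⟩ := exists_cor_ne_zero F D (gcd_of_mem D hD) r hr
  have hnr := negRev_spec D (negRev_of_mem D hD) r hr
  have hnr' := negRev_spec D (negRev_of_mem D hD) r' hr'
  have hev := triOK_even D (tri_of_mem D hD)
  have hnl : D.neg r < D.nroots := by omega
  have h0 := congrArg (fun g : GL D.Idx F => (g : Matrix D.Idx D.Idx F)) h
  simp only [xU_val] at h0
  have hx : ∀ (q : ℕ) (hq : q < D.nroots) (t : F), D.x F q t = D.xMat F ⟨q, hq⟩ t := by
    intro q hq t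
    simp [ChevalleyDatum.x, hq]
  rw [hx r hr, hx r' hr'] at h0
  have h1 := congrFun (congrFun h0 (Sum.inl ⟨i, hi⟩)) (Sum.inr ⟨D.neg r, hnl⟩)
  rw [Cfsg.Agent.S1023.xMat_inl_inr, Cfsg.Agent.S1023.xMat_inl_inr] at h1
  have hne1 : (⟨D.neg r, hnl⟩ : Fin D.nroots) ≠ ⟨r, hr⟩ := by
    intro hcon
    have := congrArg Fin.val hcon
    simp only at this
    omega
  have hc2 : ((⟨D.neg r, hnl⟩ : Fin D.nroots) : ℕ) =
      D.negIdx.getD ((⟨r, hr⟩ : Fin D.nroots) : ℕ) 0 := rfl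
  have hne2 : ((⟨D.neg r, hnl⟩ : Fin D.nroots) : ℕ) ≠
      D.negIdx.getD ((⟨r', hr'⟩ : Fin D.nroots) : ℕ) 0 := by
    show D.neg r ≠ D.neg r'
    omega
  simp only [if_neg hne1, if_pos hc2, if_neg hne2, ite_self] at h1
  rcases mul_eq_zero.mp h1 with h3 | h3
  · exact absurd h3 hne0
  · exact h3

theorem aut_comm_of_terms (D : ChevalleyDatum)
    (hD : D ∈ [chevG2, chevB2, chevD4, chevF4, chevE6, chevE7, chevE8]) (r s : ℕ)
    (hr : r < D.nroots) (hs : s < D.nroots) (hrs : s ≠ r) (hneg : s ≠ D.neg r)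
    (hterms : D.commTerms r s = []) (t u : F) :
    xU D hD s u * xU D hD r t = xU D hD r t * xU D hD s u := by
  have h1 := commRel_of_mem F D hD r s hr hs hrs hneg t u
  have h2 : D.commWord F r s t u = [] := by
    unfold ChevalleyDatum.commWord
    rw [hterms]
    rfl
  rw [h2] at h1
  have h3 : D.wordMat F ([] : List (ℕ × F)) = 1 := by
    unfold ChevalleyDatum.wordMat
    simp
  rw [h3, mul_one] at h1
  apply Units.ext
  rw [Units.val_mul, Units.val_mul, xU_val, xU_val]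
  exact h1

theorem aut_comm_pos_neg (D : ChevalleyDatum)
    (hD : D ∈ [chevG2, chevB2, chevD4, chevF4, chevE6, chevE7, chevE8]) (i j : ℕ)
    (hi : i < D.rank) (hj : j < D.rank) (hij : i ≠ j) (t u : F) :
    xU D hD (D.neg (D.simple j)) u * xU D hD (D.simple i) t =
      xU D hD (D.simple i) t * xU D hD (D.neg (D.simple j)) u := by
  obtain ⟨hnx, hcert, htri, hup, hcm'⟩ := certs_of_mem F D hD
  have hpi : D.IsPosRoot (D.simple i) := (hcert.2 i hi).2
  have hpj : D.IsPosRoot (D.simple j) := (hcert.2 j hj).2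
  have hnj : D.IsNegRoot (D.neg (D.simple j)) := neg_of_pos D hD hnx htri _ hpj
  have e1 := negRev_spec D (negRev_of_mem D hD) _ hpi.1
  have e2 := negRev_spec D (negRev_of_mem D hD) _ hpj.1
  apply aut_comm_of_terms D hD _ _ hpi.1 hnj.1
  · intro h
    rw [h] at hnj
    exact not_pos_neg D htri _ hpi hnj
  · intro h
    have h3 : D.simple j = D.simple i := by
      have := hpi.1
      have := hpj.1
      omega
    exact hij (simple_inj D hD j hj i hi h3).symm
  · exact (commOKs_spec D (commOKs_of_mem D hD) i j hi hj hij).1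

theorem aut_comm_pos_pos (D : ChevalleyDatum)
    (hD : D ∈ [chevG2, chevB2, chevD4, chevF4, chevE6, chevE7, chevE8]) (i j : ℕ)
    (hi : i < D.rank) (hj : j < D.rank) (hij : i ≠ j) (h0 : D.cartan i (D.simple j) = 0)
    (t u : F) :
    xU D hD (D.simple j) u * xU D hD (D.simple i) t =
      xU D hD (D.simple i) t * xU D hD (D.simple j) u := by
  obtain ⟨hnx, hcert, htri, hup, hcm'⟩ := certs_of_mem F D hD
  have hpi : D.IsPosRoot (D.simple i) := (hcert.2 i hi).2
  have hpj : D.IsPosRoot (D.simple j) := (hcert.2 j hj).2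
  have hni : D.IsNegRoot (D.neg (D.simple i)) := neg_of_pos D hD hnx htri _ hpi
  apply aut_comm_of_terms D hD _ _ hpi.1 hpj.1
  · intro h
    exact hij (simple_inj D hD j hj i hi h).symm
  · intro h
    rw [← h] at hni
    exact not_pos_neg D htri _ hpj hni
  · exact (commOKs_spec D (commOKs_of_mem D hD) i j hi hj hij).2 h0

/-- adjacent fundamental root subgroups do not commute -/
theorem aut_noncomm (D : ChevalleyDatum)
    (hD : D ∈ [chevG2, chevB2, chevD4, chevF4, chevE6, chevE7, chevE8]) (a b : ℕ)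
    (ha : a < D.rank) (hb : b < D.rank) (hab : a ≠ b) (hA : D.cartan b (D.simple a) ≠ 0)
    (hcomm : ∀ t u : F, xU D hD (D.simple b) u * xU D hD (D.simple a) t =
      xU D hD (D.simple a) t * xU D hD (D.simple b) u) : False := by
  obtain ⟨hnx, hcert, htri, hup, hcm'⟩ := certs_of_mem F D hD
  have hpa : D.IsPosRoot (D.simple a) := (hcert.2 a ha).2
  have hR := rk1_simple (F := F) D hD b hb
  have c1 : Commute (xU D hD (D.simple b) (1 : F)) (xU D hD (D.simple a) 1) := hcomm 1 1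
  have c2 : Commute (xU D hD (D.neg (D.simple b)) (-(1 : F)⁻¹)) (xU D hD (D.simple a) 1) :=
    aut_comm_pos_neg D hD a b ha hb hab 1 _
  have c3 : Commute (nU D hD (D.simple b) (1 : F)) (xU D hD (D.simple a) 1) := by
    rw [hR.ndef 1]
    exact (c1.mul_left c2).mul_left c1
  have h1 := nU_inv_conj_x (F := F) D hD hnx b (D.simple a) hb hpa.1 1
  have h2 : (nU D hD (D.simple b) (1 : F))⁻¹ * xU D hD (D.simple a) 1 *
      nU D hD (D.simple b) 1 = xU D hD (D.simple a) 1 := by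
    rw [mul_assoc, ← c3.eq, ← mul_assoc, inv_mul_cancel, one_mul]
  rw [h2] at h1
  have hne := (reflOKs_spec D (reflOKs_of_mem D hD) a b ha hb hab).2 hA
  have hlt : D.reflectRoot b (D.simple a) < D.nroots := refl_lt D b _ (hnx b hb).1 hpa.1
  exact one_ne_zero (α := F)
    (aut_xU_root_inj D hD _ _ hpa.1 hlt (Ne.symm hne) 1 _ h1)

/-- big cell: `x_p(a) x_{-p}(b) ∈ U⁻ B` when `1 + a b ≠ 0` -/
theorem aut_rk1_mem (D : ChevalleyDatum)
    (hD : D ∈ [chevG2, chevB2, chevD4, chevF4, chevE6, chevE7, chevE8]) (i : ℕ)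
    (hi : i < D.rank) (a b : F) (hc : 1 + a * b ≠ 0) :
    ∃ y ∈ D.negUnipotent F, ∃ c ∈ D.borelSubgroup F,
      xU D hD (D.simple i) a * xU D hD (D.neg (D.simple i)) b = y * c := by
  obtain ⟨hnx, hcert, htri, hup, hcm'⟩ := certs_of_mem F D hD
  have hpos : D.IsPosRoot (D.simple i) := (hcert.2 i hi).2
  have hnegr : D.IsNegRoot (D.neg (D.simple i)) := neg_of_pos D hD hnx htri _ hpos
  have hUB : D.posUnipotent F ≤ D.borelSubgroup F := le_sup_left
  have hHB : D.diagonalSubgroup F ≤ D.borelSubgroup F := le_sup_right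
  obtain ⟨φ, -, hx, hy⟩ := sl2P_simple F D hD i hi
  have h1 := congrArg φ (sl2_bigcell a b hc)
  simp only [map_mul, hx, hy] at h1
  have h2 : xU D hD (D.simple i) (1 + a * b) * xU D hD (D.neg (D.simple i)) (-(1 + a * b)⁻¹) *
      xU D hD (D.simple i) (1 + a * b) * (xU D hD (D.simple i) (-1) *
      xU D hD (D.neg (D.simple i)) (-(-1 : F)⁻¹) * xU D hD (D.simple i) (-1)) =
      hU D hD (D.simple i) (1 + a * b) := rfl
  rw [h2] at h1
  refine ⟨_, xU_mem_neg D hD _ hnegr (b / (1 + a * b)),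
    hU D hD (D.simple i) (1 + a * b) * xU D hD (D.simple i) (a / (1 + a * b)),
    mul_mem (hHB (hU_mem_diag D hD _ hpos.1 _ hc)) (hUB (xU_mem_pos D hD _ hpos _)), ?_⟩
  rw [h1, mul_assoc]

/-- `x_p(a) x_{-p}(b) ∉ U⁻ B` when `1 + a b = 0` -/
theorem aut_rk1_not_mem (D : ChevalleyDatum)
    (hD : D ∈ [chevG2, chevB2, chevD4, chevF4, chevE6, chevE7, chevE8]) (i : ℕ)
    (hi : i < D.rank) (a b : F) (hab : 1 + a * b = 0) (y c : GL D.Idx F)
    (hy : y ∈ D.negUnipotent F) (hc : c ∈ D.borelSubgroup F)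
    (e : xU D hD (D.simple i) a * xU D hD (D.neg (D.simple i)) b = y * c) : False := by
  obtain ⟨hnx, hcert, htri, hup, hcm'⟩ := certs_of_mem F D hD
  have hR := rk1_simple (F := F) D hD i hi
  have hpos : D.IsPosRoot (D.simple i) := (hcert.2 i hi).2
  have hUB : D.posUnipotent F ≤ D.borelSubgroup F := le_sup_left
  have hHB : D.diagonalSubgroup F ≤ D.borelSubgroup F := le_sup_right
  have ha : a ≠ 0 := by
    rintro rfl
    simp at hab
  have hb : b = -a⁻¹ := by
    field_simp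
    linear_combination hab
  rw [hb] at e
  have h1 : nU D hD (D.simple i) a = y * (c * xU D hD (D.simple i) a) := by
    rw [hR.ndef a, e, mul_assoc]
  have hN : nU D hD (D.simple i) a ∈ D.monomialSubgroup F := by
    rw [hR.n_eq a]
    exact mul_mem (Subgroup.mem_sup_left (hU_mem_diag D hD _ hpos.1 _ ha))
      (nU_mem_mono D hD _ hpos.1)
  have hB := aut_NUB D hD _ y _ hN hy (mul_mem hc (hUB (xU_mem_pos D hD _ hpos a))) h1
  have hB1 : nU D hD (D.simple i) (1 : F) ∈ D.borelSubgroup F := by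
    have e2 : nU D hD (D.simple i) (1 : F) =
        (hU D hD (D.simple i) a)⁻¹ * nU D hD (D.simple i) a := by
      rw [hR.n_eq a]; group
    rw [e2]
    exact mul_mem (inv_mem (hHB (hU_mem_diag D hD _ hpos.1 _ ha))) hB
  exact conj_ne_aux D hD hnx hcert htri i hi
    (mul_mem (mul_mem hB1 (hUB (xU_mem_pos D hD _ hpos 1))) hB1)

/-- a representative of the longest element adapted to the fundamental roots -/
theorem aut_w0s (D : ChevalleyDatum)
    (hD : D ∈ [chevG2, chevB2, chevD4, chevF4, chevE6, chevE7, chevE8]) :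
    ∃ l : List ℕ, (∀ i ∈ l, i < D.rank) ∧
      (D.posUnipotent F).map (MulAut.conj (nWordU D hD l)).toMonoidHom = D.negUnipotent F ∧
      (∀ j < D.rank, ∃ i < D.rank, wAct D l (D.neg (D.simple j)) = D.simple i) ∧
      (∀ i < D.rank, ∃ j < D.rank, wAct D l (D.neg (D.simple j)) = D.simple i) := by
  obtain ⟨hnx, hcert, htri, hup, hcm'⟩ := certs_of_mem F D hD
  obtain ⟨l, hl, hrow, hs⟩ := aut_w0s_of_mem D hD
  have hl' : ∀ i ∈ l, i < D.rank := by
    intro i hi
    rw [List.all_eq_true] at hl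
    simpa using hl i hi
  obtain ⟨hW2, hW1⟩ := w0sOK_spec D l hs
  refine ⟨l, hl', w0_conj D hD hnx l hl' ?_ ?_, hW2, hW1⟩
  · intro r hr
    have := hrow r hr.1
    unfold w0Row at this
    simp only [Bool.and_eq_true, Bool.or_eq_true, Bool.not_eq_true', decide_eq_false_iff_not,
      decide_eq_true_eq] at this
    rcases this.1 with h | h
    · exact absurd hr h
    · exact h
  · intro s hs
    have := hrow s hs.1
    unfold w0Row at this
    simp only [Bool.and_eq_true, Bool.or_eq_true, Bool.not_eq_true', decide_eq_false_iff_not,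
      decide_eq_true_eq, nbeq_iff] at this
    rcases this.2 with h | h
    · exact absurd hs h
    · exact ⟨_, h.1, h.2⟩

/-- a normalized automorphism permutes the positive fundamental root subgroups -/
theorem aut_pos_perm [Finite F] (D : ChevalleyDatum)
    (hD : D ∈ [chevG2, chevB2, chevD4, chevF4, chevE6, chevE7, chevE8])
    (θ : MulAut ↥(D.group F)) (hθ : AutNorm D θ) :
    ∀ i < D.rank, ∃ i' < D.rank, ∀ t : F, ∃ t' : F,
      θ (xG D hD (D.simple i) t) = xG D hD (D.simple i') t' := by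
  obtain ⟨hnx, hcert, htri, hup, hcm'⟩ := certs_of_mem F D hD
  obtain ⟨hBG, hNG, -⟩ := Cfsg.Agent.S1043.main0 (F := F) D hD hnx hcert
  obtain ⟨l, hl, hmap, hW2, hW1⟩ := aut_w0s (F := F) D hD
  have hn₀ : nWordU (F := F) D hD l ∈ D.monomialSubgroup F := nWordU_mem D hD hcert l hl
  obtain ⟨p1, p2, p3, p4⟩ := aut_w0_props D hD _ hn₀ hmap
  generalize hn₀def : nWordU (F := F) D hD l = n₀ at *
  let n₀G : ↥(D.group F) := ⟨n₀, hNG hn₀⟩
  let ψ : MulAut ↥(D.group F) := (MulAut.conj n₀G)⁻¹ * θ * MulAut.conj n₀G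
  have hψ : ∀ g, ψ g = n₀G⁻¹ * θ (n₀G * g * n₀G⁻¹) * n₀G := by
    intro g
    show (MulAut.conj n₀G)⁻¹ (θ (MulAut.conj n₀G g)) = _
    rw [MulAut.conj_inv_apply, MulAut.conj_apply]
  have hψN : AutNorm D ψ := by
    constructor
    · intro g hg
      rw [hψ]
      exact p4 _ (hθ.2 (n₀G * g * n₀G⁻¹) (p1 _ hg))
    · intro g hg
      rw [hψ]
      exact p3 _ (hθ.1 (n₀G * g * n₀G⁻¹) (p2 _ hg))
  obtain ⟨ρ', -, hρ'⟩ := aut_neg_perm D hD ψ hψN
  intro i hi
  obtain ⟨j, hj, hji⟩ := hW1 i hi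
  obtain ⟨i', hi', hji'⟩ := hW2 (ρ' ⟨j, hj⟩) (ρ' ⟨j, hj⟩).2
  refine ⟨i', hi', fun t => ?_⟩
  have hpj : D.IsPosRoot (D.simple j) := (hcert.2 j hj).2
  have hpj' : D.IsPosRoot (D.simple (ρ' ⟨j, hj⟩)) := (hcert.2 _ (ρ' ⟨j, hj⟩).2).2
  have hnegj := (neg_of_pos D hD hnx htri _ hpj).1
  have hnegj' := (neg_of_pos D hD hnx htri _ hpj').1
  obtain ⟨ε, hε, hconj⟩ := nWordU_conj_x (F := F) D hD hnx l hl (D.neg (D.simple j)) hnegj
  obtain ⟨ε', hε', hconj'⟩ := nWordU_conj_x (F := F) D hD hnx l hl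
    (D.neg (D.simple (ρ' ⟨j, hj⟩))) hnegj'
  rw [hn₀def] at hconj hconj'
  obtain ⟨t', ht'⟩ := hρ' ⟨j, hj⟩ (ε * t)
  refine ⟨ε' * t', ?_⟩
  have e1 : xG D hD (D.simple i) t = n₀G * xG D hD (D.neg (D.simple j)) (ε * t) * n₀G⁻¹ := by
    apply Subtype.ext
    show xU D hD (D.simple i) t = n₀ * xU D hD (D.neg (D.simple j)) (ε * t) * n₀⁻¹
    rw [hconj, hji, ← mul_assoc, hε, one_mul]
  have e2 : θ (n₀G * xG D hD (D.neg (D.simple j)) (ε * t) * n₀G⁻¹) =
      n₀G * ψ (xG D hD (D.neg (D.simple j)) (ε * t)) * n₀G⁻¹ := by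
    rw [hψ]; group
  rw [e1, e2, ht']
  apply Subtype.ext
  show n₀ * xU D hD (D.neg (D.simple (ρ' ⟨j, hj⟩))) t' * n₀⁻¹ = xU D hD (D.simple i') (ε' * t')
  rw [hconj', hji']

/-- a normalized automorphism permutes the fundamental root subgroups and their opposites,
by the same permutation -/
theorem aut_perm [Finite F] (D : ChevalleyDatum)
    (hD : D ∈ [chevG2, chevB2, chevD4, chevF4, chevE6, chevE7, chevE8])
    (θ : MulAut ↥(D.group F)) (hθ : AutNorm D θ) :
    ∃ ρ : Equiv.Perm (Fin D.rank), ∀ (i : Fin D.rank) (t : F),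
      (∃ t' : F, θ (xG D hD (D.simple i) t) = xG D hD (D.simple (ρ i)) t') ∧
      (∃ t' : F, θ (xG D hD (D.neg (D.simple i)) t) = xG D hD (D.neg (D.simple (ρ i))) t') := by
  obtain ⟨hnx, hcert, htri, hup, hcm'⟩ := certs_of_mem F D hD
  obtain ⟨ρ, hinj, hρ⟩ := aut_neg_perm D hD θ hθ
  have hposp := aut_pos_perm D hD θ hθ
  refine ⟨Equiv.ofBijective ρ (Finite.injective_iff_bijective.mp hinj), fun i t => ⟨?_, hρ i t⟩⟩
  obtain ⟨i', hi', h1⟩ := hposp i i.2
  have hpos : D.IsPosRoot (D.simple i) := (hcert.2 i i.2).2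
  have hnegr : D.IsNegRoot (D.neg (D.simple i)) := neg_of_pos D hD hnx htri _ hpos
  have hii : i' = (ρ i : ℕ) := by
    by_contra hne
    obtain ⟨a, ha⟩ := h1 1
    obtain ⟨b, hb⟩ := hρ i (-1)
    have hc := aut_comm_pos_neg D hD i' (ρ i) hi' (ρ i).2 hne a b
    have hc2 : xG D hD (D.simple i) (1 : F) * xG D hD (D.neg (D.simple i)) (-1) =
        xG D hD (D.neg (D.simple i)) (-1) * xG D hD (D.simple i) 1 := by
      apply MulEquiv.injective θ
      rw [map_mul, map_mul, ha, hb]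
      apply Subtype.ext
      exact hc.symm
    have hc3 : xU D hD (D.simple i) (1 : F) * xU D hD (D.neg (D.simple i)) (-1) =
        xU D hD (D.neg (D.simple i)) (-1) * xU D hD (D.simple i) 1 := congrArg Subtype.val hc2
    exact aut_rk1_not_mem D hD i i.2 1 (-1) (by ring) _ _ (xU_mem_neg D hD _ hnegr (-1))
      ((le_sup_left : D.posUnipotent F ≤ D.borelSubgroup F) (xU_mem_pos D hD _ hpos 1)) hc3
  obtain ⟨t', ht'⟩ := h1 t
  refine ⟨t', ?_⟩
  rw [ht', hii]
  rfl

end Cfsg.Agent.Lib.helper11
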