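import Cfsg.Agent.Lib.helper11d.Aut4

/-! Automorphisms of a finite Chevalley group stabilizing `U` and `U⁻`: the action on the
fundamental root subgroups is semilinear. -/

set_option autoImplicit false

namespace Cfsg.Agent.Lib.helper11

open Cfsg Cfsg.Lie Cfsg.Agent.Lib.helper2
open scoped Pointwise

/-- the field-theoretic core: an additive bijection compatible with multiplication by squares
and with the rank one relation is a scalar multiple of a field automorphism -/
theorem aut_field_core {F : Type*} [Field F] [Finite F] (f g : F → F)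
    (hf_add : ∀ s t, f (s + t) = f s + f t) (hf_inj : Function.Injective f)
    (hsq : ∀ s : F, s ≠ 0 → ∃ k : F, ∀ u, f (s ^ 2 * u) = k * f u)
    (hrel : ∀ a b : F, 1 + a * b = 0 ↔ 1 + f a * g b = 0) (hg0 : g 0 = 0) :
    ∃ (c : Fˣ) (σ : F ≃+* F), (∀ t, f t = c * σ t) ∧ (∀ t, g t = ((c⁻¹ : Fˣ) : F) * σ t) := by
  have hf0 : f 0 = 0 := by
    have := hf_add 0 0
    simpa using this
  have hf1 : f 1 ≠ 0 := fun h => one_ne_zero (hf_inj (h.trans hf0.symm))
  obtain ⟨σ, hσdef⟩ : ∃ σ : F → F, ∀ t, σ t = f t / f 1 := ⟨fun t => f t / f 1, fun t => rfl⟩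
  have hfσ : ∀ t, f t = f 1 * σ t := by
    intro t
    rw [hσdef]
    field_simp
  have hσadd : ∀ s t, σ (s + t) = σ s + σ t := by
    intro s t
    rw [hσdef, hσdef, hσdef, hf_add, add_div]
  have hσ1 : σ 1 = 1 := by rw [hσdef]; exact div_self hf1
  have hσ0 : σ 0 = 0 := by rw [hσdef, hf0, zero_div]
  have hσneg : ∀ t, σ (-t) = - σ t := by
    intro t
    have h1 := hσadd (-t) t
    rw [neg_add_cancel, hσ0] at h1
    exact eq_neg_of_add_eq_zero_left h1.symm
  have hσsub : ∀ x y, σ (x - y) = σ x - σ y := by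
    intro x y
    rw [sub_eq_add_neg, hσadd, hσneg, ← sub_eq_add_neg]
  have hσsq : ∀ s u, σ (s ^ 2 * u) = σ (s ^ 2) * σ u := by
    intro s u
    by_cases hs : s = 0
    · subst hs
      simp [hσ0]
    · obtain ⟨k, hk⟩ := hsq s hs
      have h1 := hk 1
      rw [mul_one] at h1
      rw [hσdef, hσdef, hσdef, hk u, h1]
      field_simp
  have hS : ∀ c u, σ (c * u) = σ c * σ u := by
    intro c u
    by_cases h2 : ringChar F = 2
    · obtain ⟨d, hd⟩ := FiniteField.isSquare_of_char_two h2 c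
      rw [hd, ← pow_two]
      exact hσsq d u
    · have h2' : (2 : F) ≠ 0 := Ring.two_ne_zero h2
      have hc : c = ((c + 1) / 2) ^ 2 - ((c - 1) / 2) ^ 2 := by
        field_simp
        ring
      rw [hc, sub_mul, hσsub, hσsub, hσsq, hσsq, sub_mul]
  have hσinj : Function.Injective σ := by
    intro s t h
    apply hf_inj
    rw [hfσ s, hfσ t, h]
  let σh : F →+* F :=
    { toFun := σ, map_one' := hσ1, map_mul' := hS, map_zero' := hσ0, map_add' := hσadd }
  let σe : F ≃+* F :=
    RingEquiv.ofBijective σh ⟨hσinj, Finite.surjective_of_injective hσinj⟩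
  have hσe : ∀ t, σe t = σ t := fun t => rfl
  refine ⟨Units.mk0 (f 1) hf1, σe, fun t => ?_, fun t => ?_⟩
  · rw [hσe, Units.val_mk0]
    exact hfσ t
  · rw [hσe, Units.val_inv_eq_inv_val, Units.val_mk0]
    by_cases ht : t = 0
    · subst ht
      rw [hg0, hσ0, mul_zero]
    · have h1 : 1 + (-t⁻¹) * t = 0 := by
        field_simp
        ring
      have h2 := (hrel (-t⁻¹) t).mp h1
      have h3 : σ (-t⁻¹) = -(σ t)⁻¹ := by
        have h4 := map_neg σe t⁻¹
        rw [map_inv₀] at h4
        exact h4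
      rw [hfσ (-t⁻¹), h3] at h2
      have hσt : σ t ≠ 0 := fun h => ht (hσinj (h.trans hσ0.symm))
      have h6 : f 1 * -(σ t)⁻¹ * g t = -1 := by linear_combination h2
      have h5 : f 1 * g t = σ t := by
        have h7 : f 1 * g t = (f 1 * -(σ t)⁻¹ * g t) * (-(σ t)) := by
          field_simp
        rw [h7, h6]
        ring
      rw [← h5]
      field_simp

variable {F : Type*} [Field F]

theorem xG_add (D : ChevalleyDatum)
    (hD : D ∈ [chevG2, chevB2, chevD4, chevF4, chevE6, chevE7, chevE8]) (r : ℕ)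
    (hr : r < D.nroots) (s t : F) : xG D hD r s * xG D hD r t = xG D hD r (s + t) :=
  Subtype.ext (xU_add D hD r hr s t)

theorem xG_inj (D : ChevalleyDatum)
    (hD : D ∈ [chevG2, chevB2, chevD4, chevF4, chevE6, chevE7, chevE8]) (r : ℕ)
    (hr : r < D.nroots) (s t : F) (h : xG D hD r s = xG D hD r t) : s = t :=
  fld_xU_inj D hD r hr s t (congrArg Subtype.val h)

/-- membership in the big cell `U⁻ B` is preserved by a normalized automorphism -/
theorem aut_cell_pres [Finite F] (D : ChevalleyDatum)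
    (hD : D ∈ [chevG2, chevB2, chevD4, chevF4, chevE6, chevE7, chevE8])
    (φ : MulAut ↥(D.group F)) (hφ : AutNorm D φ) (z : ↥(D.group F))
    (h : ∃ y ∈ D.negUnipotent F, ∃ c ∈ D.borelSubgroup F, (z : GL D.Idx F) = y * c) :
    ∃ y ∈ D.negUnipotent F, ∃ c ∈ D.borelSubgroup F, ((φ z : ↥(D.group F)) : GL D.Idx F) = y * c := by
  obtain ⟨hnx, hcert, htri, hup, hcm'⟩ := certs_of_mem F D hD
  obtain ⟨hBG, hNG, -⟩ := Cfsg.Agent.S1043.main0 (F := F) D hD hnx hcert
  obtain ⟨y, hy, c, hc, e⟩ := h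
  let yG : ↥(D.group F) := ⟨y, aut_neg_le_group D hD hy⟩
  let cG : ↥(D.group F) := ⟨c, hBG hc⟩
  have hz : z = yG * cG := Subtype.ext e
  refine ⟨_, hφ.2 yG hy, _, hφ.borel hD cG hc, ?_⟩
  rw [hz, map_mul]
  rfl

/-- the action of a normalized automorphism on the fundamental root subgroups -/
theorem aut_field [Finite F] (D : ChevalleyDatum)
    (hD : D ∈ [chevG2, chevB2, chevD4, chevF4, chevE6, chevE7, chevE8])
    (θ : MulAut ↥(D.group F)) (hθ : AutNorm D θ) (ρ : Equiv.Perm (Fin D.rank))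
    (hρ : ∀ (i : Fin D.rank) (t : F),
      (∃ t' : F, θ (xG D hD (D.simple i) t) = xG D hD (D.simple (ρ i)) t') ∧
      (∃ t' : F, θ (xG D hD (D.neg (D.simple i)) t) = xG D hD (D.neg (D.simple (ρ i))) t')) :
    ∃ (c : Fin D.rank → Fˣ) (σ : Fin D.rank → F ≃+* F), ∀ (i : Fin D.rank) (t : F),
      θ (xG D hD (D.simple i) t) = xG D hD (D.simple (ρ i)) (c i * σ i t) ∧
      θ (xG D hD (D.neg (D.simple i)) t) =
        xG D hD (D.neg (D.simple (ρ i))) ((((c i)⁻¹ : Fˣ) : F) * σ i t) := by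
  obtain ⟨hnx, hcert, htri, hup, hcm'⟩ := certs_of_mem F D hD
  have key : ∀ i : Fin D.rank, ∃ (c : Fˣ) (σ : F ≃+* F), ∀ t : F,
      θ (xG D hD (D.simple i) t) = xG D hD (D.simple (ρ i)) (c * σ t) ∧
      θ (xG D hD (D.neg (D.simple i)) t) =
        xG D hD (D.neg (D.simple (ρ i))) (((c⁻¹ : Fˣ) : F) * σ t) := by
    intro i
    choose f hf using fun t => (hρ i t).1
    choose g hg using fun t => (hρ i t).2
    have hpos : D.IsPosRoot (D.simple i) := (hcert.2 i i.2).2
    have hpos' : D.IsPosRoot (D.simple (ρ i)) := (hcert.2 _ (ρ i).2).2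
    have hnegr : D.IsNegRoot (D.neg (D.simple i)) := neg_of_pos D hD hnx htri _ hpos
    have hnegr' : D.IsNegRoot (D.neg (D.simple (ρ i))) := neg_of_pos D hD hnx htri _ hpos'
    have hR := rk1_simple (F := F) D hD i i.2
    have hf_add : ∀ s t, f (s + t) = f s + f t := by
      intro s t
      have h1 := hf (s + t)
      rw [← xG_add D hD _ hpos.1, map_mul, hf s, hf t, xG_add D hD _ hpos'.1] at h1
      exact (xG_inj D hD _ hpos'.1 _ _ h1).symm
    have hf_inj : Function.Injective f := by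
      intro s t h
      have h1 : θ (xG D hD (D.simple i) s) = θ (xG D hD (D.simple i) t) := by
        rw [hf s, hf t, h]
      exact xG_inj D hD _ hpos.1 _ _ (MulEquiv.injective θ h1)
    have hg0 : g 0 = 0 := by
      have h1 := hg 0
      have h2 : xG D hD (D.neg (D.simple i)) (0 : F) = 1 := Subtype.ext (xU_zero D hD _)
      rw [h2, map_one] at h1
      exact xU_eq_one D hD _ hnegr'.1 _ (congrArg Subtype.val h1).symm
    have hrel : ∀ a b : F, 1 + a * b = 0 ↔ 1 + f a * g b = 0 := by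
      intro a b
      have himg : θ (xG D hD (D.simple i) a * xG D hD (D.neg (D.simple i)) b) =
          xG D hD (D.simple (ρ i)) (f a) * xG D hD (D.neg (D.simple (ρ i))) (g b) := by
        rw [map_mul, hf, hg]
      constructor
      · intro h
        by_contra hne
        have h1 := aut_rk1_mem D hD (ρ i) (ρ i).2 (f a) (g b) hne
        have h2 := aut_cell_pres D hD θ⁻¹ hθ.inv
          (xG D hD (D.simple (ρ i)) (f a) * xG D hD (D.neg (D.simple (ρ i))) (g b)) h1
        rw [← himg, MulAut.inv_apply_self] at h2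
        obtain ⟨y, hy, c, hc, e⟩ := h2
        exact aut_rk1_not_mem D hD i i.2 a b h y c hy hc e
      · intro h
        by_contra hne
        have h1 := aut_rk1_mem D hD i i.2 a b hne
        have h2 := aut_cell_pres D hD θ hθ
          (xG D hD (D.simple i) a * xG D hD (D.neg (D.simple i)) b) h1
        rw [himg] at h2
        obtain ⟨y, hy, c, hc, e⟩ := h2
        exact aut_rk1_not_mem D hD (ρ i) (ρ i).2 (f a) (g b) h y c hy hc e
    have hsq : ∀ s : F, s ≠ 0 → ∃ k : F, ∀ u, f (s ^ 2 * u) = k * f u := by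
      intro s hs
      let hG : ↥(D.group F) := ⟨hU D hD (D.simple i) s, hU_mem_group D hD _ s⟩
      have hHd : ((θ hG : ↥(D.group F)) : GL D.Idx F) ∈ D.diagonalSubgroup F :=
        hθ.diag hD hG (hU_mem_diag D hD _ hpos.1 s hs)
      obtain ⟨χ, -, hχ⟩ := diag_conj_x D hD hnx hcert _ hHd
      refine ⟨χ (D.simple (ρ i)), fun u => ?_⟩
      have e1 : hG * xG D hD (D.simple i) u * hG⁻¹ = xG D hD (D.simple i) (s ^ 2 * u) :=
        Subtype.ext (hR.hconj s u hs)
      have e2 := congrArg θ e1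
      rw [map_mul, map_mul, map_inv, hf, hf] at e2
      have e3 : ((θ hG : ↥(D.group F)) : GL D.Idx F) * xU D hD (D.simple (ρ i)) (f u) *
          ((θ hG : ↥(D.group F)) : GL D.Idx F)⁻¹ = xU D hD (D.simple (ρ i)) (f (s ^ 2 * u)) :=
        congrArg Subtype.val e2
      rw [hχ _ hpos'.1] at e3
      exact (fld_xU_inj D hD _ hpos'.1 _ _ e3).symm
    obtain ⟨c, σ, h1, h2⟩ := aut_field_core f g hf_add hf_inj hsq hrel hg0
    exact ⟨c, σ, fun t => ⟨by rw [hf, h1], by rw [hg, h2]⟩⟩
  choose c σ h using key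
  exact ⟨c, σ, h⟩

end Cfsg.Agent.Lib.helper11
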