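import Cfsg.Agent.Lib.helper11d.Aut5
import Cfsg.Agent.Lib.helper11d.Fld2
import Cfsg.Agent.S1033

/-! Diagonal and field automorphisms of a Chevalley group, and the relations satisfied by an
automorphism acting semilinearly on the fundamental root subgroups. -/

set_option autoImplicit false

namespace Cfsg.Agent.Lib.helper11

open Cfsg Cfsg.Lie Cfsg.Agent.Lib.helper2
open scoped Pointwise

variable {F : Type*} [Field F]

/-- the root character with prescribed values on the fundamental roots -/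
noncomputable def cwChar (D : ChevalleyDatum) (c : ℕ → Fˣ) : ℕ → Fˣ :=
  fun r => ∏ j ∈ Finset.range D.rank, c j ^ mco D r j

theorem cwChar_isRoot (D : ChevalleyDatum)
    (hD : D ∈ [chevG2, chevB2, chevD4, chevF4, chevE6, chevE7, chevE8]) (c : ℕ → Fˣ) :
    D.IsRootCharacter (cwChar D c) := by
  have hm := mdivOK_of_mem D hD
  constructor
  · intro r hr
    show ∏ j ∈ Finset.range D.rank, c j ^ mco D (D.neg r) j =
      (∏ j ∈ Finset.range D.rank, c j ^ mco D r j)⁻¹
    rw [← Finset.prod_inv_distrib]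
    apply Finset.prod_congr rfl
    intro j hj
    rw [mco_neg D hD hm r hr j (Finset.mem_range.mp hj), zpow_neg]
  · intro r s k hr hs hk
    show ∏ j ∈ Finset.range D.rank, c j ^ mco D k j =
      (∏ j ∈ Finset.range D.rank, c j ^ mco D r j) * ∏ j ∈ Finset.range D.rank, c j ^ mco D s j
    rw [← Finset.prod_mul_distrib]
    apply Finset.prod_congr rfl
    intro j hj
    rw [mco_chain D hD hm r s k hr hk j (Finset.mem_range.mp hj), zpow_add]

theorem cwChar_simple (D : ChevalleyDatum)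
    (hD : D ∈ [chevG2, chevB2, chevD4, chevF4, chevE6, chevE7, chevE8]) (c : ℕ → Fˣ)
    (j : ℕ) (hj : j < D.rank) : cwChar D c (D.simple j) = c j := by
  show ∏ i ∈ Finset.range D.rank, c i ^ mco D (D.simple j) i = c j
  rw [Finset.prod_eq_single j]
  · rw [mSimpOK_spec D (mSimpOK_of_mem D hD) j j hj hj, if_pos rfl, zpow_one]
  · intro i hi hij
    rw [mSimpOK_spec D (mSimpOK_of_mem D hD) j i hj (Finset.mem_range.mp hi), if_neg hij,
      zpow_zero]
  · intro h
    exact absurd (Finset.mem_range.mpr hj) h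

theorem isRootChar_inv (D : ChevalleyDatum) (χ : ℕ → Fˣ) (hχ : D.IsRootCharacter χ) :
    D.IsRootCharacter (fun s => (χ s)⁻¹) := by
  constructor
  · intro r hr
    show (χ (D.neg r))⁻¹ = ((χ r)⁻¹)⁻¹
    rw [hχ.1 r hr]
  · intro r s k hr hs hk
    show (χ k)⁻¹ = (χ r)⁻¹ * (χ s)⁻¹
    rw [hχ.2 r s k hr hs hk, mul_inv]

/-- the diagonal matrix of a family of units, as an element of `GL` -/
def charDiagU (D : ChevalleyDatum) (χ : ℕ → Fˣ) : GL D.Idx F :=
  ⟨D.charDiag F χ, D.charDiag F (fun s => (χ s)⁻¹), by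
    have h := charDiag_mul_inv D (fun s => (χ s)⁻¹)
    simp only [inv_inv] at h
    exact h, charDiag_mul_inv D χ⟩

theorem charDiagU_inv (D : ChevalleyDatum) (χ : ℕ → Fˣ) :
    (charDiagU D χ : GL D.Idx F)⁻¹ = charDiagU D (fun s => (χ s)⁻¹) :=
  Units.ext rfl

theorem charDiagU_conj (D : ChevalleyDatum)
    (hD : D ∈ [chevG2, chevB2, chevD4, chevF4, chevE6, chevE7, chevE8]) (χ : ℕ → Fˣ)
    (hχ : D.IsRootCharacter χ) (r : ℕ) (hr : r < D.nroots) (t : F) :
    charDiagU D χ * xU D hD r t * (charDiagU D χ)⁻¹ = xU D hD r ((χ r : F) * t) :=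
  charDiag_conj_xU D hD χ hχ (charDiagU D χ) rfl r hr t

theorem charDiagU_mem (D : ChevalleyDatum)
    (hD : D ∈ [chevG2, chevB2, chevD4, chevF4, chevE6, chevE7, chevE8]) (χ : ℕ → Fˣ)
    (hχ : D.IsRootCharacter χ) (g : GL D.Idx F) (hg : g ∈ D.group F) :
    charDiagU D χ * g * (charDiagU D χ)⁻¹ ∈ D.group F := by
  unfold ChevalleyDatum.group at hg
  induction hg using Subgroup.closure_induction with
  | mem g hg =>
    obtain ⟨r, t, hgm⟩ := hg
    have hx : D.x F r t = D.xMat F r t := by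
      simp [ChevalleyDatum.x, r.2]
    rw [eq_xU D hD r t g (by rw [hgm, hx]), charDiagU_conj D hD χ hχ r r.2]
    exact xU_mem_group D hD _ _
  | one =>
    rw [mul_one, mul_inv_cancel]
    exact one_mem _
  | mul a b _ _ iha ihb =>
    have e : charDiagU D χ * (a * b) * (charDiagU D χ)⁻¹ =
        (charDiagU D χ * a * (charDiagU D χ)⁻¹) * (charDiagU D χ * b * (charDiagU D χ)⁻¹) := by
      group
    rw [e]
    exact mul_mem iha ihb
  | inv a _ iha =>
    have e : charDiagU D χ * a⁻¹ * (charDiagU D χ)⁻¹ =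
        (charDiagU D χ * a * (charDiagU D χ)⁻¹)⁻¹ := by group
    rw [e]
    exact inv_mem iha

theorem charDiagU_mem' (D : ChevalleyDatum)
    (hD : D ∈ [chevG2, chevB2, chevD4, chevF4, chevE6, chevE7, chevE8]) (χ : ℕ → Fˣ)
    (hχ : D.IsRootCharacter χ) (g : GL D.Idx F) (hg : g ∈ D.group F) :
    (charDiagU D χ)⁻¹ * g * charDiagU D χ ∈ D.group F := by
  have h := charDiagU_mem D hD _ (isRootChar_inv D χ hχ) g hg
  rw [← charDiagU_inv, inv_inv] at h
  exact h

/-- the diagonal automorphism attached to a root character -/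
noncomputable def diagAut (D : ChevalleyDatum)
    (hD : D ∈ [chevG2, chevB2, chevD4, chevF4, chevE6, chevE7, chevE8]) (χ : ℕ → Fˣ)
    (hχ : D.IsRootCharacter χ) : MulAut ↥(D.group F) where
  toFun g := ⟨charDiagU D χ * g * (charDiagU D χ)⁻¹, charDiagU_mem D hD χ hχ g g.2⟩
  invFun g := ⟨(charDiagU D χ)⁻¹ * g * charDiagU D χ, charDiagU_mem' D hD χ hχ g g.2⟩
  left_inv g := Subtype.ext (by
    show (charDiagU D χ)⁻¹ * (charDiagU D χ * (g : GL D.Idx F) * (charDiagU D χ)⁻¹) *
      charDiagU D χ = g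
    group)
  right_inv g := Subtype.ext (by
    show charDiagU D χ * ((charDiagU D χ)⁻¹ * (g : GL D.Idx F) * charDiagU D χ) *
      (charDiagU D χ)⁻¹ = g
    group)
  map_mul' a b := Subtype.ext (by
    show charDiagU D χ * ((a : GL D.Idx F) * (b : GL D.Idx F)) * (charDiagU D χ)⁻¹ =
      (charDiagU D χ * (a : GL D.Idx F) * (charDiagU D χ)⁻¹) *
        (charDiagU D χ * (b : GL D.Idx F) * (charDiagU D χ)⁻¹)
    group)

theorem diagAut_isDiag (D : ChevalleyDatum)
    (hD : D ∈ [chevG2, chevB2, chevD4, chevF4, chevE6, chevE7, chevE8]) (χ : ℕ → Fˣ)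
    (hχ : D.IsRootCharacter χ) : D.IsDiagonalAut (diagAut (F := F) D hD χ hχ) :=
  ⟨χ, hχ, fun _ => rfl⟩

theorem diagAut_xG (D : ChevalleyDatum)
    (hD : D ∈ [chevG2, chevB2, chevD4, chevF4, chevE6, chevE7, chevE8]) (χ : ℕ → Fˣ)
    (hχ : D.IsRootCharacter χ) (r : ℕ) (hr : r < D.nroots) (t : F) :
    diagAut D hD χ hχ (xG D hD r t) = xG D hD r ((χ r : F) * t) :=
  Subtype.ext (charDiagU_conj D hD χ hχ r hr t)

theorem diagAut_inv_xG (D : ChevalleyDatum)
    (hD : D ∈ [chevG2, chevB2, chevD4, chevF4, chevE6, chevE7, chevE8]) (χ : ℕ → Fˣ)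
    (hχ : D.IsRootCharacter χ) (r : ℕ) (hr : r < D.nroots) (t : F) :
    (diagAut D hD χ hχ)⁻¹ (xG D hD r t) = xG D hD r ((((χ r)⁻¹ : Fˣ) : F) * t) := by
  have e : xG D hD r t = diagAut D hD χ hχ (xG D hD r ((((χ r)⁻¹ : Fˣ) : F) * t)) := by
    rw [diagAut_xG D hD χ hχ r hr, ← mul_assoc, ← Units.val_mul, mul_inv_cancel, Units.val_one,
      one_mul]
  conv_lhs => rw [e]
  rw [MulAut.inv_apply_self]

/-- the field automorphism attached to an automorphism of the field -/
noncomputable def fieldAut (D : ChevalleyDatum) (σ : F ≃+* F) : MulAut ↥(D.group F) where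
  toFun g := ⟨Matrix.GeneralLinearGroup.map (σ : F →+* F) g,
    fld_map_group D (σ : F →+* F) g g.2⟩
  invFun g := ⟨Matrix.GeneralLinearGroup.map ((σ.symm : F ≃+* F) : F →+* F) g,
    fld_map_group D ((σ.symm : F ≃+* F) : F →+* F) g g.2⟩
  left_inv g := Subtype.ext (Units.ext (by
    ext i j
    simp [fld_glmap_val, Matrix.map_apply]))
  right_inv g := Subtype.ext (Units.ext (by
    ext i j
    simp [fld_glmap_val, Matrix.map_apply]))
  map_mul' a b := Subtype.ext (map_mul _ _ _)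

theorem fieldAut_isField (D : ChevalleyDatum) (σ : F ≃+* F) :
    D.IsFieldAut (fieldAut (F := F) D σ) := by
  refine ⟨σ, fun g r t _ hg => ?_⟩
  show ((Matrix.GeneralLinearGroup.map (σ : F →+* F) (g : GL D.Idx F) : GL D.Idx F) :
    Matrix D.Idx D.Idx F) = D.x F r (σ t)
  rw [fld_glmap_val, hg, fld_x_map]
  rfl

theorem fieldAut_xG (D : ChevalleyDatum)
    (hD : D ∈ [chevG2, chevB2, chevD4, chevF4, chevE6, chevE7, chevE8]) (σ : F ≃+* F)
    (r : ℕ) (t : F) : fieldAut D σ (xG D hD r t) = xG D hD r (σ t) :=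
  Subtype.ext (fld_map_xU D hD _ r t)

theorem fieldAut_inv_xG (D : ChevalleyDatum)
    (hD : D ∈ [chevG2, chevB2, chevD4, chevF4, chevE6, chevE7, chevE8]) (σ : F ≃+* F)
    (r : ℕ) (t : F) : (fieldAut D σ)⁻¹ (xG D hD r t) = xG D hD r (σ.symm t) := by
  have e : xG D hD r t = fieldAut D σ (xG D hD r (σ.symm t)) := by
    rw [fieldAut_xG, RingEquiv.apply_symm_apply]
  conv_lhs => rw [e]
  rw [MulAut.inv_apply_self]

/-- the action of `h_{p_j}(t)` on root elements -/
theorem aut_hU_conj (D : ChevalleyDatum)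
    (hD : D ∈ [chevG2, chevB2, chevD4, chevF4, chevE6, chevE7, chevE8]) (j : ℕ)
    (hj : j < D.rank) (t : F) (ht : t ≠ 0) (s : ℕ) (hs : s < D.nroots) (u : F) :
    hU D hD (D.simple j) t * xU D hD s u * (hU D hD (D.simple j) t)⁻¹ =
      xU D hD s (t ^ D.cartan j s * u) := by
  have hχ := isRootChar_hexp (F := F) D hD (fun k => if k = j then 1 else 0) (Units.mk0 t ht)
  have hm : ∀ v, hexp D (fun k => if k = j then (1 : ℤ) else 0) v = D.cartan j v := by
    intro v
    unfold hexp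
    simp only [ite_mul, one_mul, zero_mul]
    rw [Finset.sum_ite_eq' (Finset.range D.rank) j, if_pos (Finset.mem_range.mpr hj)]
  have h1 : ((hU D hD (D.simple j) t : GL D.Idx F) : Matrix D.Idx D.Idx F) =
      D.charDiag F (fun v => Units.mk0 t ht ^ hexp D (fun k => if k = j then (1 : ℤ) else 0) v) := by
    rw [hU_val, Cfsg.Agent.S1033.main D hD j hj t ht]
    unfold ChevalleyDatum.charDiag
    congr 2
    funext v
    beta_reduce
    rw [hm, Units.val_zpow_eq_zpow_val, Units.val_mk0]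
  have h2 := charDiag_conj_xU D hD _ hχ _ h1 s hs u
  rw [h2, hm, Units.val_zpow_eq_zpow_val, Units.val_mk0]

/-- `h_{p_i}(t)` as an element of the group -/
def hG (D : ChevalleyDatum)
    (hD : D ∈ [chevG2, chevB2, chevD4, chevF4, chevE6, chevE7, chevE8]) (i : ℕ) (t : F) :
    ↥(D.group F) := ⟨hU D hD (D.simple i) t, hU_mem_group D hD _ t⟩

theorem hG_eq (D : ChevalleyDatum)
    (hD : D ∈ [chevG2, chevB2, chevD4, chevF4, chevE6, chevE7, chevE8]) (i : ℕ) (t : F) :
    hG D hD i t = xG D hD (D.simple i) t * xG D hD (D.neg (D.simple i)) (-t⁻¹) *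
      xG D hD (D.simple i) t * (xG D hD (D.simple i) (-1) *
        xG D hD (D.neg (D.simple i)) (-(-1 : F)⁻¹) * xG D hD (D.simple i) (-1)) :=
  Subtype.ext rfl

/-- relations satisfied by an automorphism acting on the fundamental root subgroups through
field automorphisms -/
theorem aut_rel (D : ChevalleyDatum)
    (hD : D ∈ [chevG2, chevB2, chevD4, chevF4, chevE6, chevE7, chevE8])
    (θ : MulAut ↥(D.group F)) (ρ : Equiv.Perm (Fin D.rank)) (σ : Fin D.rank → F ≃+* F)
    (hE : ∀ (i : Fin D.rank) (t : F),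
      θ (xG D hD (D.simple i) t) = xG D hD (D.simple (ρ i)) (σ i t) ∧
      θ (xG D hD (D.neg (D.simple i)) t) = xG D hD (D.neg (D.simple (ρ i))) (σ i t)) :
    (∀ i j : Fin D.rank, i ≠ j →
      (D.cartan i (D.simple j) = 0 ↔ D.cartan (ρ i) (D.simple (ρ j)) = 0)) ∧
    (∀ (i j : Fin D.rank) (t : F), t ≠ 0 →
      (σ i t) ^ D.cartan (ρ i) (D.simple (ρ j)) = (σ j t) ^ D.cartan i (D.simple j)) := by
  obtain ⟨hnx, hcert, htri, hup, hcm'⟩ := certs_of_mem F D hD
  have hrefl := reflOKs_of_mem D hD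
  constructor
  · intro i j hij
    have hij' : (i : ℕ) ≠ j := fun h => hij (Fin.ext h)
    have hρij : ((ρ i : Fin D.rank) : ℕ) ≠ ρ j := fun h => hij (ρ.injective (Fin.ext h))
    constructor
    · intro h0
      by_contra hne
      have hne' : D.cartan (ρ j) (D.simple (ρ i)) ≠ 0 := fun h =>
        hne ((reflOKs_spec D hrefl (ρ i) (ρ j) (ρ i).2 (ρ j).2 hρij).1.mp h)
      apply aut_noncomm (F := F) D hD (ρ i) (ρ j) (ρ i).2 (ρ j).2 hρij hne'
      intro t u
      have h1 := aut_comm_pos_pos D hD i j i.2 j.2 hij' h0 ((σ i).symm t) ((σ j).symm u)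
      have h2 : xG D hD (D.simple j) ((σ j).symm u) * xG D hD (D.simple i) ((σ i).symm t) =
          xG D hD (D.simple i) ((σ i).symm t) * xG D hD (D.simple j) ((σ j).symm u) :=
        Subtype.ext h1
      have h3 := congrArg θ h2
      rw [map_mul, map_mul, (hE i _).1, (hE j _).1, RingEquiv.apply_symm_apply,
        RingEquiv.apply_symm_apply] at h3
      exact congrArg Subtype.val h3
    · intro h0
      by_contra hne
      have hne' : D.cartan j (D.simple i) ≠ 0 := fun h =>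
        hne ((reflOKs_spec D hrefl i j i.2 j.2 hij').1.mp h)
      apply aut_noncomm (F := F) D hD i j i.2 j.2 hij' hne'
      intro t u
      have h1 := aut_comm_pos_pos D hD (ρ i) (ρ j) (ρ i).2 (ρ j).2 hρij h0 (σ i t) (σ j u)
      have h2 : θ (xG D hD (D.simple j) u * xG D hD (D.simple i) t) =
          θ (xG D hD (D.simple i) t * xG D hD (D.simple j) u) := by
        rw [map_mul, map_mul, (hE i _).1, (hE j _).1]
        exact Subtype.ext h1
      exact congrArg Subtype.val (MulEquiv.injective θ h2)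
  · intro i j t ht
    have hpj : D.IsPosRoot (D.simple j) := (hcert.2 j j.2).2
    have hpj' : D.IsPosRoot (D.simple (ρ j)) := (hcert.2 _ (ρ j).2).2
    have hσt : σ i t ≠ 0 := (map_ne_zero (σ i)).mpr ht
    have hh : θ (hG D hD i t) = hG D hD (ρ i) (σ i t) := by
      rw [hG_eq, hG_eq]
      simp only [map_mul, (hE i _).1, (hE i _).2, map_neg, map_inv₀, map_one]
    have e1 : hG D hD i t * xG D hD (D.simple j) 1 * (hG D hD i t)⁻¹ =
        xG D hD (D.simple j) (t ^ D.cartan i (D.simple j) * 1) :=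
      Subtype.ext (aut_hU_conj D hD i i.2 t ht _ hpj.1 1)
    have e2 := congrArg θ e1
    rw [map_mul, map_mul, map_inv, hh, (hE j _).1, (hE j _).1] at e2
    have e3 : hG D hD (ρ i) (σ i t) * xG D hD (D.simple (ρ j)) (σ j 1) *
        (hG D hD (ρ i) (σ i t))⁻¹ =
        xG D hD (D.simple (ρ j)) ((σ i t) ^ D.cartan (ρ i) (D.simple (ρ j)) * σ j 1) :=
      Subtype.ext (aut_hU_conj D hD (ρ i) (ρ i).2 _ hσt _ hpj'.1 _)
    rw [e3] at e2
    have e4 := xG_inj D hD _ hpj'.1 _ _ e2
    rw [map_one, mul_one, map_mul, map_one, mul_one, map_zpow₀] at e4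
    exact e4

end Cfsg.Agent.Lib.helper11
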