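import Cfsg.Agent.Lib.helper11d.Aut6

/-! The decomposition of an automorphism of a finite Chevalley group. -/

set_option autoImplicit false

namespace Cfsg.Agent.Lib.helper11

open Cfsg Cfsg.Lie Cfsg.Agent.Lib.helper2
open scoped Pointwise

variable {F : Type*} [Field F]

theorem graphExp_self (D : ChevalleyDatum) (c i : ℕ) : D.graphExp c i i = 1 := by
  unfold ChevalleyDatum.graphExp
  simp

/-- the case where the Cartan integers are preserved and no exponent occurs -/
theorem aut_sigma_gen (D : ChevalleyDatum)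
    (hD : D ∈ [chevG2, chevB2, chevD4, chevF4, chevE6, chevE7, chevE8])
    (r : ℕ → ℕ) (s : ℕ → F ≃+* F)
    (hcart : ∀ i < D.rank, ∀ j < D.rank, i ≠ j →
      D.cartan (r i) (D.simple (r j)) = D.cartan i (D.simple j))
    (hexp : ∀ i < D.rank, D.graphExp (ringChar F) i (r i) = 1)
    (hrel : ∀ i < D.rank, ∀ j < D.rank, ∀ t : F, t ≠ 0 →
      (s i t) ^ D.cartan (r i) (D.simple (r j)) = (s j t) ^ D.cartan i (D.simple j)) :
    (∀ i < D.rank, ∀ j < D.rank, i ≠ j → D.bonds (r i) (r j) = D.bonds i j) ∧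
    ∃ τ : F ≃+* F, ∀ i < D.rank, ∀ t : F,
      s i t = (τ t) ^ D.graphExp (ringChar F) i (r i) := by
  constructor
  · intro i hi j hj hij
    unfold ChevalleyDatum.bonds
    rw [hcart i hi j hj hij, hcart j hj i hi (Ne.symm hij)]
  · have hall : ∀ i < D.rank, s i = s 0 := by
      refine conn_induct D (connOK_of_mem D hD) (fun i => s i = s 0) rfl ?_
      intro i hi hi0 hp hedge hih
      have hih' : s (autParent D i) = s 0 := hih
      show s i = s 0
      have hss := cartanSS_spec D (cartanSS_of_mem D hD)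
      have hne : i ≠ autParent D i := by
        intro h
        rcases hedge with h1 | h1
        · rw [← h, hss i hi] at h1
          omega
        · rw [← h, hss i hi] at h1
          omega
      rw [← hih']
      apply RingEquiv.ext
      intro t
      by_cases ht : t = 0
      · rw [ht, map_zero, map_zero]
      · rcases hedge with h1 | h1
        · have h2 := hrel (autParent D i) hp i hi t ht
          rw [hcart _ hp i hi (Ne.symm hne), h1, zpow_neg, zpow_neg, zpow_one, zpow_one,
            inv_inj] at h2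
          exact h2.symm
        · have h2 := hrel i hi (autParent D i) hp t ht
          rw [hcart i hi _ hp hne, h1, zpow_neg, zpow_neg, zpow_one, zpow_one, inv_inj] at h2
          exact h2
    refine ⟨s 0, fun i hi t => ?_⟩
    rw [hexp i hi, pow_one, hall i hi]

theorem aut_sigma_id (D : ChevalleyDatum)
    (hD : D ∈ [chevG2, chevB2, chevD4, chevF4, chevE6, chevE7, chevE8])
    (r : ℕ → ℕ) (s : ℕ → F ≃+* F) (hid : ∀ i < D.rank, r i = i)
    (hrel : ∀ i < D.rank, ∀ j < D.rank, ∀ t : F, t ≠ 0 →
      (s i t) ^ D.cartan (r i) (D.simple (r j)) = (s j t) ^ D.cartan i (D.simple j)) :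
    (∀ i < D.rank, ∀ j < D.rank, i ≠ j → D.bonds (r i) (r j) = D.bonds i j) ∧
    ∃ τ : F ≃+* F, ∀ i < D.rank, ∀ t : F,
      s i t = (τ t) ^ D.graphExp (ringChar F) i (r i) :=
  aut_sigma_gen D hD r s (fun i hi j hj _ => by rw [hid i hi, hid j hj])
    (fun i hi => by rw [hid i hi]; exact graphExp_self D _ i) hrel

/-- simply laced types -/
theorem aut_sigma_sl (D : ChevalleyDatum)
    (hD : D ∈ [chevG2, chevB2, chevD4, chevF4, chevE6, chevE7, chevE8]) (hsl : slOK D = true)
    (r : ℕ → ℕ) (s : ℕ → F ≃+* F)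
    (hr_lt : ∀ i < D.rank, r i < D.rank)
    (hr_inj : ∀ i < D.rank, ∀ j < D.rank, r i = r j → i = j)
    (hadj : ∀ i < D.rank, ∀ j < D.rank, i ≠ j →
      (D.cartan i (D.simple j) = 0 ↔ D.cartan (r i) (D.simple (r j)) = 0))
    (hrel : ∀ i < D.rank, ∀ j < D.rank, ∀ t : F, t ≠ 0 →
      (s i t) ^ D.cartan (r i) (D.simple (r j)) = (s j t) ^ D.cartan i (D.simple j)) :
    (∀ i < D.rank, ∀ j < D.rank, i ≠ j → D.bonds (r i) (r j) = D.bonds i j) ∧
    ∃ τ : F ≃+* F, ∀ i < D.rank, ∀ t : F,
      s i t = (τ t) ^ D.graphExp (ringChar F) i (r i) := by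
  apply aut_sigma_gen D hD r s _ _ hrel
  · intro i hi j hj hij
    have h1 := (slOK_spec D hsl i hi).2 j hj hij
    have h2 := (slOK_spec D hsl (r i) (hr_lt i hi)).2 (r j) (hr_lt j hj)
      (fun h => hij (hr_inj i hi j hj h))
    have h3 := hadj i hi j hj hij
    rcases h1 with h1 | h1 <;> rcases h2 with h2 | h2
    · rw [h1, h2]
    · have := h3.mp h1
      rw [h2] at this
      omega
    · have := h3.mpr h2
      rw [h1] at this
      omega
    · rw [h1, h2]
  · intro i hi
    unfold ChevalleyDatum.graphExp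
    rw [(slOK_spec D hsl (r i) (hr_lt i hi)).1]
    simp

/-- an additive map which is a square or a cube of a field automorphism -/
theorem aut_pow_char [Finite F] (σ₁ σ₂ : F ≃+* F) (m : ℕ) (hm : m = 2 ∨ m = 3)
    (h : ∀ t, σ₁ t = (σ₂ t) ^ m) : ∀ t, σ₁ t = (σ₂ t) ^ ringChar F := by
  have hadd : ∀ x y : F, (x + y) ^ m = x ^ m + y ^ m := by
    intro x y
    have h1 := map_add σ₁ (σ₂.symm x) (σ₂.symm y)
    rw [h, h, h, map_add, RingEquiv.apply_symm_apply, RingEquiv.apply_symm_apply] at h1
    exact h1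
  have hp : (ringChar F).Prime := CharP.char_is_prime F (ringChar F)
  rcases hm with rfl | rfl
  · have h4 := hadd 1 1
    have h2 : (2 : F) = 0 := by linear_combination h4
    have hdvd : ringChar F ∣ 2 := (ringChar.spec F 2).mp (by exact_mod_cast h2)
    have hc : ringChar F = 2 := (Nat.prime_dvd_prime_iff_eq hp Nat.prime_two).mp hdvd
    rw [hc]
    exact h
  · have h4 := hadd 1 1
    have h6 : (6 : F) = 0 := by linear_combination h4
    have hdvd : ringChar F ∣ 2 * 3 := (ringChar.spec F (2 * 3)).mp (by exact_mod_cast h6)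
    rcases (Nat.Prime.dvd_mul hp).mp hdvd with h2 | h3
    · have hc : ringChar F = 2 := (Nat.prime_dvd_prime_iff_eq hp Nat.prime_two).mp h2
      have h2' : (2 : F) = 0 := by
        have := (ringChar.spec F 2).mpr h2
        exact_mod_cast this
      intro t
      rw [hc, h t]
      have e1 := hadd (σ₂ t) 1
      have hx : (σ₂ t) ^ 2 + σ₂ t = 0 := by
        linear_combination e1 - ((σ₂ t) ^ 2 + σ₂ t) * h2'
      linear_combination (σ₂ t) * hx - (σ₂ t) ^ 2 * h2'
    · have hc : ringChar F = 3 := (Nat.prime_dvd_prime_iff_eq hp Nat.prime_three).mp h3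
      rw [hc]
      exact h

/-- types of rank two with two root lengths -/
theorem aut_sigma_rk2 [Finite F] (D : ChevalleyDatum)
    (hD : D ∈ [chevG2, chevB2, chevD4, chevF4, chevE6, chevE7, chevE8]) (hrank : D.rank = 2)
    (hA10 : D.cartan 1 (D.simple 0) = -1) (m : ℕ) (hm : m = 2 ∨ m = 3)
    (hA01 : D.cartan 0 (D.simple 1) = -(m : ℤ))
    (hL0 : D.isLong (D.simple 0) = false) (hL1 : D.isLong (D.simple 1) = true)
    (r : ℕ → ℕ) (s : ℕ → F ≃+* F)
    (hr_lt : ∀ i < D.rank, r i < D.rank)
    (hr_inj : ∀ i < D.rank, ∀ j < D.rank, r i = r j → i = j)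
    (hrel : ∀ i < D.rank, ∀ j < D.rank, ∀ t : F, t ≠ 0 →
      (s i t) ^ D.cartan (r i) (D.simple (r j)) = (s j t) ^ D.cartan i (D.simple j)) :
    (∀ i < D.rank, ∀ j < D.rank, i ≠ j → D.bonds (r i) (r j) = D.bonds i j) ∧
    ∃ τ : F ≃+* F, ∀ i < D.rank, ∀ t : F,
      s i t = (τ t) ^ D.graphExp (ringChar F) i (r i) := by
  have h0 := hr_lt 0 (by omega)
  have h1 := hr_lt 1 (by omega)
  rw [hrank] at h0 h1
  have hne : r 0 ≠ r 1 := fun h => by
    have := hr_inj 0 (by omega) 1 (by omega) h
    omega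
  by_cases hr0 : r 0 = 0
  · have hr1 : r 1 = 1 := by omega
    apply aut_sigma_id D hD r s _ hrel
    intro i hi
    rw [hrank] at hi
    interval_cases i <;> assumption
  · have hr0' : r 0 = 1 := by omega
    have hr1 : r 1 = 0 := by omega
    constructor
    · intro i hi j hj hij
      rw [hrank] at hi hj
      interval_cases i <;> interval_cases j
      · exact absurd rfl hij
      · rw [hr0', hr1]
        unfold ChevalleyDatum.bonds
        ring
      · rw [hr0', hr1]
        unfold ChevalleyDatum.bonds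
        ring
      · exact absurd rfl hij
    · have hm0 : m ≠ 0 := by
        rcases hm with rfl | rfl <;> norm_num
      have hpow : ∀ t, s 0 t = (s 1 t) ^ m := by
        intro t
        by_cases ht : t = 0
        · rw [ht, map_zero, map_zero, zero_pow hm0]
        · have h2 := hrel 0 (by omega) 1 (by omega) t ht
          rw [hr0', hr1, hA10, hA01, zpow_neg, zpow_neg, zpow_one, zpow_natCast, inv_inj] at h2
          exact h2
      have hpc := aut_pow_char (s 0) (s 1) m hm hpow
      refine ⟨s 1, fun i hi t => ?_⟩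
      rw [hrank] at hi
      interval_cases i
      · rw [hr0']
        have e : D.graphExp (ringChar F) 0 1 = ringChar F := by
          unfold ChevalleyDatum.graphExp
          simp [hL0, hL1]
        rw [e]
        exact hpc t
      · rw [hr1]
        have e : D.graphExp (ringChar F) 1 0 = 1 := by
          unfold ChevalleyDatum.graphExp
          simp [hL0, hL1]
        rw [e, pow_one]

/-- Boolean certificate: a permutation of the nodes of `F₄` preserving adjacency is the
identity or the reversal -/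
def f4PermOK : Bool :=
  (List.range 4).all fun a => (List.range 4).all fun b =>
  (List.range 4).all fun c => (List.range 4).all fun d =>
    (a == b || a == c || a == d || b == c || b == d || c == d) ||
    !(decide (chevF4.cartan 0 (chevF4.simple 1) = 0 ↔ chevF4.cartan a (chevF4.simple b) = 0)) ||
    !(decide (chevF4.cartan 0 (chevF4.simple 2) = 0 ↔ chevF4.cartan a (chevF4.simple c) = 0)) ||
    !(decide (chevF4.cartan 0 (chevF4.simple 3) = 0 ↔ chevF4.cartan a (chevF4.simple d) = 0)) ||
    !(decide (chevF4.cartan 1 (chevF4.simple 2) = 0 ↔ chevF4.cartan b (chevF4.simple c) = 0)) ||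
    !(decide (chevF4.cartan 1 (chevF4.simple 3) = 0 ↔ chevF4.cartan b (chevF4.simple d) = 0)) ||
    !(decide (chevF4.cartan 2 (chevF4.simple 3) = 0 ↔ chevF4.cartan c (chevF4.simple d) = 0)) ||
    ((a == 0 && b == 1 && c == 2 && d == 3) || (a == 3 && b == 2 && c == 1 && d == 0))

theorem f4PermOK_eq : f4PermOK = true := by decide +kernel

theorem f4_perm_cert (a : ℕ) (ha : a < 4) (b : ℕ) (hb : b < 4) (c : ℕ) (hc : c < 4)
    (d : ℕ) (hd : d < 4)
    (hab : a ≠ b) (hac : a ≠ c) (had : a ≠ d) (hbc : b ≠ c) (hbd : b ≠ d) (hcd : c ≠ d)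
    (h1 : chevF4.cartan 0 (chevF4.simple 1) = 0 ↔ chevF4.cartan a (chevF4.simple b) = 0)
    (h2 : chevF4.cartan 0 (chevF4.simple 2) = 0 ↔ chevF4.cartan a (chevF4.simple c) = 0)
    (h3 : chevF4.cartan 0 (chevF4.simple 3) = 0 ↔ chevF4.cartan a (chevF4.simple d) = 0)
    (h4 : chevF4.cartan 1 (chevF4.simple 2) = 0 ↔ chevF4.cartan b (chevF4.simple c) = 0)
    (h5 : chevF4.cartan 1 (chevF4.simple 3) = 0 ↔ chevF4.cartan b (chevF4.simple d) = 0)
    (h6 : chevF4.cartan 2 (chevF4.simple 3) = 0 ↔ chevF4.cartan c (chevF4.simple d) = 0) :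
    (a = 0 ∧ b = 1 ∧ c = 2 ∧ d = 3) ∨ (a = 3 ∧ b = 2 ∧ c = 1 ∧ d = 0) := by
  have h := f4PermOK_eq
  unfold f4PermOK at h
  have h' := List.all_eq_true.mp (List.all_eq_true.mp (List.all_eq_true.mp
    (List.all_eq_true.mp h a (List.mem_range.mpr ha)) b (List.mem_range.mpr hb))
    c (List.mem_range.mpr hc)) d (List.mem_range.mpr hd)
  simp only [Bool.or_eq_true, Bool.and_eq_true, beq_iff_eq, Bool.not_eq_true',
    decide_eq_false_iff_not, decide_eq_true_eq] at h'
  tauto

theorem f4_bonds_cert : ∀ i < 4, ∀ j < 4, chevF4.bonds (3 - i) (3 - j) = chevF4.bonds i j := by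
  decide +kernel

/-- type `F₄` -/
theorem aut_sigma_F4 [Finite F]
    (hD : chevF4 ∈ [chevG2, chevB2, chevD4, chevF4, chevE6, chevE7, chevE8])
    (r : ℕ → ℕ) (s : ℕ → F ≃+* F)
    (hr_lt : ∀ i < chevF4.rank, r i < chevF4.rank)
    (hr_inj : ∀ i < chevF4.rank, ∀ j < chevF4.rank, r i = r j → i = j)
    (hadj : ∀ i < chevF4.rank, ∀ j < chevF4.rank, i ≠ j →
      (chevF4.cartan i (chevF4.simple j) = 0 ↔ chevF4.cartan (r i) (chevF4.simple (r j)) = 0))
    (hrel : ∀ i < chevF4.rank, ∀ j < chevF4.rank, ∀ t : F, t ≠ 0 →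
      (s i t) ^ chevF4.cartan (r i) (chevF4.simple (r j)) =
        (s j t) ^ chevF4.cartan i (chevF4.simple j)) :
    (∀ i < chevF4.rank, ∀ j < chevF4.rank, i ≠ j →
      chevF4.bonds (r i) (r j) = chevF4.bonds i j) ∧
    ∃ τ : F ≃+* F, ∀ i < chevF4.rank, ∀ t : F,
      s i t = (τ t) ^ chevF4.graphExp (ringChar F) i (r i) := by
  have hrank : chevF4.rank = 4 := rfl
  have l0 : (0 : ℕ) < chevF4.rank := by rw [hrank]; norm_num
  have l1 : (1 : ℕ) < chevF4.rank := by rw [hrank]; norm_num
  have l2 : (2 : ℕ) < chevF4.rank := by rw [hrank]; norm_num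
  have l3 : (3 : ℕ) < chevF4.rank := by rw [hrank]; norm_num
  have hinj : ∀ i < chevF4.rank, ∀ j < chevF4.rank, i ≠ j → r i ≠ r j :=
    fun i hi j hj hij h => hij (hr_inj i hi j hj h)
  have hcert := f4_perm_cert (r 0) (hr_lt 0 l0) (r 1) (hr_lt 1 l1) (r 2) (hr_lt 2 l2)
    (r 3) (hr_lt 3 l3) (hinj 0 l0 1 l1 (by norm_num)) (hinj 0 l0 2 l2 (by norm_num))
    (hinj 0 l0 3 l3 (by norm_num)) (hinj 1 l1 2 l2 (by norm_num))
    (hinj 1 l1 3 l3 (by norm_num)) (hinj 2 l2 3 l3 (by norm_num))
    (hadj 0 l0 1 l1 (by norm_num)) (hadj 0 l0 2 l2 (by norm_num))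
    (hadj 0 l0 3 l3 (by norm_num)) (hadj 1 l1 2 l2 (by norm_num))
    (hadj 1 l1 3 l3 (by norm_num)) (hadj 2 l2 3 l3 (by norm_num))
  rcases hcert with ⟨e0, e1, e2, e3⟩ | ⟨e0, e1, e2, e3⟩
  · apply aut_sigma_id chevF4 hD r s _ hrel
    intro i hi
    rw [hrank] at hi
    interval_cases i <;> assumption
  · have hr : ∀ i < 4, r i = 3 - i := by
      intro i hi
      interval_cases i <;> assumption
    constructor
    · intro i hi j hj hij
      rw [hrank] at hi hj
      rw [hr i hi, hr j hj]
      exact f4_bonds_cert i hi j hj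
    · have c10 : chevF4.cartan 1 (chevF4.simple 0) = -1 := by decide +kernel
      have c23 : chevF4.cartan 2 (chevF4.simple 3) = -1 := by decide +kernel
      have c32 : chevF4.cartan 3 (chevF4.simple 2) = -1 := by decide +kernel
      have c01 : chevF4.cartan 0 (chevF4.simple 1) = -1 := by decide +kernel
      have c21 : chevF4.cartan 2 (chevF4.simple 1) = -1 := by decide +kernel
      have c12 : chevF4.cartan 1 (chevF4.simple 2) = -((2 : ℕ) : ℤ) := by decide +kernel
      have L0 : chevF4.isLong (chevF4.simple 0) = false := by decide +kernel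
      have L1 : chevF4.isLong (chevF4.simple 1) = false := by decide +kernel
      have L2 : chevF4.isLong (chevF4.simple 2) = true := by decide +kernel
      have L3 : chevF4.isLong (chevF4.simple 3) = true := by decide +kernel
      have h23 : ∀ t, s 2 t = s 3 t := by
        intro t
        by_cases ht : t = 0
        · rw [ht, map_zero, map_zero]
        · have h2 := hrel 2 l2 3 l3 t ht
          rw [e2, e3, c10, c23, zpow_neg, zpow_neg, zpow_one, zpow_one, inv_inj] at h2
          exact h2
      have h01 : ∀ t, s 0 t = s 1 t := by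
        intro t
        by_cases ht : t = 0
        · rw [ht, map_zero, map_zero]
        · have h2 := hrel 0 l0 1 l1 t ht
          rw [e0, e1, c32, c01, zpow_neg, zpow_neg, zpow_one, zpow_one, inv_inj] at h2
          exact h2
      have h12 : ∀ t, s 1 t = (s 3 t) ^ 2 := by
        intro t
        rw [← h23]
        by_cases ht : t = 0
        · rw [ht, map_zero, map_zero]
          norm_num
        · have h2 := hrel 1 l1 2 l2 t ht
          rw [e1, e2, c21, c12, zpow_neg, zpow_neg, zpow_one, zpow_natCast, inv_inj] at h2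
          exact h2
      have hpc := aut_pow_char (s 1) (s 3) 2 (Or.inl rfl) h12
      refine ⟨s 3, fun i hi t => ?_⟩
      rw [hrank] at hi
      interval_cases i
      · rw [e0]
        have e : chevF4.graphExp (ringChar F) 0 3 = ringChar F := by
          unfold ChevalleyDatum.graphExp
          simp [L0, L3]
        rw [e, h01]
        exact hpc t
      · rw [e1]
        have e : chevF4.graphExp (ringChar F) 1 2 = ringChar F := by
          unfold ChevalleyDatum.graphExp
          simp [L1, L2]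
        rw [e]
        exact hpc t
      · rw [e2]
        have e : chevF4.graphExp (ringChar F) 2 1 = 1 := by
          unfold ChevalleyDatum.graphExp
          simp [L1, L2]
        rw [e, pow_one]
        exact h23 t
      · rw [e3]
        have e : chevF4.graphExp (ringChar F) 3 0 = 1 := by
          unfold ChevalleyDatum.graphExp
          simp [L0, L3]
        rw [e, pow_one]

/-- the permutation is a symmetry of the diagram and the field automorphisms are powers of
one of them -/
theorem aut_sigma [Finite F] (D : ChevalleyDatum)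
    (hD : D ∈ [chevG2, chevB2, chevD4, chevF4, chevE6, chevE7, chevE8])
    (r : ℕ → ℕ) (s : ℕ → F ≃+* F)
    (hr_lt : ∀ i < D.rank, r i < D.rank)
    (hr_inj : ∀ i < D.rank, ∀ j < D.rank, r i = r j → i = j)
    (hadj : ∀ i < D.rank, ∀ j < D.rank, i ≠ j →
      (D.cartan i (D.simple j) = 0 ↔ D.cartan (r i) (D.simple (r j)) = 0))
    (hrel : ∀ i < D.rank, ∀ j < D.rank, ∀ t : F, t ≠ 0 →
      (s i t) ^ D.cartan (r i) (D.simple (r j)) = (s j t) ^ D.cartan i (D.simple j)) :
    (∀ i < D.rank, ∀ j < D.rank, i ≠ j → D.bonds (r i) (r j) = D.bonds i j) ∧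
    ∃ τ : F ≃+* F, ∀ i < D.rank, ∀ t : F,
      s i t = (τ t) ^ D.graphExp (ringChar F) i (r i) := by
  have hD' := hD
  simp only [List.mem_cons, List.not_mem_nil, or_false] at hD'
  rcases hD' with rfl | rfl | rfl | rfl | rfl | rfl | rfl
  · exact aut_sigma_rk2 chevG2 hD rfl (by decide +kernel) 3 (Or.inr rfl) (by decide +kernel)
      (by decide +kernel) (by decide +kernel) r s hr_lt hr_inj hrel
  · exact aut_sigma_rk2 chevB2 hD rfl (by decide +kernel) 2 (Or.inl rfl) (by decide +kernel)
      (by decide +kernel) (by decide +kernel) r s hr_lt hr_inj hrel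
  · exact aut_sigma_sl chevD4 hD slOK_D4 r s hr_lt hr_inj hadj hrel
  · exact aut_sigma_F4 hD r s hr_lt hr_inj hadj hrel
  · exact aut_sigma_sl chevE6 hD slOK_E6 r s hr_lt hr_inj hadj hrel
  · exact aut_sigma_sl chevE7 hD slOK_E7 r s hr_lt hr_inj hadj hrel
  · exact aut_sigma_sl chevE8 hD slOK_E8 r s hr_lt hr_inj hadj hrel

end Cfsg.Agent.Lib.helper11
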