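import Cfsg.Agent.Lib.helper11d.Aut7

/-! The decomposition of an automorphism of a finite Chevalley group: the assembly. -/

set_option autoImplicit false

namespace Cfsg.Agent.Lib.helper11

open Cfsg Cfsg.Lie Cfsg.Agent.Lib.helper2
open scoped Pointwise

variable {F : Type*} [Field F]

/-- every automorphism of a finite Chevalley group is a product of an inner, a diagonal, a
graph and a field automorphism -/
theorem aut_main [Finite F] (D : ChevalleyDatum)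
    (hD : D ∈ [chevG2, chevB2, chevD4, chevF4, chevE6, chevE7, chevE8])
    (θ : MulAut ↥(D.group F)) :
    ∃ (x : ↥(D.group F)) (d g f : ↥(D.group F) ≃* ↥(D.group F)),
      D.IsDiagonalAut d ∧ D.IsGraphAut g ∧ D.IsFieldAut f ∧
        ∀ y : ↥(D.group F), θ y = x * d (g (f y)) * x⁻¹ := by
  obtain ⟨hnx, hcert, htri, hup, hcm'⟩ := certs_of_mem F D hD
  obtain ⟨y₀, hy1, hy2⟩ := aut_normalize D hD θ
  obtain ⟨θ₀, hθ₀⟩ : ∃ θ₀ : MulAut ↥(D.group F), θ₀ = MulAut.conj y₀ * θ := ⟨_, rfl⟩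
  have hθ₀_apply : ∀ g, θ₀ g = y₀ * θ g * y₀⁻¹ := fun g => by
    rw [hθ₀, MulAut.mul_apply, MulAut.conj_apply]
  have hN : AutNorm D θ₀ :=
    ⟨fun g hg => by rw [hθ₀_apply]; exact hy1 g hg,
      fun g hg => by rw [hθ₀_apply]; exact hy2 g hg⟩
  obtain ⟨ρ, hρ⟩ := aut_perm D hD θ₀ hN
  obtain ⟨c, σ, hcσ⟩ := aut_field D hD θ₀ hN ρ hρ
  -- the diagonal automorphism
  obtain ⟨cN, hcNdef⟩ : ∃ cN : ℕ → Fˣ,
      cN = fun j => if h : j < D.rank then c (ρ.symm ⟨j, h⟩) else 1 := ⟨_, rfl⟩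
  have hcN : ∀ i : Fin D.rank, cN (ρ i) = c i := by
    intro i
    rw [hcNdef]
    show (if h : (ρ i : ℕ) < D.rank then c (ρ.symm ⟨(ρ i : ℕ), h⟩) else 1) = c i
    rw [dif_pos (ρ i).2]
    congr 1
    exact ρ.symm_apply_apply i
  obtain ⟨χ, hχdef⟩ : ∃ χ : ℕ → Fˣ, χ = cwChar D cN := ⟨_, rfl⟩
  have hχ : D.IsRootCharacter χ := by
    rw [hχdef]
    exact cwChar_isRoot D hD cN
  have hχs : ∀ i : Fin D.rank, χ (D.simple (ρ i)) = c i := fun i => by
    rw [hχdef, cwChar_simple D hD cN _ (ρ i).2, hcN]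
  obtain ⟨d, hd⟩ : ∃ d : MulAut ↥(D.group F), d = diagAut D hD χ hχ := ⟨_, rfl⟩
  obtain ⟨θ₃, hθ₃⟩ : ∃ θ₃ : MulAut ↥(D.group F), θ₃ = d⁻¹ * θ₀ := ⟨_, rfl⟩
  have hE : ∀ (i : Fin D.rank) (t : F),
      θ₃ (xG D hD (D.simple i) t) = xG D hD (D.simple (ρ i)) (σ i t) ∧
      θ₃ (xG D hD (D.neg (D.simple i)) t) = xG D hD (D.neg (D.simple (ρ i))) (σ i t) := by
    intro i t
    have hlt := simple_lt D hcert (ρ i) (ρ i).2
    have hlt' := neg_lt' D hD hnx _ hlt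
    constructor
    · rw [hθ₃, MulAut.mul_apply, (hcσ i t).1, hd, diagAut_inv_xG D hD χ hχ _ hlt, hχs]
      congr 1
      rw [← mul_assoc, ← Units.val_mul, inv_mul_cancel, Units.val_one, one_mul]
    · rw [hθ₃, MulAut.mul_apply, (hcσ i t).2, hd, diagAut_inv_xG D hD χ hχ _ hlt',
        hχ.1 _ hlt, hχs, inv_inv]
      congr 1
      rw [← mul_assoc, ← Units.val_mul, mul_inv_cancel, Units.val_one, one_mul]
  obtain ⟨hadj, hrel⟩ := aut_rel D hD θ₃ ρ σ hE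
  -- data indexed by natural numbers
  obtain ⟨r, hrdef⟩ : ∃ r : ℕ → ℕ,
      r = fun i => if h : i < D.rank then (ρ ⟨i, h⟩ : ℕ) else i := ⟨_, rfl⟩
  obtain ⟨s, hsdef⟩ : ∃ s : ℕ → F ≃+* F,
      s = fun i => if h : i < D.rank then σ ⟨i, h⟩ else RingEquiv.refl F := ⟨_, rfl⟩
  have hr : ∀ i : Fin D.rank, r i = (ρ i : ℕ) := fun i => by
    rw [hrdef]
    show (if h : (i : ℕ) < D.rank then (ρ ⟨i, h⟩ : ℕ) else (i : ℕ)) = _
    rw [dif_pos i.2]
  have hs : ∀ i : Fin D.rank, s i = σ i := fun i => by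
    rw [hsdef]
    show (if h : (i : ℕ) < D.rank then σ ⟨i, h⟩ else RingEquiv.refl F) = _
    rw [dif_pos i.2]
  obtain ⟨hbonds, τ, hτ⟩ := aut_sigma D hD r s
    (fun i hi => by
      have := hr ⟨i, hi⟩
      rw [this]
      exact (ρ ⟨i, hi⟩).2)
    (fun i hi j hj h => by
      have h1 := hr ⟨i, hi⟩
      have h2 := hr ⟨j, hj⟩
      have h3 : (ρ ⟨i, hi⟩ : ℕ) = (ρ ⟨j, hj⟩ : ℕ) := by rw [← h1, ← h2]; exact h
      have := ρ.injective (Fin.ext h3)
      exact congrArg Fin.val this)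
    (fun i hi j hj hij => by
      have h1 := hr ⟨i, hi⟩
      have h2 := hr ⟨j, hj⟩
      have h3 := hadj ⟨i, hi⟩ ⟨j, hj⟩ (fun h => hij (congrArg Fin.val h))
      rw [← h1, ← h2] at h3
      exact h3)
    (fun i hi j hj t ht => by
      have h1 := hr ⟨i, hi⟩
      have h2 := hr ⟨j, hj⟩
      have h3 := hs ⟨i, hi⟩
      have h4 := hs ⟨j, hj⟩
      have h5 := hrel ⟨i, hi⟩ ⟨j, hj⟩ t ht
      rw [← h1, ← h2, ← h3, ← h4] at h5
      exact h5)
  obtain ⟨f, hf⟩ : ∃ f : MulAut ↥(D.group F), f = fieldAut D τ := ⟨_, rfl⟩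
  obtain ⟨g, hg⟩ : ∃ g : MulAut ↥(D.group F), g = θ₃ * f⁻¹ := ⟨_, rfl⟩
  have hστ : ∀ (i : Fin D.rank) (u : F),
      σ i u = (τ u) ^ D.graphExp (ringChar F) i (ρ i) := by
    intro i u
    have := hτ i i.2 u
    rw [hs i, hr i] at this
    exact this
  refine ⟨y₀⁻¹, d, g, f, ?_, ⟨ρ, ?_, ?_⟩, ?_, ?_⟩
  · rw [hd]
    exact diagAut_isDiag D hD χ hχ
  · intro i j hij
    have := hbonds i i.2 j j.2 (fun h => hij (Fin.ext h))
    rw [hr i, hr j] at this
    exact this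
  · intro y i t
    constructor
    · intro hy
      have hy' : y = xG D hD (D.simple i) t := Subtype.ext (Units.ext hy)
      rw [hy', hg, MulAut.mul_apply, hf, fieldAut_inv_xG, (hE i _).1, hστ,
        RingEquiv.apply_symm_apply]
      rfl
    · intro hy
      have hy' : y = xG D hD (D.neg (D.simple i)) t := Subtype.ext (Units.ext hy)
      rw [hy', hg, MulAut.mul_apply, hf, fieldAut_inv_xG, (hE i _).2, hστ,
        RingEquiv.apply_symm_apply]
      rfl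
  · rw [hf]
    exact fieldAut_isField D τ
  · intro y
    have h1 : d (g (f y)) = θ₀ y := by
      rw [hg, hθ₃, MulAut.mul_apply, MulAut.mul_apply, MulAut.inv_apply_self,
        MulAut.apply_inv_self]
    rw [h1, hθ₀_apply]
    group

end Cfsg.Agent.Lib.helper11
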