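import Cfsg.Agent.Lib.helper11d.Aut8
import Cfsg.Prelude.Def_KGroupFacts

/-! Outer automorphisms of the Chevalley groups of type `E₈` over finite fields. -/

set_option autoImplicit false

namespace Cfsg.Agent.Lib.helper11

open Cfsg Cfsg.Lie Cfsg.Agent.Lib.helper2
open scoped Pointwise

/-- the number of ring automorphisms of a finite field -/
theorem aut_ringAut_card {F : Type*} [Field F] [Fintype F] (p f : ℕ) [Fact p.Prime] [CharP F p]
    (hF : Fintype.card F = p ^ f) : Nat.card (F ≃+* F) = f := by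
  letI : Algebra (ZMod p) F := ZMod.algebra F p
  let e : (F ≃ₐ[ZMod p] F) →* (F ≃+* F) :=
    { toFun := fun a => a.toRingEquiv
      map_one' := rfl
      map_mul' := fun a b => rfl }
  have hsurj : Function.Surjective e := by
    intro σ
    refine ⟨AlgEquiv.ofRingEquiv (f := σ) (fun r => ?_), ?_⟩
    · exact RingHom.congr_fun (Subsingleton.elim
        ((σ : F →+* F).comp (algebraMap (ZMod p) F)) (algebraMap (ZMod p) F)) r
    · ext x
      rfl
  have hinj : Function.Injective e := by
    intro a b h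
    ext x
    exact RingEquiv.congr_fun h x
  rw [← Nat.card_congr (Equiv.ofBijective e ⟨hinj, hsurj⟩), IsGalois.card_aut_eq_finrank]
  have h1 := Module.card_eq_pow_finrank (K := ZMod p) (V := F)
  rw [ZMod.card, hF] at h1
  exact (Nat.pow_right_injective (Fact.out : p.Prime).two_le h1).symm

variable {F : Type*} [Field F]

theorem aut_prod_zpow {G : Type*} [CommGroup G] (c : G) (f : ℕ → ℤ) (n : ℕ) :
    ∏ i ∈ Finset.range n, c ^ f i = c ^ ((List.range n).map f).sum := by
  induction n with
  | zero => simp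
  | succ n ih =>
    rw [Finset.prod_range_succ, ih, List.range_succ, List.map_append, List.sum_append,
      List.map_singleton, List.sum_singleton, zpow_add]

/-- the product `h_{p_0}(t_0) ⋯ h_{p_{n-1}}(t_{n-1})` -/
def hProd (D : ChevalleyDatum)
    (hD : D ∈ [chevG2, chevB2, chevD4, chevF4, chevE6, chevE7, chevE8]) (t : ℕ → Fˣ) :
    ℕ → ↥(D.group F)
  | 0 => 1
  | n + 1 => hProd D hD t n * hG D hD n (t n : F)

theorem hProd_conj (D : ChevalleyDatum)
    (hD : D ∈ [chevG2, chevB2, chevD4, chevF4, chevE6, chevE7, chevE8]) (t : ℕ → Fˣ)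
    (n : ℕ) (hn : n ≤ D.rank) (s : ℕ) (hs : s < D.nroots) (u : F) :
    hProd D hD t n * xG D hD s u * (hProd D hD t n)⁻¹ =
      xG D hD s (((∏ k ∈ Finset.range n, t k ^ D.cartan k s : Fˣ) : F) * u) := by
  induction n generalizing u with
  | zero =>
    show (1 : ↥(D.group F)) * xG D hD s u * (1 : ↥(D.group F))⁻¹ = _
    rw [one_mul, inv_one, mul_one, Finset.prod_range_zero, Units.val_one, one_mul]
  | succ n ih =>
    have hh : hG D hD n (t n : F) * xG D hD s u * (hG D hD n (t n : F))⁻¹ =
        xG D hD s ((t n : F) ^ D.cartan n s * u) :=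
      Subtype.ext (aut_hU_conj D hD n (by omega) (t n : F) (Units.ne_zero _) s hs u)
    show hProd D hD t n * hG D hD n (t n : F) * xG D hD s u *
      (hProd D hD t n * hG D hD n (t n : F))⁻¹ = _
    have e : hProd D hD t n * hG D hD n (t n : F) * xG D hD s u *
        (hProd D hD t n * hG D hD n (t n : F))⁻¹ =
        hProd D hD t n * (hG D hD n (t n : F) * xG D hD s u * (hG D hD n (t n : F))⁻¹) *
          (hProd D hD t n)⁻¹ := by group
    rw [e, hh, ih (by omega), Finset.prod_range_succ, Units.val_mul, Units.val_zpow_eq_zpow_val,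
      mul_assoc]

/-- when the Cartan matrix is unimodular, diagonal automorphisms are inner -/
theorem diag_inner (D : ChevalleyDatum)
    (hD : D ∈ [chevG2, chevB2, chevD4, chevF4, chevE6, chevE7, chevE8]) (h1 : cinvD D = 1)
    (χ : ℕ → Fˣ) (hχ : D.IsRootCharacter χ) :
    ∃ h : ↥(D.group F), ∀ y : ↥(D.group F), diagAut D hD χ hχ y = h * y * h⁻¹ := by
  obtain ⟨hnx, hcert, htri, hup, hcm'⟩ := certs_of_mem F D hD
  obtain ⟨c, hc⟩ : ∃ c : ℕ → Fˣ, c = fun j => χ (D.simple j) := ⟨_, rfl⟩
  obtain ⟨t, ht⟩ : ∃ t : ℕ → Fˣ, t = fun k =>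
      ∏ j ∈ Finset.range D.rank, c j ^ ((cinvB D).getD j []).getD k 0 := ⟨_, rfl⟩
  have key : ∀ i < D.rank,
      ∏ k ∈ Finset.range D.rank, t k ^ D.cartan k (D.simple i) = c i := by
    intro i hi
    have e1 : ∀ k ∈ Finset.range D.rank, t k ^ D.cartan k (D.simple i) =
        ∏ j ∈ Finset.range D.rank,
          c j ^ (((cinvB D).getD j []).getD k 0 * D.cartan k (D.simple i)) := by
      intro k _
      rw [ht]
      show (∏ j ∈ Finset.range D.rank, c j ^ ((cinvB D).getD j []).getD k 0) ^
        D.cartan k (D.simple i) = _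
      rw [← Finset.prod_zpow]
      apply Finset.prod_congr rfl
      intro j _
      rw [zpow_mul]
    rw [Finset.prod_congr rfl e1, Finset.prod_comm]
    have e2 : ∀ j ∈ Finset.range D.rank,
        ∏ k ∈ Finset.range D.rank,
          c j ^ (((cinvB D).getD j []).getD k 0 * D.cartan k (D.simple i)) =
        c j ^ mco D (D.simple i) j := by
      intro j _
      rw [aut_prod_zpow]
      congr 1
      unfold mco
      rw [h1, Int.ediv_one]
      rfl
    rw [Finset.prod_congr rfl e2]
    exact cwChar_simple D hD c i hi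
  refine ⟨hProd D hD t D.rank, fun y => ?_⟩
  refine hom_ext_simple D hD hnx hcert (diagAut D hD χ hχ).toMonoidHom
    (MulAut.conj (hProd D hD t D.rank)).toMonoidHom ?_ y
  intro y i u hi hy
  show diagAut D hD χ hχ y = MulAut.conj (hProd D hD t D.rank) y
  rw [MulAut.conj_apply]
  have hlt := simple_lt D hcert i hi
  have hlt' := neg_lt' D hD hnx _ hlt
  rcases hy with hy | hy
  · have hy' : y = xG D hD (D.simple i) u := Subtype.ext (Units.ext hy)
    rw [hy', diagAut_xG D hD χ hχ _ hlt, hProd_conj D hD t D.rank le_rfl _ hlt, key i hi, hc]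
  · have hy' : y = xG D hD (D.neg (D.simple i)) u := Subtype.ext (Units.ext hy)
    rw [hy', diagAut_xG D hD χ hχ _ hlt', hProd_conj D hD t D.rank le_rfl _ hlt']
    have e3 : ∏ k ∈ Finset.range D.rank, t k ^ D.cartan k (D.neg (D.simple i)) = (c i)⁻¹ := by
      rw [← key i hi, ← Finset.prod_inv_distrib]
      apply Finset.prod_congr rfl
      intro k hk
      rw [cartan_neg D hD k (Finset.mem_range.mp hk) _ hlt, zpow_neg]
    rw [e3, hχ.1 _ hlt, hc]

/-- one step of the weighted walk count on the Dynkin diagram -/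
def wvStep (D : ChevalleyDatum) (v : ℕ → ℤ) (i : ℕ) : ℤ :=
  ((List.range D.rank).map fun j => D.bonds i j * v j).sum

/-- weighted count of walks of length three -/
def wv3 (D : ChevalleyDatum) : ℕ → ℤ := wvStep D (wvStep D (wvStep D (fun _ => 1)))

theorem list_sum_range_fin (n : ℕ) (f : ℕ → ℤ) :
    ((List.range n).map f).sum = ∑ j : Fin n, f j := by
  induction n with
  | zero => simp
  | succ n ih =>
    rw [List.range_succ, List.map_append, List.sum_append, ih, Fin.sum_univ_castSucc]
    simp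

theorem wvStep_perm (D : ChevalleyDatum) (hss : ∀ i < D.rank, D.cartan i (D.simple i) = 2)
    (π : Equiv.Perm (Fin D.rank)) (hπ : D.IsDiagramSymmetry π) (v : ℕ → ℤ)
    (hv : ∀ j : Fin D.rank, v (π j) = v j) (i : Fin D.rank) :
    wvStep D v (π i) = wvStep D v i := by
  unfold wvStep
  rw [list_sum_range_fin, list_sum_range_fin,
    ← Equiv.sum_comp π (fun j : Fin D.rank => D.bonds (π i) j * v j)]
  apply Finset.sum_congr rfl
  intro j _
  rw [hv j]
  by_cases hij : i = j
  · subst hij
    unfold ChevalleyDatum.bonds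
    rw [hss _ (π i).2, hss _ i.2]
  · rw [hπ i j hij]

theorem wv3_perm (D : ChevalleyDatum) (hss : ∀ i < D.rank, D.cartan i (D.simple i) = 2)
    (π : Equiv.Perm (Fin D.rank)) (hπ : D.IsDiagramSymmetry π) (i : Fin D.rank) :
    wv3 D (π i) = wv3 D i :=
  wvStep_perm D hss π hπ _ (fun j => wvStep_perm D hss π hπ _
    (fun j => wvStep_perm D hss π hπ _ (fun _ => rfl) j) j) i

theorem wv3_E8 : ∀ i < 8, wv3 chevE8 i =
    ([140, 153, 215, 280, 229, 216, 202, 139] : List ℤ).getD i 0 := by
  decide +kernel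

theorem wv3_E8_inj : ∀ i < 8, ∀ j < 8,
    ([140, 153, 215, 280, 229, 216, 202, 139] : List ℤ).getD i 0 =
      ([140, 153, 215, 280, 229, 216, 202, 139] : List ℤ).getD j 0 → i = j := by
  decide

/-- the Dynkin diagram of type `E₈` has no symmetry -/
theorem e8_symm_trivial (π : Equiv.Perm (Fin chevE8.rank)) (hπ : chevE8.IsDiagramSymmetry π)
    (i : Fin chevE8.rank) : π i = i := by
  have hD : chevE8 ∈ [chevG2, chevB2, chevD4, chevF4, chevE6, chevE7, chevE8] := by simp
  have hss := cartanSS_spec chevE8 (cartanSS_of_mem chevE8 hD)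
  have h := wv3_perm chevE8 hss π hπ i
  have hi : (i : ℕ) < 8 := i.2
  have hpi : (π i : ℕ) < 8 := (π i).2
  rw [wv3_E8 _ hpi, wv3_E8 _ hi] at h
  exact Fin.ext (wv3_E8_inj _ hpi _ hi h)

/-- a field automorphism is the standard one -/
theorem isField_eq (D : ChevalleyDatum)
    (hD : D ∈ [chevG2, chevB2, chevD4, chevF4, chevE6, chevE7, chevE8])
    (f : MulAut ↥(D.group F)) (τ : F ≃+* F)
    (hf : ∀ (g : ↥(D.group F)) (r : ℕ) (t : F), r < D.nroots →
      ((g : GL D.Idx F) : Matrix D.Idx D.Idx F) = D.x F r t →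
      ((f g : GL D.Idx F) : Matrix D.Idx D.Idx F) = D.x F r (τ t)) (y : ↥(D.group F)) :
    f y = fieldAut D τ y := by
  obtain ⟨hnx, hcert, htri, hup, hcm'⟩ := certs_of_mem F D hD
  refine hom_ext_simple D hD hnx hcert f.toMonoidHom (fieldAut D τ).toMonoidHom ?_ y
  intro y i u hi hy
  show f y = fieldAut D τ y
  have hlt := simple_lt D hcert i hi
  have hlt' := neg_lt' D hD hnx _ hlt
  rcases hy with hy | hy
  · have hy' : y = xG D hD (D.simple i) u := Subtype.ext (Units.ext hy)
    rw [hy', fieldAut_xG]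
    exact Subtype.ext (Units.ext (hf _ _ u hlt rfl))
  · have hy' : y = xG D hD (D.neg (D.simple i)) u := Subtype.ext (Units.ext hy)
    rw [hy', fieldAut_xG]
    exact Subtype.ext (Units.ext (hf _ _ u hlt' rfl))

/-- the outer automorphism group of `E₈(q)` -/
theorem out_card_E8 {F : Type*} [Field F] [Fintype F] (p f : ℕ) [Fact p.Prime] [CharP F p]
    (hF : Fintype.card F = p ^ f) : Nat.card (Cfsg.Out ↥(chevE8.group F)) = f := by
  have hD : chevE8 ∈ [chevG2, chevB2, chevD4, chevF4, chevE6, chevE7, chevE8] := by simp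
  obtain ⟨hnx, hcert, htri, hup, hcm'⟩ := certs_of_mem F chevE8 hD
  have hc := aut_ringAut_card (F := F) p f hF
  rw [← hc]
  symm
  apply Nat.card_eq_of_bijective (fun σ : F ≃+* F =>
    (QuotientGroup.mk (fieldAut chevE8 σ) : Cfsg.Out ↥(chevE8.group F)))
  constructor
  · intro σ σ' h
    have h' : (QuotientGroup.mk (fieldAut chevE8 σ) : Cfsg.Out ↥(chevE8.group F)) =
        QuotientGroup.mk (fieldAut chevE8 σ') := h
    rw [QuotientGroup.eq] at h'
    obtain ⟨x, hx⟩ := MonoidHom.mem_range.mp h'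
    have hcomm : ∀ r < chevE8.nroots, (x : GL chevE8.Idx F) * xU chevE8 hD r 1 =
        xU chevE8 hD r 1 * (x : GL chevE8.Idx F) := by
      intro r hr
      have h1 : MulAut.conj x (xG chevE8 hD r (1 : F)) = xG chevE8 hD r 1 := by
        rw [hx, MulAut.mul_apply, fieldAut_xG, fieldAut_inv_xG, map_one, map_one]
      rw [MulAut.conj_apply] at h1
      have h2 : x * xG chevE8 hD r (1 : F) = xG chevE8 hD r 1 * x := by
        calc x * xG chevE8 hD r (1 : F) = x * xG chevE8 hD r 1 * x⁻¹ * x := by group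
          _ = xG chevE8 hD r 1 * x := by rw [h1]
      exact congrArg Subtype.val h2
    have hx1 : (x : GL chevE8.Idx F) = 1 := fld_cen_trivial chevE8 hD _ x.2 hcomm
    have hx1' : x = 1 := Subtype.ext hx1
    rw [hx1', map_one] at hx
    have h3 : fieldAut (F := F) chevE8 σ = fieldAut chevE8 σ' := inv_mul_eq_one.mp hx.symm
    apply RingEquiv.ext
    intro u
    have h0 : 0 < chevE8.nroots := by decide
    have h4 : fieldAut chevE8 σ (xG chevE8 hD 0 u) = fieldAut chevE8 σ' (xG chevE8 hD 0 u) := by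
      rw [h3]
    rw [fieldAut_xG, fieldAut_xG] at h4
    exact xG_inj chevE8 hD 0 h0 _ _ h4
  · intro o
    obtain ⟨θ, rfl⟩ := QuotientGroup.mk_surjective o
    obtain ⟨x, d, g, f', hd, hg, hf, hθ⟩ := aut_main chevE8 hD θ
    obtain ⟨τ, hτ⟩ := hf
    obtain ⟨π, hπ, hgπ⟩ := hg
    obtain ⟨χ, hχ, hdχ⟩ := hd
    obtain ⟨h, hh⟩ := diag_inner chevE8 hD (by decide) χ hχ
    refine ⟨τ, ?_⟩
    have hg1 : ∀ y, g y = y := by
      intro y
      refine hom_ext_simple chevE8 hD hnx hcert g.toMonoidHom (MonoidHom.id _) ?_ y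
      intro y i u hi hy
      show g y = y
      have hπi := e8_symm_trivial π hπ ⟨i, hi⟩
      rcases hy with hy | hy
      · have h1 := (hgπ y ⟨i, hi⟩ u).1 hy
        rw [hπi, graphExp_self, pow_one] at h1
        exact Subtype.ext (Units.ext (h1.trans hy.symm))
      · have h1 := (hgπ y ⟨i, hi⟩ u).2 hy
        rw [hπi, graphExp_self, pow_one] at h1
        exact Subtype.ext (Units.ext (h1.trans hy.symm))
    have hd1 : ∀ y, d y = h * y * h⁻¹ := by
      intro y
      rw [← hh y]
      exact Subtype.ext (Units.ext (hdχ y))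
    have hθ' : θ = MulAut.conj (x * h) * fieldAut chevE8 τ := by
      ext y
      rw [hθ y, hg1, hd1, isField_eq chevE8 hD f' τ hτ y, MulAut.mul_apply, MulAut.conj_apply]
      group
    show (QuotientGroup.mk (fieldAut chevE8 τ) : Cfsg.Out ↥(chevE8.group F)) =
      QuotientGroup.mk θ
    rw [hθ', QuotientGroup.mk_mul]
    have h1 : (QuotientGroup.mk (MulAut.conj (x * h)) : Cfsg.Out ↥(chevE8.group F)) = 1 :=
      (QuotientGroup.eq_one_iff _).mpr ⟨x * h, rfl⟩
    rw [h1, one_mul]

end Cfsg.Agent.Lib.helper11
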