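import Cfsg.Agent.Lib.helper11d.Aut3
import Cfsg.Agent.Lib.helper11.ChevGL2

/-! Table certificates for the automorphism theorem. -/

set_option autoImplicit false

namespace Cfsg.Agent.Lib.helper11

open Cfsg Cfsg.Lie

/-- the longest element exchanges the negatives of the fundamental roots and the fundamental
roots -/
def w0sOK (D : ChevalleyDatum) (l : List ℕ) : Bool :=
  ((List.range D.rank).all fun j => (List.range D.rank).any fun i =>
    decide (wAct D l (D.neg (D.simple j)) = D.simple i)) &&
  ((List.range D.rank).all fun i => (List.range D.rank).any fun j =>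
    decide (wAct D l (D.neg (D.simple j)) = D.simple i))

theorem w0sOK_spec (D : ChevalleyDatum) (l : List ℕ) (h : w0sOK D l = true) :
    (∀ j < D.rank, ∃ i < D.rank, wAct D l (D.neg (D.simple j)) = D.simple i) ∧
    (∀ i < D.rank, ∃ j < D.rank, wAct D l (D.neg (D.simple j)) = D.simple i) := by
  unfold w0sOK at h
  simp only [Bool.and_eq_true, List.all_eq_true, List.any_eq_true, List.mem_range,
    decide_eq_true_eq] at h
  exact h

/-- commutation of fundamental root elements -/
def commOKs (D : ChevalleyDatum) : Bool :=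
  (List.range D.rank).all fun i => (List.range D.rank).all fun j =>
    decide (i = j) || ((D.commTerms (D.simple i) (D.neg (D.simple j))).isEmpty &&
      (!decide (D.cartan i (D.simple j) = 0) || (D.commTerms (D.simple i) (D.simple j)).isEmpty))

theorem commOKs_spec (D : ChevalleyDatum) (h : commOKs D = true) (i j : ℕ) (hi : i < D.rank)
    (hj : j < D.rank) (hij : i ≠ j) :
    D.commTerms (D.simple i) (D.neg (D.simple j)) = [] ∧
    (D.cartan i (D.simple j) = 0 → D.commTerms (D.simple i) (D.simple j) = []) := by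
  unfold commOKs at h
  rw [List.all_eq_true] at h
  have h1 := h i (List.mem_range.mpr hi)
  rw [List.all_eq_true] at h1
  have h2 := h1 j (List.mem_range.mpr hj)
  simp only [Bool.or_eq_true, Bool.and_eq_true, decide_eq_true_eq, List.isEmpty_iff,
    Bool.not_eq_true', decide_eq_false_iff_not] at h2
  rcases h2 with h2 | ⟨h3, h4⟩
  · exact absurd h2 hij
  · refine ⟨h3, fun h0 => ?_⟩
    rcases h4 with h4 | h4
    · exact absurd h0 h4
    · exact h4

/-- reflections move adjacent fundamental roots -/
def reflOKs (D : ChevalleyDatum) : Bool :=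
  (List.range D.rank).all fun i => (List.range D.rank).all fun j =>
    decide (i = j) ||
      ((decide (D.cartan j (D.simple i) = 0) == decide (D.cartan i (D.simple j) = 0)) &&
      (decide (D.cartan j (D.simple i) = 0) ||
        !decide (D.reflectRoot j (D.simple i) = D.simple i)))

theorem reflOKs_spec (D : ChevalleyDatum) (h : reflOKs D = true) (i j : ℕ) (hi : i < D.rank)
    (hj : j < D.rank) (hij : i ≠ j) :
    (D.cartan j (D.simple i) = 0 ↔ D.cartan i (D.simple j) = 0) ∧
    (D.cartan j (D.simple i) ≠ 0 → D.reflectRoot j (D.simple i) ≠ D.simple i) := by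
  unfold reflOKs at h
  rw [List.all_eq_true] at h
  have h1 := h i (List.mem_range.mpr hi)
  rw [List.all_eq_true] at h1
  have h2 := h1 j (List.mem_range.mpr hj)
  simp only [Bool.or_eq_true, Bool.and_eq_true, decide_eq_true_eq, beq_iff_eq,
    Bool.not_eq_true', decide_eq_false_iff_not, decide_eq_decide] at h2
  rcases h2 with h2 | ⟨h3, h4⟩
  · exact absurd h2 hij
  · refine ⟨h3, fun h0 => ?_⟩
    rcases h4 with h4 | h4
    · exact absurd h4 h0
    · exact h4

/-- a multiple of the inverse of the Cartan matrix -/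
def cinvB (D : ChevalleyDatum) : List (List ℤ) :=
  if D.nroots = 12 then [[2, 3], [1, 2]]
  else if D.nroots = 8 then [[2, 2], [1, 2]]
  else if D.nroots = 24 then [[2, 2, 1, 1], [2, 4, 2, 2], [1, 2, 2, 1], [1, 2, 1, 2]]
  else if D.nroots = 48 then [[2, 3, 4, 2], [3, 6, 8, 4], [2, 4, 6, 3], [1, 2, 3, 2]]
  else if D.nroots = 72 then [[4, 3, 5, 6, 4, 2], [3, 6, 6, 9, 6, 3], [5, 6, 10, 12, 8, 4], [6, 9, 12, 18, 12, 6], [4, 6, 8, 12, 10, 5], [2, 3, 4, 6, 5, 4]]
  else if D.nroots = 126 then [[4, 4, 6, 8, 6, 4, 2], [4, 7, 8, 12, 9, 6, 3], [6, 8, 12, 16, 12, 8, 4], [8, 12, 16, 24, 18, 12, 6], [6, 9, 12, 18, 15, 10, 5], [4, 6, 8, 12, 10, 8, 4], [2, 3, 4, 6, 5, 4, 3]]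
  else [[4, 5, 7, 10, 8, 6, 4, 2], [5, 8, 10, 15, 12, 9, 6, 3], [7, 10, 14, 20, 16, 12, 8, 4], [10, 15, 20, 30, 24, 18, 12, 6], [8, 12, 16, 24, 20, 15, 10, 5], [6, 9, 12, 18, 15, 12, 8, 4], [4, 6, 8, 12, 10, 8, 6, 3], [2, 3, 4, 6, 5, 4, 3, 2]]

/-- the multiplier -/
def cinvD (D : ChevalleyDatum) : ℤ :=
  if D.nroots = 12 then 1
  else if D.nroots = 8 then 2
  else if D.nroots = 24 then 2
  else if D.nroots = 48 then 1
  else if D.nroots = 72 then 3
  else if D.nroots = 126 then 2
  else 1

/-- `cinvD` times the coefficient of the fundamental root `p_j` in the root `r` -/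
def mnum (D : ChevalleyDatum) (r j : ℕ) : ℤ :=
  ((List.range D.rank).map fun i => ((cinvB D).getD j []).getD i 0 * D.cartan i r).sum

/-- coefficient of the fundamental root `p_j` in the root `r` -/
def mco (D : ChevalleyDatum) (r j : ℕ) : ℤ := mnum D r j / cinvD D

def mdivOK (D : ChevalleyDatum) : Bool :=
  (List.range D.nroots).all fun r => (List.range D.rank).all fun j =>
    decide (mnum D r j % cinvD D = 0)

theorem mdivOK_spec (D : ChevalleyDatum) (h : mdivOK D = true) (r j : ℕ) (hr : r < D.nroots)
    (hj : j < D.rank) : cinvD D ∣ mnum D r j := by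
  unfold mdivOK at h
  rw [List.all_eq_true] at h
  have h1 := h r (List.mem_range.mpr hr)
  rw [List.all_eq_true] at h1
  have h2 := h1 j (List.mem_range.mpr hj)
  rw [decide_eq_true_eq] at h2
  exact Int.dvd_of_emod_eq_zero h2

theorem mnum_neg (D : ChevalleyDatum)
    (hD : D ∈ [chevG2, chevB2, chevD4, chevF4, chevE6, chevE7, chevE8]) (r : ℕ)
    (hr : r < D.nroots) (j : ℕ) : mnum D (D.neg r) j = - mnum D r j := by
  unfold mnum
  have h1 : (List.range D.rank).map (fun i => ((cinvB D).getD j []).getD i 0 *
      D.cartan i (D.neg r)) = (List.range D.rank).map (fun i => (-1 : ℤ) *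
      (((cinvB D).getD j []).getD i 0 * D.cartan i r)) := by
    apply List.map_congr_left
    intro i hi
    rw [cartan_neg D hD i (List.mem_range.mp hi) r hr]
    ring
  rw [h1, List.sum_map_mul_left]
  ring

theorem mnum_chain (D : ChevalleyDatum)
    (hD : D ∈ [chevG2, chevB2, chevD4, chevF4, chevE6, chevE7, chevE8]) (r s k : ℕ)
    (hr : r < D.nroots) (hk : D.chainRoot r s 1 = some k) (j : ℕ) :
    mnum D k j = mnum D r j + mnum D s j := by
  unfold mnum
  have h1 : (List.range D.rank).map (fun i => ((cinvB D).getD j []).getD i 0 *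
      D.cartan i k) = (List.range D.rank).map (fun i =>
      ((cinvB D).getD j []).getD i 0 * D.cartan i r +
      ((cinvB D).getD j []).getD i 0 * D.cartan i s) := by
    apply List.map_congr_left
    intro i hi
    rw [cartan_chainRoot D hD i (List.mem_range.mp hi) r s k hr hk]
    ring
  rw [h1, List.sum_map_add]

theorem mco_neg (D : ChevalleyDatum)
    (hD : D ∈ [chevG2, chevB2, chevD4, chevF4, chevE6, chevE7, chevE8])
    (h : mdivOK D = true) (r : ℕ) (hr : r < D.nroots) (j : ℕ) (hj : j < D.rank) :
    mco D (D.neg r) j = - mco D r j := by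
  unfold mco
  rw [mnum_neg D hD r hr j, Int.neg_ediv_of_dvd (mdivOK_spec D h r j hr hj)]

theorem mco_chain (D : ChevalleyDatum)
    (hD : D ∈ [chevG2, chevB2, chevD4, chevF4, chevE6, chevE7, chevE8])
    (h : mdivOK D = true) (r s k : ℕ) (hr : r < D.nroots)
    (hk : D.chainRoot r s 1 = some k) (j : ℕ) (hj : j < D.rank) :
    mco D k j = mco D r j + mco D s j := by
  unfold mco
  rw [mnum_chain D hD r s k hr hk j, Int.add_ediv_of_dvd_left (mdivOK_spec D h r j hr hj)]

/-- the fundamental roots have the expected coefficients -/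
def mSimpOK (D : ChevalleyDatum) : Bool :=
  (List.range D.rank).all fun j => (List.range D.rank).all fun i =>
    decide (mco D (D.simple j) i = if i = j then 1 else 0)

theorem mSimpOK_spec (D : ChevalleyDatum) (h : mSimpOK D = true) (j i : ℕ) (hj : j < D.rank)
    (hi : i < D.rank) : mco D (D.simple j) i = if i = j then 1 else 0 := by
  unfold mSimpOK at h
  rw [List.all_eq_true] at h
  have h1 := h j (List.mem_range.mpr hj)
  rw [List.all_eq_true] at h1
  have h2 := h1 i (List.mem_range.mpr hi)
  rwa [decide_eq_true_eq] at h2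

/-- a spanning tree of the Dynkin diagram, rooted at node `0` -/
def autParent (D : ChevalleyDatum) (i : ℕ) : ℕ :=
  if D.nroots = 12 then 0 else if D.nroots = 8 then 0
  else if D.nroots = 24 then [0, 0, 1, 1].getD i 0
  else if D.nroots = 48 then i - 1
  else [0, 3, 0, 2, 3, 4, 5, 6].getD i 0

def connOK (D : ChevalleyDatum) : Bool :=
  (List.range D.rank).all fun i =>
    decide (autParent D i < D.rank) && decide ((autParent D)^[D.rank] i = 0) &&
    (decide (i = 0) || (decide (D.cartan (autParent D i) (D.simple i) = -1) ||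
      decide (D.cartan i (D.simple (autParent D i)) = -1)))

theorem conn_induct (D : ChevalleyDatum) (h : connOK D = true) (P : ℕ → Prop) (h0 : P 0)
    (hstep : ∀ i < D.rank, i ≠ 0 → autParent D i < D.rank →
      (D.cartan (autParent D i) (D.simple i) = -1 ∨
        D.cartan i (D.simple (autParent D i)) = -1) → P (autParent D i) → P i) :
    ∀ i < D.rank, P i := by
  have spec : ∀ i < D.rank, autParent D i < D.rank ∧ (autParent D)^[D.rank] i = 0 ∧
      (i = 0 ∨ (D.cartan (autParent D i) (D.simple i) = -1 ∨
        D.cartan i (D.simple (autParent D i)) = -1)) := by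
    intro i hi
    unfold connOK at h
    rw [List.all_eq_true] at h
    have h1 := h i (List.mem_range.mpr hi)
    simp only [Bool.and_eq_true, Bool.or_eq_true, decide_eq_true_eq] at h1
    exact ⟨h1.1.1, h1.1.2, h1.2⟩
  have key : ∀ k, ∀ i < D.rank, (autParent D)^[k] i = 0 → P i := by
    intro k
    induction k with
    | zero =>
      intro i hi hk
      rw [Function.iterate_zero, id] at hk
      rw [hk]
      exact h0
    | succ k ih =>
      intro i hi hk
      rw [Function.iterate_succ_apply] at hk
      obtain ⟨s1, -, s3⟩ := spec i hi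
      have hp := ih _ s1 hk
      by_cases hi0 : i = 0
      · rw [hi0]
        exact h0
      · rcases s3 with s3 | s3
        · exact absurd s3 hi0
        · exact hstep i hi hi0 s1 s3 hp
  exact fun i hi => key D.rank i hi (spec i hi).2.1

/-- simply laced: no long fundamental root, Cartan integers `0` or `-1` off the diagonal -/
def slOK (D : ChevalleyDatum) : Bool :=
  (List.range D.rank).all fun i => !D.isLong (D.simple i) &&
    (List.range D.rank).all fun j =>
      decide (i = j) || decide (D.cartan i (D.simple j) = 0) ||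
        decide (D.cartan i (D.simple j) = -1)

theorem slOK_spec (D : ChevalleyDatum) (h : slOK D = true) (i : ℕ) (hi : i < D.rank) :
    D.isLong (D.simple i) = false ∧ ∀ j < D.rank, i ≠ j →
      (D.cartan i (D.simple j) = 0 ∨ D.cartan i (D.simple j) = -1) := by
  unfold slOK at h
  rw [List.all_eq_true] at h
  have h1 := h i (List.mem_range.mpr hi)
  rw [Bool.and_eq_true, List.all_eq_true] at h1
  refine ⟨by simpa using h1.1, fun j hj hij => ?_⟩
  have h2 := h1.2 j (List.mem_range.mpr hj)
  simp only [Bool.or_eq_true, decide_eq_true_eq] at h2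
  rcases h2 with (h2 | h2) | h2
  · exact absurd h2 hij
  · exact Or.inl h2
  · exact Or.inr h2

theorem w0sOK_G2 : w0sOK chevG2 w0G2 = true := by decide +kernel
theorem commOKs_G2 : commOKs chevG2 = true := by decide +kernel
theorem reflOKs_G2 : reflOKs chevG2 = true := by decide +kernel
theorem mSimpOK_G2 : mSimpOK chevG2 = true := by decide +kernel
theorem connOK_G2 : connOK chevG2 = true := by decide +kernel
theorem mdivOK_G2 : mdivOK chevG2 = true := by decide +kernel

theorem w0sOK_B2 : w0sOK chevB2 w0B2 = true := by decide +kernel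
theorem commOKs_B2 : commOKs chevB2 = true := by decide +kernel
theorem reflOKs_B2 : reflOKs chevB2 = true := by decide +kernel
theorem mSimpOK_B2 : mSimpOK chevB2 = true := by decide +kernel
theorem connOK_B2 : connOK chevB2 = true := by decide +kernel
theorem mdivOK_B2 : mdivOK chevB2 = true := by decide +kernel

theorem w0sOK_D4 : w0sOK chevD4 w0D4 = true := by decide +kernel
theorem commOKs_D4 : commOKs chevD4 = true := by decide +kernel
theorem reflOKs_D4 : reflOKs chevD4 = true := by decide +kernel
theorem mSimpOK_D4 : mSimpOK chevD4 = true := by decide +kernel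
theorem connOK_D4 : connOK chevD4 = true := by decide +kernel
theorem mdivOK_D4 : mdivOK chevD4 = true := by decide +kernel
theorem slOK_D4 : slOK chevD4 = true := by decide +kernel

theorem w0sOK_F4 : w0sOK chevF4 w0F4 = true := by decide +kernel
theorem commOKs_F4 : commOKs chevF4 = true := by decide +kernel
theorem reflOKs_F4 : reflOKs chevF4 = true := by decide +kernel
theorem mSimpOK_F4 : mSimpOK chevF4 = true := by decide +kernel
theorem connOK_F4 : connOK chevF4 = true := by decide +kernel
theorem mdivOK_F4 : mdivOK chevF4 = true := by decide +kernel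

theorem w0sOK_E6 : w0sOK chevE6 w0E6 = true := by decide +kernel
theorem commOKs_E6 : commOKs chevE6 = true := by decide +kernel
theorem reflOKs_E6 : reflOKs chevE6 = true := by decide +kernel
theorem mSimpOK_E6 : mSimpOK chevE6 = true := by decide +kernel
theorem connOK_E6 : connOK chevE6 = true := by decide +kernel
theorem mdivOK_E6 : mdivOK chevE6 = true := by decide +kernel
theorem slOK_E6 : slOK chevE6 = true := by decide +kernel

theorem w0sOK_E7 : w0sOK chevE7 w0E7 = true := by decide +kernel
theorem commOKs_E7 : commOKs chevE7 = true := by decide +kernel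
theorem reflOKs_E7 : reflOKs chevE7 = true := by decide +kernel
theorem mSimpOK_E7 : mSimpOK chevE7 = true := by decide +kernel
theorem connOK_E7 : connOK chevE7 = true := by decide +kernel
theorem mdivOK_E7 : mdivOK chevE7 = true := by decide +kernel
theorem slOK_E7 : slOK chevE7 = true := by decide +kernel

theorem w0sOK_E8 : w0sOK chevE8 w0E8 = true := by decide +kernel
theorem commOKs_E8 : commOKs chevE8 = true := by decide +kernel
theorem reflOKs_E8 : reflOKs chevE8 = true := by decide +kernel
theorem mSimpOK_E8 : mSimpOK chevE8 = true := by decide +kernel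
theorem connOK_E8 : connOK chevE8 = true := by decide +kernel
theorem mdivOK_E8 : mdivOK chevE8 = true := by decide +kernel
theorem slOK_E8 : slOK chevE8 = true := by decide +kernel

theorem commOKs_of_mem (D : ChevalleyDatum)
    (hD : D ∈ [chevG2, chevB2, chevD4, chevF4, chevE6, chevE7, chevE8]) : commOKs D = true := by
  simp only [List.mem_cons, List.not_mem_nil, or_false] at hD
  rcases hD with rfl | rfl | rfl | rfl | rfl | rfl | rfl
  · exact commOKs_G2
  · exact commOKs_B2
  · exact commOKs_D4
  · exact commOKs_F4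
  · exact commOKs_E6
  · exact commOKs_E7
  · exact commOKs_E8

theorem reflOKs_of_mem (D : ChevalleyDatum)
    (hD : D ∈ [chevG2, chevB2, chevD4, chevF4, chevE6, chevE7, chevE8]) : reflOKs D = true := by
  simp only [List.mem_cons, List.not_mem_nil, or_false] at hD
  rcases hD with rfl | rfl | rfl | rfl | rfl | rfl | rfl
  · exact reflOKs_G2
  · exact reflOKs_B2
  · exact reflOKs_D4
  · exact reflOKs_F4
  · exact reflOKs_E6
  · exact reflOKs_E7
  · exact reflOKs_E8

theorem mSimpOK_of_mem (D : ChevalleyDatum)
    (hD : D ∈ [chevG2, chevB2, chevD4, chevF4, chevE6, chevE7, chevE8]) : mSimpOK D = true := by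
  simp only [List.mem_cons, List.not_mem_nil, or_false] at hD
  rcases hD with rfl | rfl | rfl | rfl | rfl | rfl | rfl
  · exact mSimpOK_G2
  · exact mSimpOK_B2
  · exact mSimpOK_D4
  · exact mSimpOK_F4
  · exact mSimpOK_E6
  · exact mSimpOK_E7
  · exact mSimpOK_E8

theorem connOK_of_mem (D : ChevalleyDatum)
    (hD : D ∈ [chevG2, chevB2, chevD4, chevF4, chevE6, chevE7, chevE8]) : connOK D = true := by
  simp only [List.mem_cons, List.not_mem_nil, or_false] at hD
  rcases hD with rfl | rfl | rfl | rfl | rfl | rfl | rfl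
  · exact connOK_G2
  · exact connOK_B2
  · exact connOK_D4
  · exact connOK_F4
  · exact connOK_E6
  · exact connOK_E7
  · exact connOK_E8

theorem mdivOK_of_mem (D : ChevalleyDatum)
    (hD : D ∈ [chevG2, chevB2, chevD4, chevF4, chevE6, chevE7, chevE8]) : mdivOK D = true := by
  simp only [List.mem_cons, List.not_mem_nil, or_false] at hD
  rcases hD with rfl | rfl | rfl | rfl | rfl | rfl | rfl
  · exact mdivOK_G2
  · exact mdivOK_B2
  · exact mdivOK_D4
  · exact mdivOK_F4
  · exact mdivOK_E6
  · exact mdivOK_E7
  · exact mdivOK_E8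

theorem aut_w0s_of_mem (D : ChevalleyDatum)
    (hD : D ∈ [chevG2, chevB2, chevD4, chevF4, chevE6, chevE7, chevE8]) :
    ∃ l : List ℕ, l.all (fun i => decide (i < D.rank)) = true ∧
      (∀ r < D.nroots, w0Row D l r = true) ∧ w0sOK D l = true := by
  simp only [List.mem_cons, List.not_mem_nil, or_false] at hD
  rcases hD with rfl | rfl | rfl | rfl | rfl | rfl | rfl
  · exact ⟨w0G2, w0l_G2, w0r_G2, w0sOK_G2⟩
  · exact ⟨w0B2, w0l_B2, w0r_B2, w0sOK_B2⟩
  · exact ⟨w0D4, w0l_D4, w0r_D4, w0sOK_D4⟩
  · exact ⟨w0F4, w0l_F4, w0r_F4, w0sOK_F4⟩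
  · exact ⟨w0E6, w0l_E6, w0r_E6, w0sOK_E6⟩
  · exact ⟨w0E7, w0l_E7, w0r_E7, w0sOK_E7⟩
  · exact ⟨w0E8, w0l_E8, w0r_E8, w0sOK_E8⟩

end Cfsg.Agent.Lib.helper11
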