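import Mathlib

/-! The flag of iterated fixed points of a `p`-subgroup of `SL_n(F)`. -/

set_option autoImplicit false

namespace Cfsg.Agent.Lib.helper11

open Matrix

section

variable {F : Type*} [Field F] {n : ℕ} (U : Subgroup (Matrix.SpecialLinearGroup (Fin n) F))

/-- the ascending series of the action of `U` on `F^n` -/
def btW : ℕ → Submodule F (Fin n → F)
  | 0 => ⊥
  | (i + 1) => ⨅ u : U, (btW i).comap
      (Matrix.mulVecLin ((u : Matrix.SpecialLinearGroup (Fin n) F) : Matrix (Fin n) (Fin n) F) -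
        LinearMap.id)

theorem mem_btW_succ (i : ℕ) (v : Fin n → F) :
    v ∈ btW U (i + 1) ↔ ∀ u ∈ U, (u : Matrix (Fin n) (Fin n) F).mulVec v - v ∈ btW U i := by
  simp only [btW, Submodule.mem_iInf, Submodule.mem_comap, LinearMap.sub_apply,
    Matrix.mulVecLin_apply, LinearMap.id_apply, Subtype.forall]

theorem btW_le_succ (i : ℕ) : btW U i ≤ btW U (i + 1) := by
  induction i with
  | zero => exact bot_le
  | succ i ih =>
    intro v hv
    rw [mem_btW_succ] at hv ⊢
    intro u hu
    exact ih (hv u hu)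

theorem btW_mono {i j : ℕ} (h : i ≤ j) : btW U i ≤ btW U j :=
  monotone_nat_of_le_succ (btW_le_succ U) h

theorem btW_map_le (g : Matrix.SpecialLinearGroup (Fin n) F)
    (hg : g ∈ Subgroup.normalizer (U : Set (Matrix.SpecialLinearGroup (Fin n) F))) (i : ℕ) :
    (btW U i).map (Matrix.mulVecLin (g : Matrix (Fin n) (Fin n) F)) ≤ btW U i := by
  induction i with
  | zero =>
    show (⊥ : Submodule F (Fin n → F)).map _ ≤ ⊥
    rw [Submodule.map_bot]
  | succ i ih =>
    rintro _ ⟨v, hv, rfl⟩
    rw [mem_btW_succ]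
    intro u hu
    have hv' := (mem_btW_succ U i v).mp hv
    have hu' : g⁻¹ * u * g ∈ U := by
      rw [Subgroup.mem_normalizer_iff.mp hg (g⁻¹ * u * g)]
      have e : g * (g⁻¹ * u * g) * g⁻¹ = u := by group
      rw [e]
      exact hu
    have h3 := hv' _ hu'
    have e : (u : Matrix (Fin n) (Fin n) F).mulVec
        (Matrix.mulVecLin (g : Matrix (Fin n) (Fin n) F) v) -
        Matrix.mulVecLin (g : Matrix (Fin n) (Fin n) F) v =
        Matrix.mulVecLin (g : Matrix (Fin n) (Fin n) F)
          (((g⁻¹ * u * g : Matrix.SpecialLinearGroup (Fin n) F) :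
            Matrix (Fin n) (Fin n) F).mulVec v - v) := by
      have hmul : u * g = g * (g⁻¹ * u * g) := by rw [mul_assoc, mul_inv_cancel_left]
      have hmat : (u : Matrix (Fin n) (Fin n) F) * (g : Matrix (Fin n) (Fin n) F) =
          (g : Matrix (Fin n) (Fin n) F) *
            ((g⁻¹ * u * g : Matrix.SpecialLinearGroup (Fin n) F) : Matrix (Fin n) (Fin n) F) := by
        rw [← Matrix.SpecialLinearGroup.coe_mul, ← Matrix.SpecialLinearGroup.coe_mul, ← hmul]
      rw [Matrix.mulVecLin_apply, Matrix.mulVecLin_apply, Matrix.mulVec_sub,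
        Matrix.mulVec_mulVec, Matrix.mulVec_mulVec, hmat]
    rw [e]
    exact ih ⟨_, h3, rfl⟩

theorem btW_map_eq (g : Matrix.SpecialLinearGroup (Fin n) F)
    (hg : g ∈ Subgroup.normalizer (U : Set (Matrix.SpecialLinearGroup (Fin n) F))) (i : ℕ) :
    (btW U i).map (Matrix.mulVecLin (g : Matrix (Fin n) (Fin n) F)) = btW U i := by
  apply le_antisymm (btW_map_le U g hg i)
  intro v hv
  have hg' : g⁻¹ ∈ Subgroup.normalizer (U : Set (Matrix.SpecialLinearGroup (Fin n) F)) :=
    Subgroup.inv_mem _ hg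
  refine ⟨Matrix.mulVecLin ((g⁻¹ : Matrix.SpecialLinearGroup (Fin n) F) :
    Matrix (Fin n) (Fin n) F) v, btW_map_le U g⁻¹ hg' i ⟨v, hv, rfl⟩, ?_⟩
  rw [Matrix.mulVecLin_apply, Matrix.mulVecLin_apply, Matrix.mulVec_mulVec,
    ← Matrix.SpecialLinearGroup.coe_mul, mul_inv_cancel, Matrix.SpecialLinearGroup.coe_one,
    Matrix.one_mulVec]

theorem btW_lt_succ [Finite F] (p : ℕ) [Fact p.Prime] [CharP F p] (hU : IsPGroup p ↥U) (i : ℕ)
    (hi : btW U i ≠ ⊤) : btW U i < btW U (i + 1) := by
  classical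
  refine lt_of_le_of_ne (btW_le_succ U i) ?_
  intro heq
  have hinvar : ∀ u : U, btW U i ≤ (btW U i).comap
      (Matrix.mulVecLin ((u : Matrix.SpecialLinearGroup (Fin n) F) :
        Matrix (Fin n) (Fin n) F)) := by
    intro u v hv
    exact btW_map_le U u.1 (Subgroup.le_normalizer u.2) i ⟨v, hv, rfl⟩
  let _ : MulAction ↥U ((Fin n → F) ⧸ btW U i) :=
    { smul := fun u x => (btW U i).mapQ (btW U i)
        (Matrix.mulVecLin ((u : Matrix.SpecialLinearGroup (Fin n) F) :
          Matrix (Fin n) (Fin n) F)) (hinvar u) x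
      one_smul := by
        intro x
        induction x using Submodule.Quotient.induction_on with | H v => ?_
        show (btW U i).mapQ (btW U i) _ _ (Submodule.Quotient.mk v) = _
        rw [Submodule.mapQ_apply]
        simp
      mul_smul := by
        intro u u' x
        induction x using Submodule.Quotient.induction_on with | H v => ?_
        show (btW U i).mapQ (btW U i) _ _ (Submodule.Quotient.mk v) =
          (btW U i).mapQ (btW U i) _ _ ((btW U i).mapQ (btW U i) _ _ (Submodule.Quotient.mk v))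
        rw [Submodule.mapQ_apply, Submodule.mapQ_apply, Submodule.mapQ_apply]
        simp [Matrix.mulVec_mulVec] }
  have hsmul : ∀ (u : U) (v : Fin n → F),
      u • (Submodule.Quotient.mk v : (Fin n → F) ⧸ btW U i) =
      Submodule.Quotient.mk (((u : Matrix.SpecialLinearGroup (Fin n) F) :
        Matrix (Fin n) (Fin n) F).mulVec v) := fun u v => rfl
  obtain ⟨v₀, hv₀⟩ : ∃ v₀ : Fin n → F, v₀ ∉ btW U i := by
    by_contra hcon
    push Not at hcon
    exact hi (eq_top_iff.mpr (fun v _ => hcon v))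
  have hx₀ : (Submodule.Quotient.mk v₀ : (Fin n → F) ⧸ btW U i) ≠ 0 := by
    rw [Ne, Submodule.Quotient.mk_eq_zero]
    exact hv₀
  have hp : p ∣ Nat.card ((Fin n → F) ⧸ btW U i) := by
    have h1 : p • (Submodule.Quotient.mk v₀ : (Fin n → F) ⧸ btW U i) = 0 := by
      rw [← Nat.cast_smul_eq_nsmul F, CharP.cast_eq_zero, zero_smul]
    have h2 := addOrderOf_eq_prime h1 hx₀
    rw [← h2]
    exact addOrderOf_dvd_natCard _
  have : Finite ((Fin n → F) ⧸ btW U i) :=
    Finite.of_surjective (Submodule.Quotient.mk (p := btW U i))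
      (Submodule.Quotient.mk_surjective _)
  have h0 : (0 : (Fin n → F) ⧸ btW U i) ∈ MulAction.fixedPoints ↥U ((Fin n → F) ⧸ btW U i) := by
    intro u
    have e0 : (0 : (Fin n → F) ⧸ btW U i) = Submodule.Quotient.mk 0 := rfl
    rw [e0, hsmul, Matrix.mulVec_zero]
  obtain ⟨b, hb, hb0⟩ := hU.exists_fixed_point_of_prime_dvd_card_of_fixed_point _ hp h0
  induction b using Submodule.Quotient.induction_on with | H v => ?_
  have hvW : v ∉ btW U i := by
    intro h
    exact hb0 ((Submodule.Quotient.mk_eq_zero (btW U i)).mpr h).symm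
  apply hvW
  rw [heq, mem_btW_succ]
  intro u hu
  have := hb ⟨u, hu⟩
  rw [hsmul, Submodule.Quotient.eq] at this
  exact this

end

/-- the Borel–Tits flag of a non-trivial `p`-subgroup of `SL_n(F)` -/
theorem bt_flag {F : Type*} [Field F] [Fintype F] (p : ℕ) [Fact p.Prime] [CharP F p] (n : ℕ)
    (U : Subgroup (Matrix.SpecialLinearGroup (Fin n) F)) (hU : IsPGroup p ↥U) (hne : U ≠ ⊥) :
    ∃ (k : ℕ) (V : Fin (k + 2) → Submodule F (Fin n → F)), 1 ≤ k ∧ StrictMono V ∧ V 0 = ⊥ ∧
      V (Fin.last (k + 1)) = ⊤ ∧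
      (∀ g ∈ Subgroup.normalizer (U : Set (Matrix.SpecialLinearGroup (Fin n) F)), ∀ i,
        (V i).map (Matrix.mulVecLin (g : Matrix (Fin n) (Fin n) F)) = V i) ∧
      (∀ u ∈ U, ∀ i : Fin (k + 1), ∀ v ∈ V i.succ,
        (u : Matrix (Fin n) (Fin n) F).mulVec v - v ∈ V (Fin.castSucc i)) := by
  classical
  have h1 : btW U 1 ≠ ⊤ := by
    intro htop
    apply hne
    rw [eq_bot_iff]
    intro u hu
    rw [Subgroup.mem_bot]
    apply Subtype.ext
    have hfix : ∀ v : Fin n → F, (u : Matrix (Fin n) (Fin n) F).mulVec v = v := by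
      intro v
      have hv : v ∈ btW U 1 := by rw [htop]; trivial
      have h0 : (u : Matrix (Fin n) (Fin n) F).mulVec v - v ∈ (⊥ : Submodule F (Fin n → F)) :=
        (mem_btW_succ U 0 v).mp hv u hu
      rw [Submodule.mem_bot] at h0
      exact sub_eq_zero.mp h0
    ext i j
    have := congrFun (hfix (Pi.single j 1)) i
    rw [Matrix.mulVec_single_one] at this
    rw [Matrix.SpecialLinearGroup.coe_one, Matrix.one_apply]
    rw [Matrix.col_apply] at this
    rw [this, Pi.single_apply]
  have hex : ∃ m, btW U m = ⊤ := by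
    by_contra hcon
    push Not at hcon
    have hlt : ∀ i, btW U i < btW U (i + 1) := fun i => btW_lt_succ U p hU i (hcon i)
    have hrank : ∀ i, i ≤ Module.finrank F (btW U i) := by
      intro i
      induction i with
      | zero => exact Nat.zero_le _
      | succ i ih =>
        have := Submodule.finrank_lt_finrank_of_lt (hlt i)
        omega
    have h2 := hrank (n + 1)
    have h3 := Submodule.finrank_le (btW U (n + 1))
    rw [Module.finrank_fin_fun] at h3
    omega
  have hm_top : btW U (Nat.find hex) = ⊤ := Nat.find_spec hex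
  have hm_min : ∀ i < Nat.find hex, btW U i ≠ ⊤ := fun i hi => Nat.find_min hex hi
  generalize Nat.find hex = m at hm_top hm_min
  have hm2 : 2 ≤ m := by
    by_contra hlt
    have hle : m ≤ 1 := by omega
    exact h1 (eq_top_iff.mpr (hm_top ▸ btW_mono U hle))
  obtain ⟨k, rfl⟩ : ∃ k, m = k + 2 := ⟨m - 2, by omega⟩
  refine ⟨k + 1, fun i => btW U i.val, by omega, ?_, rfl, hm_top, ?_, ?_⟩
  · rw [Fin.strictMono_iff_lt_succ]
    intro i
    exact btW_lt_succ U p hU _ (hm_min _ i.2)
  · intro g hg i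
    exact btW_map_eq U g hg _
  · intro u hu i v hv
    exact (mem_btW_succ U _ v).mp hv u hu

end Cfsg.Agent.Lib.helper11
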