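import Cfsg.Agent.Lib.helper11.ChevBN
import Cfsg.Agent.Lib.helper11c.Orb1

/-! Graph automorphisms as conjugation by signed permutation matrices. -/

set_option autoImplicit false

namespace Cfsg.Agent.Lib.helper11

open Cfsg Cfsg.Lie

/-- action of a signed permutation table on monomial vectors -/
def gaP (pt : List (ℕ × ℤ)) (v : List (ℕ × ℤ × ℤ)) : List (ℕ × ℤ × ℤ) :=
  v.map fun e => force e.1 fun k =>
    ((pt.getD k (pt.length, 1)).1, (pt.getD k (pt.length, 1)).2 * e.2.1, e.2.2)

/-- the signed permutation matrix of a table -/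
def gaMat (F : Type*) [Field F] (D : ChevalleyDatum) (pt : List (ℕ × ℤ)) :
    Matrix D.Idx D.Idx F :=
  Matrix.of fun row col => if (pt.getD (code D col) (pt.length, 1)).1 = code D row then
    (((pt.getD (code D col) (pt.length, 1)).2 : ℤ) : F) else 0

theorem gaP_single {F : Type*} [Field F] (D : ChevalleyDatum) (pt : List (ℕ × ℤ))
    (hlen : pt.length = D.rank + D.nroots) (c : F) (e : ℕ × ℤ × ℤ) :
    sem D [((pt.getD e.1 (pt.length, 1)).1, (pt.getD e.1 (pt.length, 1)).2 * e.2.1, e.2.2)] c =
      (gaMat F D pt).mulVec (sem D [e] c) := by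
  funext row
  simp only [Matrix.mulVec, dotProduct, sem, List.map_cons, List.map_nil, List.sum_cons,
    List.sum_nil, add_zero]
  by_cases hj : e.1 < D.rank + D.nroots
  · obtain ⟨col, hcol⟩ := exists_code D e.1 hj
    rw [Finset.sum_eq_single col]
    · rw [if_pos hcol.symm, ← hcol]
      simp only [gaMat, Matrix.of_apply]
      split_ifs with h
      · push_cast
        ring
      · rw [zero_mul]
    · intro b _ hb
      have : ¬ (e.1 = code D b) := fun h => hb (code_injective D (h.symm.trans hcol.symm))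
      rw [if_neg this, mul_zero]
    · intro h
      exact absurd (Finset.mem_univ col) h
  · have h1 : pt.getD e.1 (pt.length, 1) = (pt.length, 1) := by
      rw [List.getD_eq_getElem?_getD, List.getElem?_eq_none (by omega)]
      rfl
    rw [h1]
    have h2 : ¬ (pt.length = code D row) := by
      have := code_lt D row
      omega
    rw [if_neg h2]
    symm
    apply Finset.sum_eq_zero
    intro b _
    have : ¬ (e.1 = code D b) := fun h => hj (h ▸ code_lt D b)
    rw [if_neg this, mul_zero]

theorem gaP_spec {F : Type*} [Field F] (D : ChevalleyDatum) (pt : List (ℕ × ℤ))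
    (hlen : pt.length = D.rank + D.nroots) (c : F) (v : List (ℕ × ℤ × ℤ)) :
    sem D (gaP pt v) c = (gaMat F D pt).mulVec (sem D v c) := by
  induction v with
  | nil => simp [gaP, sem_nil]
  | cons e v ih =>
    have : gaP pt (e :: v) =
        [((pt.getD e.1 (pt.length, 1)).1, (pt.getD e.1 (pt.length, 1)).2 * e.2.1, e.2.2)] ++
          gaP pt v := by
      simp [gaP, force_eq]
    rw [this, sem_append, sem_cons D e v, Matrix.mulVec_add, ih, gaP_single D pt hlen c e]

/-- image root and sign of the root `r` under the table -/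
def gaRho (D : ChevalleyDatum) (pt : List (ℕ × ℤ)) (r : ℕ) : ℕ :=
  (pt.getD (D.rank + r) (pt.length, 1)).1 - D.rank

def gaEps (D : ChevalleyDatum) (pt : List (ℕ × ℤ)) (r : ℕ) : ℤ :=
  (pt.getD (D.rank + r) (pt.length, 1)).2

/-- the column identity `P (x_r(c) e_j) = x_{ρ r}(ε_r c) (P e_j)` -/
def gaCol (D : ChevalleyDatum) (pt : List (ℕ × ℤ)) (r j : ℕ) : Bool :=
  eqV (gaP pt (appXf D r 1 1 [(j, 1, 0)]))
    (force (gaRho D pt r) fun r' => appXf D r' (gaEps D pt r) 1 (gaP pt [(j, 1, 0)]))

def gaRow (D : ChevalleyDatum) (pt : List (ℕ × ℤ)) (r : ℕ) : Bool :=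
  decide (gaRho D pt r < D.nroots) && (List.range (D.rank + D.nroots)).all (gaCol D pt r)

theorem ga_comm {F : Type*} [Field F] (D : ChevalleyDatum)
    (hD : D ∈ [chevG2, chevB2, chevD4, chevF4, chevE6, chevE7, chevE8]) (pt : List (ℕ × ℤ))
    (hlen : pt.length = D.rank + D.nroots) (r : ℕ) (hr : r < D.nroots)
    (h : gaRow D pt r = true) (c : F) :
    gaMat F D pt * D.x F r c =
      D.x F (gaRho D pt r) (((gaEps D pt r : ℤ) : F) * c) * gaMat F D pt := by
  unfold gaRow at h
  rw [Bool.and_eq_true, decide_eq_true_eq, List.all_eq_true] at h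
  obtain ⟨hlt, hcols⟩ := h
  by_cases hc : c = 0
  · rw [hc, mul_zero, x_zero, x_zero, mul_one, one_mul]
  · have hx1 : D.x F r c = D.x F r (((1 : ℤ) : F) * c ^ (1 : ℤ)) := by simp
    have hx2 : D.x F (gaRho D pt r) (((gaEps D pt r : ℤ) : F) * c) =
        D.x F (gaRho D pt r) (((gaEps D pt r : ℤ) : F) * c ^ (1 : ℤ)) := by simp
    apply mat_ext_cols
    intro col
    rw [← Matrix.mulVec_mulVec, ← Matrix.mulVec_mulVec]
    have hcol := hcols (code D col) (List.mem_range.mpr (code_lt D col))
    unfold gaCol at hcol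
    rw [force_eq] at hcol
    have h3 := eqV_sound (F := F) D c _ _ hcol
    rw [appXf_eq D r 1 1 _ (keys_nodup D hD r hr), appXf_eq D _ _ 1 _ (keys_nodup D hD _ hlt),
      gaP_spec D pt hlen, appX_spec D r hr 1 1 c hc, appX_spec D _ hlt _ 1 c hc,
      gaP_spec D pt hlen, sem_single] at h3
    rw [hx1, hx2]
    exact h3

/-- `qt` is the inverse table of `pt` -/
def gaInvOK (pt qt : List (ℕ × ℤ)) : Bool :=
  Nat.beq pt.length qt.length && (List.range pt.length).all fun j =>
    Nat.beq (qt.getD (pt.getD j (pt.length, 1)).1 (qt.length, 1)).1 j &&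
    decide ((qt.getD (pt.getD j (pt.length, 1)).1 (qt.length, 1)).2 *
      ((pt.getD j (pt.length, 1)).2 * 1) = 1) &&
    Nat.beq (pt.getD (qt.getD j (qt.length, 1)).1 (pt.length, 1)).1 j &&
    decide ((pt.getD (qt.getD j (qt.length, 1)).1 (pt.length, 1)).2 *
      ((qt.getD j (qt.length, 1)).2 * 1) = 1)

theorem gaMat_mul_aux {F : Type*} [Field F] (D : ChevalleyDatum) (pt qt : List (ℕ × ℤ))
    (hlp : pt.length = D.rank + D.nroots) (hlq : qt.length = D.rank + D.nroots)
    (h : ∀ j < D.rank + D.nroots,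
      (qt.getD (pt.getD j (pt.length, 1)).1 (qt.length, 1)).1 = j ∧
      (qt.getD (pt.getD j (pt.length, 1)).1 (qt.length, 1)).2 *
        ((pt.getD j (pt.length, 1)).2 * 1) = 1) :
    gaMat F D qt * gaMat F D pt = 1 := by
  apply mat_ext_cols
  intro col
  rw [← Matrix.mulVec_mulVec, Matrix.one_mulVec]
  have h1 := gaP_spec (F := F) D qt hlq 1 (gaP pt [(code D col, 1, 0)])
  rw [gaP_spec D pt hlp, sem_single] at h1
  rw [← h1]
  have h2 : gaP qt (gaP pt [(code D col, 1, 0)]) = [(code D col, 1, 0)] := by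
    obtain ⟨h3, h4⟩ := h (code D col) (code_lt D col)
    simp only [gaP, force_eq, List.map_cons, List.map_nil]
    rw [h3, h4]
  rw [h2, sem_single]

theorem gaInv_spec {F : Type*} [Field F] (D : ChevalleyDatum) (pt qt : List (ℕ × ℤ))
    (hlp : pt.length = D.rank + D.nroots) (h : gaInvOK pt qt = true) :
    gaMat F D qt * gaMat F D pt = 1 ∧ gaMat F D pt * gaMat F D qt = 1 := by
  unfold gaInvOK at h
  rw [Bool.and_eq_true, nbeq_iff, List.all_eq_true] at h
  obtain ⟨hl, h⟩ := h
  have hlq : qt.length = D.rank + D.nroots := by rw [← hl, hlp]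
  constructor
  · apply gaMat_mul_aux D pt qt hlp hlq
    intro j hj
    have := h j (List.mem_range.mpr (by rw [hlp]; exact hj))
    simp only [Bool.and_eq_true, nbeq_iff, decide_eq_true_eq] at this
    exact ⟨this.1.1.1, this.1.1.2⟩
  · apply gaMat_mul_aux D qt pt hlq hlp
    intro j hj
    have := h j (List.mem_range.mpr (by rw [hlp]; exact hj))
    simp only [Bool.and_eq_true, nbeq_iff, decide_eq_true_eq] at this
    exact ⟨this.1.2, this.2⟩

/-- the full certificate for a graph automorphism -/
structure GaCert (D : ChevalleyDatum) (pt qt : List (ℕ × ℤ)) (perm : List ℕ) : Prop where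
  len : pt.length = D.rank + D.nroots
  inv : gaInvOK pt qt = true
  rows : ∀ r < D.nroots, gaRow D pt r = true
  back : ∀ r < D.nroots, D.rank ≤ (qt.getD (D.rank + r) (qt.length, 1)).1
  simp : ∀ i < D.rank, D.simple i < D.nroots ∧ D.neg (D.simple i) < D.nroots ∧
    pt.getD (D.rank + D.simple i) (pt.length, 1) = (D.rank + D.simple (perm.getD i 0), 1) ∧
    pt.getD (D.rank + D.neg (D.simple i)) (pt.length, 1) =
      (D.rank + D.neg (D.simple (perm.getD i 0)), 1)

/-- the signed permutation matrix as an element of `GL` -/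
def gaU {F : Type*} [Field F] (D : ChevalleyDatum) (pt qt : List (ℕ × ℤ)) (perm : List ℕ)
    (h : GaCert D pt qt perm) : GL D.Idx F :=
  ⟨gaMat F D pt, gaMat F D qt, (gaInv_spec D pt qt h.len h.inv).2,
    (gaInv_spec D pt qt h.len h.inv).1⟩

theorem gaU_conj {F : Type*} [Field F] (D : ChevalleyDatum)
    (hD : D ∈ [chevG2, chevB2, chevD4, chevF4, chevE6, chevE7, chevE8])
    (pt qt : List (ℕ × ℤ)) (perm : List ℕ) (h : GaCert D pt qt perm) (r : ℕ)
    (hr : r < D.nroots) (t : F) :
    gaU D pt qt perm h * xU D hD r t * (gaU D pt qt perm h)⁻¹ =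
      xU D hD (gaRho D pt r) (((gaEps D pt r : ℤ) : F) * t) := by
  rw [mul_inv_eq_iff_eq_mul]
  apply Units.ext
  rw [Units.val_mul, Units.val_mul, xU_val, xU_val]
  exact ga_comm D hD pt h.len r hr (h.rows r hr) t

/-- conjugation by the signed permutation matrix preserves the Chevalley group -/
theorem gaU_map {F : Type*} [Field F] (D : ChevalleyDatum)
    (hD : D ∈ [chevG2, chevB2, chevD4, chevF4, chevE6, chevE7, chevE8])
    (pt qt : List (ℕ × ℤ)) (perm : List ℕ) (h : GaCert D pt qt perm) :
    (D.group F).map (MulAut.conj (gaU (F := F) D pt qt perm h)).toMonoidHom = D.group F := by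
  have hinv := h.inv
  unfold gaInvOK at hinv
  rw [Bool.and_eq_true, nbeq_iff, List.all_eq_true] at hinv
  obtain ⟨hl, hinv⟩ := hinv
  apply le_antisymm
  · rw [Subgroup.map_le_iff_le_comap]
    apply group_le_of_all D hD
    intro r hr t
    rw [Subgroup.mem_comap]
    show gaU D pt qt perm h * xU D hD r t * (gaU D pt qt perm h)⁻¹ ∈ D.group F
    rw [gaU_conj D hD pt qt perm h r hr t]
    exact xU_mem_group D hD _ _
  · apply group_le_of_all D hD
    intro r hr t
    -- the preimage root
    have hb := h.back r hr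
    have hj := hinv (D.rank + r) (List.mem_range.mpr (by rw [h.len]; omega))
    simp only [Bool.and_eq_true, nbeq_iff, decide_eq_true_eq] at hj
    obtain ⟨⟨⟨-, -⟩, hj3⟩, hj4⟩ := hj
    set a := (qt.getD (D.rank + r) (qt.length, 1)).1 with ha
    have halt : a < D.rank + D.nroots := by
      by_contra hcon
      have h1 : pt.getD a (pt.length, 1) = (pt.length, 1) := by
        rw [List.getD_eq_getElem?_getD, List.getElem?_eq_none (by rw [h.len]; omega)]
        rfl
      rw [h1] at hj3
      simp only at hj3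
      rw [h.len] at hj3
      omega
    have hr' : a - D.rank < D.nroots := by omega
    have hrho : gaRho D pt (a - D.rank) = r := by
      unfold gaRho
      have : D.rank + (a - D.rank) = a := by omega
      rw [this, hj3]
      omega
    have heps : gaEps D pt (a - D.rank) * gaEps D pt (a - D.rank) = 1 := by
      unfold gaEps
      have : D.rank + (a - D.rank) = a := by omega
      rw [this]
      have hj4' : (pt.getD a (pt.length, 1)).2 * (qt.getD (D.rank + r) (qt.length, 1)).2 = 1 := by
        rw [mul_one] at hj4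
        exact hj4
      rcases Int.eq_one_or_neg_one_of_mul_eq_one hj4' with h1 | h1 <;> rw [h1] <;> norm_num
    have hconj := gaU_conj D hD pt qt perm h (a - D.rank) hr'
      (((gaEps D pt (a - D.rank) : ℤ) : F) * t)
    rw [hrho, ← mul_assoc, ← Int.cast_mul, heps, Int.cast_one, one_mul] at hconj
    rw [Subgroup.mem_map]
    refine ⟨xU D hD (a - D.rank) (((gaEps D pt (a - D.rank) : ℤ) : F) * t),
      xU_mem_group D hD _ _, ?_⟩
    exact hconj

/-- the graph automorphism -/
noncomputable def gaAut {F : Type*} [Field F] (D : ChevalleyDatum)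
    (hD : D ∈ [chevG2, chevB2, chevD4, chevF4, chevE6, chevE7, chevE8])
    (pt qt : List (ℕ × ℤ)) (perm : List ℕ) (h : GaCert D pt qt perm) :
    ↥(D.group F) ≃* ↥(D.group F) :=
  (MulEquiv.subgroupMap (MulAut.conj (gaU (F := F) D pt qt perm h)) (D.group F)).trans
    (MulEquiv.subgroupCongr (gaU_map D hD pt qt perm h))

theorem gaAut_val {F : Type*} [Field F] (D : ChevalleyDatum)
    (hD : D ∈ [chevG2, chevB2, chevD4, chevF4, chevE6, chevE7, chevE8])
    (pt qt : List (ℕ × ℤ)) (perm : List ℕ) (h : GaCert D pt qt perm) (g : ↥(D.group F)) :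
    ((gaAut D hD pt qt perm h g : ↥(D.group F)) : GL D.Idx F) =
      gaU D pt qt perm h * (g : GL D.Idx F) * (gaU D pt qt perm h)⁻¹ := rfl

/-- existence of the graph automorphism -/
theorem graph_aut_exists {F : Type*} [Field F] (D : ChevalleyDatum)
    (hD : D ∈ [chevG2, chevB2, chevD4, chevF4, chevE6, chevE7, chevE8])
    (pt qt : List (ℕ × ℤ)) (perm : List ℕ) (h : GaCert D pt qt perm) :
    ∃ α : ↥(D.group F) ≃* ↥(D.group F), ∀ (g : ↥(D.group F)) (i : ℕ) (t : F), i < D.rank →
      (((g : GL D.Idx F) : Matrix D.Idx D.Idx F) = D.x F (D.simple i) t →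
        ((α g : GL D.Idx F) : Matrix D.Idx D.Idx F) = D.x F (D.simple (perm.getD i 0)) t) ∧
      (((g : GL D.Idx F) : Matrix D.Idx D.Idx F) = D.x F (D.neg (D.simple i)) t →
        ((α g : GL D.Idx F) : Matrix D.Idx D.Idx F) =
          D.x F (D.neg (D.simple (perm.getD i 0))) t) := by
  refine ⟨gaAut D hD pt qt perm h, fun g i t hi => ?_⟩
  obtain ⟨h1, h2, h3, h4⟩ := h.simp i hi
  constructor
  · intro hg
    rw [gaAut_val, eq_xU D hD _ t _ hg, gaU_conj D hD pt qt perm h _ h1 t, xU_val]
    unfold gaRho gaEps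
    rw [h3]
    simp
  · intro hg
    rw [gaAut_val, eq_xU D hD _ t _ hg, gaU_conj D hD pt qt perm h _ h2 t, xU_val]
    unfold gaRho gaEps
    rw [h4]
    simp

end Cfsg.Agent.Lib.helper11
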