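import Cfsg.Agent.Lib.helper11.ChevTri

/-! Entries of root elements as monomials, and the certificate for the exceptional isogenies
(`B₂`, `F₄` in characteristic 2, `G₂` in characteristic 3). -/

set_option autoImplicit false

namespace Cfsg.Agent.Lib.helper11

open Cfsg Cfsg.Lie

/-- the entries of `x_r(t)` as lists of monomials `(k, c)`, standing for `c t^k` -/
def entN (D : ChevalleyDatum) (r : ℕ) (row col : ℕ ⊕ ℕ) : List (ℕ × ℤ) :=
  match col with
  | Sum.inl i =>
    (match row with
     | Sum.inl i' => if i' = i then [(0, 1)] else []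
     | Sum.inr u => if u = r then [(1, - ((D.cartanSR.getD i #[]).getD r 0))] else [])
  | Sum.inr s =>
    if s = r then
      (match row with
       | Sum.inr u => if u = r then [(0, 1)] else []
       | Sum.inl _ => [])
    else if s = D.negIdx.getD r 0 then
      (match row with
       | Sum.inl i => [(1, (D.coroot.getD r #[]).getD i 0)]
       | Sum.inr u => if u = s then [(0, 1)] else if u = r then [(2, -1)] else [])
    else
      (match row with
       | Sum.inl _ => []
       | Sum.inr u => (if u = s then [(0, 1)] else []) ++ D.chainCoeff r s u)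

/-- value of a list of monomials -/
def evalMP (F : Type*) [Field F] (l : List (ℕ × ℤ)) (t : F) : F :=
  (l.map fun km => ((km.2 : ℤ) : F) * t ^ km.1).sum

/-- the code of a coordinate -/
def codeI (D : ChevalleyDatum) : D.Idx → ℕ ⊕ ℕ := Sum.map Fin.val Fin.val

theorem codeI_injective (D : ChevalleyDatum) : Function.Injective (codeI D) := by
  intro a b h
  rcases a with a | a <;> rcases b with b | b <;> simp [codeI] at h
  · exact congrArg _ (Fin.ext h)
  · exact congrArg _ (Fin.ext h)

theorem xMat_entN {F : Type*} [Field F] (D : ChevalleyDatum) (r : Fin D.nroots) (t : F)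
    (row col : D.Idx) :
    D.xMat F r t row col = evalMP F (entN D r.val (codeI D row) (codeI D col)) t := by
  unfold ChevalleyDatum.xMat entN evalMP codeI
  rcases col with i | s <;> rcases row with i' | u
  · simp only [Matrix.of_apply, Sum.map_inl, Fin.val_inj]
    split_ifs <;> simp
  · simp only [Matrix.of_apply, Sum.map_inl, Sum.map_inr, Fin.val_inj]
    split_ifs <;> simp
  · simp only [Matrix.of_apply, Sum.map_inl, Sum.map_inr, Fin.val_inj]
    split_ifs <;> simp
  · simp only [Matrix.of_apply, Sum.map_inr, Fin.val_inj]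
    split_ifs <;> simp

/-- a list of at most one monomial -/
def monoP : List (ℕ × ℤ) → Option (ℕ × ℤ)
  | [] => some (0, 0)
  | [a] => some a
  | _ => none

theorem evalMP_mono {F : Type*} [Field F] (l : List (ℕ × ℤ)) (k : ℕ) (c : ℤ)
    (h : monoP l = some (k, c)) (t : F) : evalMP F l t = (c : F) * t ^ k := by
  unfold evalMP
  match l, h with
  | [], h =>
    simp only [monoP, Option.some.injEq, Prod.mk.injEq] at h
    obtain ⟨rfl, rfl⟩ := h
    simp
  | [a], h =>
    simp only [monoP, Option.some.injEq] at h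
    subst h
    simp

/-- the entry vanishes in characteristic `p` -/
def chkZ (p : ℕ) (l : List (ℕ × ℤ)) : Bool :=
  match monoP l with
  | some (_, c) => decide (c % (p : ℤ) = 0)
  | none => false

theorem chkZ_sound {F : Type*} [Field F] (p : ℕ) [CharP F p] (l : List (ℕ × ℤ))
    (h : chkZ p l = true) (t : F) : evalMP F l t = 0 := by
  unfold chkZ at h
  match hm : monoP l, h with
  | some (k, c), h =>
    rw [decide_eq_true_eq] at h
    rw [evalMP_mono l k c hm, (CharP.intCast_eq_zero_iff F p c).mpr (Int.dvd_of_emod_eq_zero h),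
      zero_mul]

/-- `(c₁ t^k₁)^a = c₂ (t^b)^k₂` in characteristic `p` -/
def chkE (p a b : ℕ) (l₁ l₂ : List (ℕ × ℤ)) : Bool :=
  match monoP l₁, monoP l₂ with
  | some (k₁, c₁), some (k₂, c₂) =>
    (decide (c₁ % (p : ℤ) = 0) && decide (c₂ % (p : ℤ) = 0)) ||
      (decide (a * k₁ = b * k₂) && decide ((c₁ - c₂) % (p : ℤ) = 0))
  | _, _ => false

theorem intCast_pow_char {F : Type*} [Field F] (p : ℕ) [Fact p.Prime] [CharP F p] (c : ℤ) :
    ((c : ℤ) : F) ^ p = c := by
  have := map_intCast (frobenius F p) c
  rwa [frobenius_def] at this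

theorem chkE_sound {F : Type*} [Field F] (p : ℕ) [Fact p.Prime] [CharP F p] (a b : ℕ)
    (ha : a = 1 ∨ a = p) (l₁ l₂ : List (ℕ × ℤ)) (h : chkE p a b l₁ l₂ = true) (t : F) :
    evalMP F l₁ t ^ a = evalMP F l₂ (t ^ b) := by
  have hp : p ≠ 0 := (Fact.out : p.Prime).ne_zero
  have ha0 : a ≠ 0 := by rcases ha with rfl | rfl <;> simp [hp]
  unfold chkE at h
  match hm₁ : monoP l₁, hm₂ : monoP l₂, h with
  | some (k₁, c₁), some (k₂, c₂), h =>
    rw [evalMP_mono l₁ k₁ c₁ hm₁, evalMP_mono l₂ k₂ c₂ hm₂]
    rw [Bool.or_eq_true, Bool.and_eq_true, Bool.and_eq_true] at h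
    simp only [decide_eq_true_eq] at h
    rcases h with ⟨h1, h2⟩ | ⟨h1, h2⟩
    · rw [(CharP.intCast_eq_zero_iff F p c₁).mpr (Int.dvd_of_emod_eq_zero h1),
        (CharP.intCast_eq_zero_iff F p c₂).mpr (Int.dvd_of_emod_eq_zero h2), zero_mul, zero_mul,
        zero_pow ha0]
    · have hc : ((c₁ : ℤ) : F) = c₂ := by
        have := (CharP.intCast_eq_zero_iff F p (c₁ - c₂)).mpr (Int.dvd_of_emod_eq_zero h2)
        rw [Int.cast_sub, sub_eq_zero] at this
        exact this
      have hca : ((c₁ : ℤ) : F) ^ a = c₁ := by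
        rcases ha with rfl | rfl
        · rw [pow_one]
        · exact intCast_pow_char a c₁
      rw [mul_pow, hca, ← pow_mul, ← pow_mul, mul_comm k₁ a, h1, hc, mul_comm b k₂]

/-- data of an exceptional isogeny: the map of the fundamental roots, of the roots, and the
short fundamental roots and roots -/
structure IsoData where
  sm : List ℕ
  rho : List ℕ
  shS : List Bool
  shR : List Bool

def IsoData.inS (X : IsoData) : ℕ ⊕ ℕ → Bool
  | Sum.inl i => X.shS.getD i false
  | Sum.inr r => X.shR.getD r false

def IsoData.tau (X : IsoData) : ℕ ⊕ ℕ → ℕ ⊕ ℕ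
  | Sum.inl i => Sum.inl (X.sm.getD i 0)
  | Sum.inr r => Sum.inr (X.rho.getD r 0)

def allCodes (D : ChevalleyDatum) : List (ℕ ⊕ ℕ) :=
  (List.range D.rank).map Sum.inl ++ (List.range D.nroots).map Sum.inr

theorem codeI_mem (D : ChevalleyDatum) (i : D.Idx) : codeI D i ∈ allCodes D := by
  unfold allCodes codeI
  rcases i with i | i
  · exact List.mem_append_left _ (List.mem_map.mpr ⟨i.val, List.mem_range.mpr i.isLt, rfl⟩)
  · exact List.mem_append_right _ (List.mem_map.mpr ⟨i.val, List.mem_range.mpr i.isLt, rfl⟩)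

/-- exponent on the parameter: `p` on short roots, `1` on long roots -/
def IsoData.lam (X : IsoData) (p r : ℕ) : ℕ := if X.shR.getD r false then p else 1

def isoRow (D : ChevalleyDatum) (X : IsoData) (p r : ℕ) : Bool :=
  (allCodes D).all fun s => !X.inS s ||
    (allCodes D).all fun s' => !X.inS s' ||
      (chkZ p (entN D r (X.tau s) s') &&
        chkE p 1 (X.lam p r) (entN D r (X.tau s) (X.tau s')) (entN D (X.rho.getD r 0) s s') &&
        chkE p p (X.lam p r) (entN D r s s') (entN D (X.rho.getD r 0) (X.tau s) (X.tau s')))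

def isoBasic (D : ChevalleyDatum) (X : IsoData) : Bool :=
  ((List.range D.rank).all fun i => decide (X.sm.getD i 0 < D.rank) &&
    decide (X.sm.getD (X.sm.getD i 0) 0 = i) &&
    (X.shS.getD (X.sm.getD i 0) false != X.shS.getD i false)) &&
  ((List.range D.nroots).all fun r => decide (X.rho.getD r 0 < D.nroots) &&
    decide (X.rho.getD (X.rho.getD r 0) 0 = r) &&
    (X.shR.getD (X.rho.getD r 0) false != X.shR.getD r false))

def isoSimple (D : ChevalleyDatum) (X : IsoData) : Bool :=
  (List.range D.rank).all fun i => decide (D.simple i < D.nroots) &&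
    decide (D.neg (D.simple i) < D.simple i) &&
    (X.shR.getD (D.simple i) false == X.shR.getD (D.neg (D.simple i)) false) &&
    decide (D.reflectRoot i (D.simple i) = D.neg (D.simple i))

/-- the certificate of an exceptional isogeny in characteristic `p` -/
def IsoCert (D : ChevalleyDatum) (X : IsoData) (p : ℕ) : Prop :=
  isoBasic D X = true ∧ isoSimple D X = true ∧ ∀ r < D.nroots, isoRow D X p r = true

end Cfsg.Agent.Lib.helper11
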