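import Cfsg.Agent.Lib.helper11d.Iso1

/-! Diagonal blocks of the matrices of a Chevalley group with respect to the short-root ideal, for
the exceptional isogenies. -/

set_option autoImplicit false

namespace Cfsg.Agent.Lib.helper11

open Cfsg Cfsg.Lie

theorem isoBasic_spec (D : ChevalleyDatum) (X : IsoData) (hb : isoBasic D X = true) :
    (∀ i < D.rank, X.sm.getD i 0 < D.rank ∧ X.sm.getD (X.sm.getD i 0) 0 = i ∧
      X.shS.getD (X.sm.getD i 0) false = !X.shS.getD i false) ∧
    (∀ r < D.nroots, X.rho.getD r 0 < D.nroots ∧ X.rho.getD (X.rho.getD r 0) 0 = r ∧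
      X.shR.getD (X.rho.getD r 0) false = !X.shR.getD r false) := by
  unfold isoBasic at hb
  rw [Bool.and_eq_true, List.all_eq_true, List.all_eq_true] at hb
  constructor
  · intro i hi
    have := hb.1 i (List.mem_range.mpr hi)
    rw [Bool.and_eq_true, Bool.and_eq_true, decide_eq_true_eq, decide_eq_true_eq, bne_iff_ne] at this
    exact ⟨this.1.1, this.1.2, Bool.eq_not.mpr this.2⟩
  · intro i hi
    have := hb.2 i (List.mem_range.mpr hi)
    rw [Bool.and_eq_true, Bool.and_eq_true, decide_eq_true_eq, decide_eq_true_eq, bne_iff_ne] at this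
    exact ⟨this.1.1, this.1.2, Bool.eq_not.mpr this.2⟩

/-- membership of a coordinate in the short block -/
def inSI (D : ChevalleyDatum) (X : IsoData) (i : D.Idx) : Bool := X.inS (codeI D i)

/-- the involution of the coordinates exchanging the two blocks -/
def tauI (D : ChevalleyDatum) (X : IsoData) (i : D.Idx) : D.Idx :=
  match i with
  | Sum.inl i => if h : X.sm.getD i.val 0 < D.rank then Sum.inl ⟨_, h⟩ else Sum.inl i
  | Sum.inr r => if h : X.rho.getD r.val 0 < D.nroots then Sum.inr ⟨_, h⟩ else Sum.inr r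

theorem codeI_tauI (D : ChevalleyDatum) (X : IsoData) (hb : isoBasic D X = true) (i : D.Idx) :
    codeI D (tauI D X i) = X.tau (codeI D i) := by
  obtain ⟨h1, h2⟩ := isoBasic_spec D X hb
  rcases i with i | i
  · unfold tauI
    simp only
    rw [dif_pos (h1 i.val i.isLt).1]
    rfl
  · unfold tauI
    simp only
    rw [dif_pos (h2 i.val i.isLt).1]
    rfl

theorem tau_tau_codeI (D : ChevalleyDatum) (X : IsoData) (hb : isoBasic D X = true) (i : D.Idx) :
    X.tau (X.tau (codeI D i)) = codeI D i := by
  obtain ⟨h1, h2⟩ := isoBasic_spec D X hb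
  rcases i with i | i
  · show Sum.inl (X.sm.getD (X.sm.getD i.val 0) 0) = Sum.inl i.val
    rw [(h1 i.val i.isLt).2.1]
  · show Sum.inr (X.rho.getD (X.rho.getD i.val 0) 0) = Sum.inr i.val
    rw [(h2 i.val i.isLt).2.1]

theorem tauI_tauI (D : ChevalleyDatum) (X : IsoData) (hb : isoBasic D X = true) (i : D.Idx) :
    tauI D X (tauI D X i) = i := by
  apply codeI_injective
  rw [codeI_tauI D X hb, codeI_tauI D X hb, tau_tau_codeI D X hb]

theorem inSI_tauI (D : ChevalleyDatum) (X : IsoData) (hb : isoBasic D X = true) (i : D.Idx) :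
    inSI D X (tauI D X i) = !inSI D X i := by
  obtain ⟨h1, h2⟩ := isoBasic_spec D X hb
  unfold inSI
  rw [codeI_tauI D X hb]
  rcases i with i | i
  · exact (h1 i.val i.isLt).2.2
  · exact (h2 i.val i.isLt).2.2

/-- the short block of coordinates -/
abbrev SIdx (D : ChevalleyDatum) (X : IsoData) : Type := {i : D.Idx // inSI D X i = true}

section blocks

variable {F : Type*} [Field F] (D : ChevalleyDatum) (X : IsoData)

/-- block triangular: the short block is invariant -/
def BT (M : Matrix D.Idx D.Idx F) : Prop :=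
  ∀ i j, inSI D X i = false → inSI D X j = true → M i j = 0

theorem BT.one : BT D X (1 : Matrix D.Idx D.Idx F) := by
  intro i j hi hj
  apply Matrix.one_apply_ne
  rintro rfl
  rw [hi] at hj
  exact Bool.false_ne_true hj

variable {D X} in
theorem BT.mul {M N : Matrix D.Idx D.Idx F} (hM : BT D X M) (hN : BT D X N) : BT D X (M * N) := by
  intro i j hi hj
  rw [Matrix.mul_apply]
  apply Finset.sum_eq_zero
  intro l _
  cases hl : inSI D X l
  · rw [hN l j hl hj, mul_zero]
  · rw [hM i l hi hl, zero_mul]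

/-- invertible block triangular matrices with block triangular inverse -/
def btGroup (F : Type*) [Field F] (D : ChevalleyDatum) (X : IsoData) : Subgroup (GL D.Idx F) where
  carrier := {g | BT D X (g : Matrix D.Idx D.Idx F) ∧
    BT D X ((g⁻¹ : GL D.Idx F) : Matrix D.Idx D.Idx F)}
  one_mem' := ⟨BT.one D X, by rw [inv_one]; exact BT.one D X⟩
  mul_mem' := by
    rintro a b ⟨ha, ha'⟩ ⟨hb, hb'⟩
    exact ⟨by rw [Units.val_mul]; exact ha.mul hb,
      by rw [mul_inv_rev, Units.val_mul]; exact hb'.mul ha'⟩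
  inv_mem' := by
    rintro a ⟨ha, ha'⟩
    exact ⟨ha', by rwa [inv_inv]⟩

/-- the short diagonal block -/
def blkS (M : Matrix D.Idx D.Idx F) : Matrix (SIdx D X) (SIdx D X) F := fun a b => M a.1 b.1

/-- the long diagonal block, carried to the short coordinates -/
def blkT (M : Matrix D.Idx D.Idx F) : Matrix (SIdx D X) (SIdx D X) F :=
  fun a b => M (tauI D X a.1) (tauI D X b.1)

theorem blkS_one : blkS D X (1 : Matrix D.Idx D.Idx F) = 1 := by
  ext a b
  simp only [blkS, Matrix.one_apply, Subtype.ext_iff]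

theorem blkT_one (hb : isoBasic D X = true) : blkT D X (1 : Matrix D.Idx D.Idx F) = 1 := by
  ext a b
  have : tauI D X a.1 = tauI D X b.1 ↔ a = b :=
    ⟨fun h => Subtype.ext (by
      have := congrArg (tauI D X) h
      rwa [tauI_tauI D X hb, tauI_tauI D X hb] at this), fun h => by rw [h]⟩
  simp only [blkT, Matrix.one_apply, this]

theorem blkS_mul (M N : Matrix D.Idx D.Idx F) (hN : BT D X N) :
    blkS D X (M * N) = blkS D X M * blkS D X N := by
  ext a b
  simp only [blkS, Matrix.mul_apply]
  rw [← Fintype.sum_subtype_add_sum_subtype (fun j => inSI D X j = true)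
    (fun j => M a.1 j * N j b.1), add_eq_left]
  apply Finset.sum_eq_zero
  rintro ⟨j, hj⟩ -
  rw [hN j b.1 (by simpa using hj) b.2, mul_zero]

theorem blkT_mul (hb : isoBasic D X = true) (M N : Matrix D.Idx D.Idx F) (hM : BT D X M) :
    blkT D X (M * N) = blkT D X M * blkT D X N := by
  ext a b
  simp only [blkT, Matrix.mul_apply]
  have key : ∑ j, M (tauI D X a.1) j * N j (tauI D X b.1) =
      ∑ j, M (tauI D X a.1) (tauI D X j) * N (tauI D X j) (tauI D X b.1) := by
    rw [← Equiv.sum_comp (Function.Involutive.toPerm (tauI D X) (tauI_tauI D X hb))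
      (fun j => M (tauI D X a.1) j * N j (tauI D X b.1))]
    rfl
  rw [key, ← Fintype.sum_subtype_add_sum_subtype (fun j => inSI D X j = true)
    (fun j => M (tauI D X a.1) (tauI D X j) * N (tauI D X j) (tauI D X b.1)), add_eq_left]
  apply Finset.sum_eq_zero
  rintro ⟨j, hj⟩ -
  have h1 : inSI D X (tauI D X a.1) = false := by rw [inSI_tauI D X hb, a.2]; rfl
  have h2 : inSI D X (tauI D X j) = true := by
    rw [inSI_tauI D X hb]
    simpa using hj
  rw [hM _ _ h1 h2, zero_mul]

/-- the two diagonal blocks, as a homomorphism -/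
def isoHom (hb : isoBasic D X = true) (hG : D.group F ≤ btGroup F D X) :
    ↥(D.group F) →* (Matrix (SIdx D X) (SIdx D X) F × Matrix (SIdx D X) (SIdx D X) F) where
  toFun g := (blkS D X ((g : GL D.Idx F) : Matrix D.Idx D.Idx F),
    blkT D X ((g : GL D.Idx F) : Matrix D.Idx D.Idx F))
  map_one' := by
    show (blkS D X (1 : Matrix D.Idx D.Idx F), blkT D X (1 : Matrix D.Idx D.Idx F)) = 1
    rw [blkS_one, blkT_one D X hb]
    rfl
  map_mul' := fun a b => by
    show (blkS D X (((a : GL D.Idx F) : Matrix D.Idx D.Idx F) * ((b : GL D.Idx F) : Matrix D.Idx D.Idx F)),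
      blkT D X (((a : GL D.Idx F) : Matrix D.Idx D.Idx F) * ((b : GL D.Idx F) : Matrix D.Idx D.Idx F))) = _
    rw [blkS_mul D X _ _ (hG b.2).1, blkT_mul D X hb _ _ (hG a.2).1]
    rfl

/-- an element with trivial diagonal blocks does not change the diagonal blocks of a product -/
theorem ker_mul_apply (hb : isoBasic D X = true) (k b : Matrix D.Idx D.Idx F) (hk : BT D X k)
    (hbt : BT D X b) (h1 : blkS D X k = 1) (h2 : blkT D X k = 1) (i j : D.Idx)
    (hij : inSI D X i = inSI D X j) : (k * b) i j = b i j := by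
  cases hi : inSI D X i
  · have hi' : inSI D X (tauI D X i) = true := by rw [inSI_tauI D X hb, hi]; rfl
    have hj' : inSI D X (tauI D X j) = true := by rw [inSI_tauI D X hb, ← hij, hi]; rfl
    have := congrFun (congrFun (blkT_mul D X hb k b hk) ⟨tauI D X i, hi'⟩) ⟨tauI D X j, hj'⟩
    rw [h2, one_mul] at this
    simp only [blkT, tauI_tauI D X hb] at this
    exact this
  · have hj : inSI D X j = true := by rw [← hij, hi]
    have := congrFun (congrFun (blkS_mul D X k b hbt) ⟨i, hi⟩) ⟨j, hj⟩
    rw [h1, one_mul] at this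
    exact this

end blocks

end Cfsg.Agent.Lib.helper11
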