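import Cfsg.Agent.Lib.helper11d.Iso2
import Cfsg.Agent.S1042
import Cfsg.Agent.S1051
import Cfsg.Agent.S1095
import Cfsg.Agent.Lib.helper2.BN
import Cfsg.Agent.Lib.helper11.ChevHAll
import Cfsg.Agent.Lib.helper11.ChevHOK
import Cfsg.Agent.Lib.helper11.ChevTriOK

/-! The exceptional isogenies as automorphisms (perfect fields of characteristic `p`). -/

set_option autoImplicit false

namespace Cfsg.Agent.Lib.helper11

open Cfsg Cfsg.Lie

section gens

variable {F : Type*} [Field F] (D : ChevalleyDatum) (X : IsoData) (p : ℕ)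

theorem isoRow_spec (hX : IsoCert D X p) (r : ℕ) (hr : r < D.nroots) (s s' : D.Idx)
    (hs : inSI D X s = true) (hs' : inSI D X s' = true) :
    chkZ p (entN D r (X.tau (codeI D s)) (codeI D s')) = true ∧
    chkE p 1 (X.lam p r) (entN D r (X.tau (codeI D s)) (X.tau (codeI D s')))
      (entN D (X.rho.getD r 0) (codeI D s) (codeI D s')) = true ∧
    chkE p p (X.lam p r) (entN D r (codeI D s) (codeI D s'))
      (entN D (X.rho.getD r 0) (X.tau (codeI D s)) (X.tau (codeI D s'))) = true := by
  have h := hX.2.2 r hr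
  unfold isoRow at h
  rw [List.all_eq_true] at h
  have h1 := h (codeI D s) (codeI_mem D s)
  rw [Bool.or_eq_true, Bool.not_eq_true'] at h1
  rcases h1 with h1 | h1
  · unfold inSI at hs
    rw [hs] at h1
    exact absurd h1 (by decide)
  rw [List.all_eq_true] at h1
  have h2 := h1 (codeI D s') (codeI_mem D s')
  rw [Bool.or_eq_true, Bool.not_eq_true'] at h2
  rcases h2 with h2 | h2
  · unfold inSI at hs'
    rw [hs'] at h2
    exact absurd h2 (by decide)
  rw [Bool.and_eq_true, Bool.and_eq_true] at h2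
  exact ⟨h2.1.1, h2.1.2, h2.2⟩

theorem x_entN (r : ℕ) (hr : r < D.nroots) (t : F) (row col : D.Idx) :
    D.x F r t row col = evalMP F (entN D r (codeI D row) (codeI D col)) t := by
  unfold ChevalleyDatum.x
  rw [dif_pos hr]
  exact xMat_entN D ⟨r, hr⟩ t row col

theorem gen_BT [CharP F p] (hX : IsoCert D X p) (r : ℕ) (t : F) : BT D X (D.x F r t) := by
  by_cases hr : r < D.nroots
  · intro i j hi hj
    have hi' : inSI D X (tauI D X i) = true := by rw [inSI_tauI D X hX.1, hi]; rfl
    have h := (isoRow_spec D X p hX r hr (tauI D X i) j hi' hj).1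
    rw [← codeI_tauI D X hX.1, tauI_tauI D X hX.1] at h
    rw [x_entN D r hr]
    exact chkZ_sound p _ h t
  · unfold ChevalleyDatum.x
    rw [dif_neg hr]
    exact BT.one D X

theorem gen_E1 [Fact p.Prime] [CharP F p] (hX : IsoCert D X p) (r : ℕ) (hr : r < D.nroots)
    (t : F) : blkT D X (D.x F r t) = blkS D X (D.x F (X.rho.getD r 0) (t ^ X.lam p r)) := by
  have hr' := ((isoBasic_spec D X hX.1).2 r hr).1
  ext a b
  simp only [blkT, blkS]
  rw [x_entN D r hr, x_entN D _ hr', codeI_tauI D X hX.1, codeI_tauI D X hX.1]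
  have h := (isoRow_spec D X p hX r hr a.1 b.1 a.2 b.2).2.1
  have := chkE_sound (F := F) p 1 (X.lam p r) (Or.inl rfl) _ _ h t
  rwa [pow_one] at this

theorem gen_E2 [Fact p.Prime] [CharP F p] (hX : IsoCert D X p) (r : ℕ) (hr : r < D.nroots)
    (t : F) : (blkS D X (D.x F r t)).map (fun x => x ^ p) =
      blkT D X (D.x F (X.rho.getD r 0) (t ^ X.lam p r)) := by
  have hr' := ((isoBasic_spec D X hX.1).2 r hr).1
  ext a b
  simp only [blkT, blkS, Matrix.map_apply]
  rw [x_entN D r hr, x_entN D _ hr', codeI_tauI D X hX.1, codeI_tauI D X hX.1]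
  exact chkE_sound (F := F) p p (X.lam p r) (Or.inr rfl) _ _
    (isoRow_spec D X p hX r hr a.1 b.1 a.2 b.2).2.2 t

theorem isoSimple_spec (hs : isoSimple D X = true) (i : ℕ) (hi : i < D.rank) :
    D.simple i < D.nroots ∧ D.neg (D.simple i) < D.simple i ∧
    X.shR.getD (D.simple i) false = X.shR.getD (D.neg (D.simple i)) false ∧
    D.reflectRoot i (D.simple i) = D.neg (D.simple i) := by
  unfold isoSimple at hs
  rw [List.all_eq_true] at hs
  have := hs i (List.mem_range.mpr hi)
  simp only [Bool.and_eq_true, decide_eq_true_eq, beq_iff_eq] at this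
  exact ⟨this.1.1.1, this.1.1.2, this.1.2, this.2⟩

end gens

/-- exchange the two blocks, with the Frobenius map on one of them -/
def frobPair (F : Type*) [Field F] (p : ℕ) [Fact p.Prime] [CharP F p] (n : Type*) [Fintype n]
    [DecidableEq n] : (Matrix n n F × Matrix n n F) →* (Matrix n n F × Matrix n n F) :=
  MonoidHom.prod (MonoidHom.snd _ _)
    (((frobenius F p).mapMatrix : Matrix n n F →+* Matrix n n F).toMonoidHom.comp
      (MonoidHom.fst _ _))

theorem frobPair_apply {F : Type*} [Field F] (p : ℕ) [Fact p.Prime] [CharP F p] (n : Type*)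
    [Fintype n] [DecidableEq n] (A B : Matrix n n F) :
    frobPair F p n (A, B) = (B, A.map (fun x => x ^ p)) := rfl

theorem frobPair_injective {F : Type*} [Field F] (p : ℕ) [Fact p.Prime] [CharP F p] (n : Type*)
    [Fintype n] [DecidableEq n] : Function.Injective (frobPair F p n) := by
  rintro ⟨A, B⟩ ⟨A', B'⟩ h
  rw [frobPair_apply, frobPair_apply, Prod.mk.injEq] at h
  obtain ⟨h1, h2⟩ := h
  subst h1
  have : A = A' := by
    ext i j
    have := congrFun (congrFun h2 i) j
    simp only [Matrix.map_apply] at this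
    exact frobenius_inj F p this
  rw [this]

theorem exists_aut_of_map {G M : Type*} [Group G] [Group M] (ι : G →* M)
    (hι : Function.Injective ι) (Θ : M →* M) (hΘ : Function.Injective Θ)
    (h : ι.range.map Θ = ι.range) : ∃ α : G ≃* G, ∀ g, ι (α g) = Θ (ι g) := by
  refine ⟨((MonoidHom.ofInjective hι).trans ((ι.range.equivMapOfInjective Θ hΘ).trans
    (MulEquiv.subgroupCongr h))).trans (MonoidHom.ofInjective hι).symm, fun g => ?_⟩
  simp only [MulEquiv.trans_apply]
  rw [MonoidHom.apply_ofInjective_symm]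
  rfl

/-- the diagonal blocks determine the element -/
theorem isoHom_injective {F : Type*} [Field F] (D : ChevalleyDatum)
    (hD : D ∈ [chevG2, chevB2, chevD4, chevF4, chevE6, chevE7, chevE8]) (X : IsoData)
    (hb : isoBasic D X = true) (hs : isoSimple D X = true) (hG : D.group F ≤ btGroup F D X) :
    Function.Injective (isoHom D X hb hG).toHomUnits := by
  rw [injective_iff_map_eq_one]
  obtain ⟨P, hPB, -, hPS⟩ := Cfsg.Agent.S1042.result (F := F) D hD
  have hK : (isoHom D X hb hG).toHomUnits.ker ≤ P.B := by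
    have hM : P.B ≤ (isoHom D X hb hG).toHomUnits.ker ⊔ P.B := le_sup_right
    have hpar := Cfsg.Agent.Lib.helper2.BN.eq_parabolic P _ hM
    have hempty : P.S ∩ (((isoHom D X hb hG).toHomUnits.ker ⊔ P.B : Subgroup ↥(D.group F)) :
        Set ↥(D.group F)) = ∅ := by
      rw [Set.eq_empty_iff_forall_notMem]
      rintro x ⟨hxS, hxM⟩
      rw [hPS] at hxS
      obtain ⟨i, hi, hx⟩ := hxS
      rw [Subgroup.normal_mul] at hxM
      obtain ⟨k, hk, b, hbB, rfl⟩ := Set.mem_mul.mp hxM
      have hk' : (isoHom D X hb hG) k = 1 := by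
        have h2 := congrArg Units.val (MonoidHom.mem_ker.mp hk)
        rwa [MonoidHom.coe_toHomUnits] at h2
      have hk1 : blkS D X ((k : GL D.Idx F) : Matrix D.Idx D.Idx F) = 1 := congrArg Prod.fst hk'
      have hk2 : blkT D X ((k : GL D.Idx F) : Matrix D.Idx D.Idx F) = 1 := congrArg Prod.snd hk'
      obtain ⟨hs1, hs2, hs3, hs4⟩ := isoSimple_spec D X hs i hi
      have hrc : inSI D X (Sum.inr ⟨D.neg (D.simple i), hs2.trans hs1⟩) =
          inSI D X (Sum.inr ⟨D.simple i, hs1⟩) := hs3.symm
      have e1 := ker_mul_apply D X hb ((k : GL D.Idx F) : Matrix D.Idx D.Idx F)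
        ((b : GL D.Idx F) : Matrix D.Idx D.Idx F) (hG k.2).1 (hG b.2).1 hk1 hk2 _ _ hrc
      have hbB' : (b : GL D.Idx F) ∈ D.borelSubgroup F := by
        rw [hPB] at hbB
        exact Subgroup.mem_subgroupOf.mp hbB
      have htri := (borel_le_tri D hD (nxAll_of_mem D hD) (hcert_of_mem D hD) (tri_of_mem D hD)
        hbB').1
      have e2 : ((b : GL D.Idx F) : Matrix D.Idx D.Idx F)
          (Sum.inr ⟨D.neg (D.simple i), hs2.trans hs1⟩) (Sum.inr ⟨D.simple i, hs1⟩) = 0 := by
        by_contra hne
        rcases htri _ _ hne with h | h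
        · have := congrArg Fin.val (Sum.inr.inj h)
          simp only at this
          omega
        · rw [lev_inr_lt_iff] at h
          simp only at h
          omega
      obtain ⟨η, -, hη2, -, -, hmat⟩ := Cfsg.Agent.S1095.result (F := F) D hD i hi
      have e4 : D.nMat F (D.simple i) 1 (Sum.inr ⟨D.neg (D.simple i), hs2.trans hs1⟩)
          (Sum.inr ⟨D.simple i, hs1⟩) = ((η (D.simple i) : ℤ) : F) := by
        rw [hmat]
        simp only [Matrix.of_apply, Sum.elim_inr]
        rw [if_pos hs4.symm]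
      rw [← hx, Subgroup.coe_mul, Units.val_mul, e1, e2, hη2] at e4
      simp at e4
    rw [hempty, Subgroup.closure_empty, sup_bot_eq] at hpar
    exact le_sup_left.trans hpar.le
  have hcore : (isoHom D X hb hG).toHomUnits.ker ≤ P.B.normalCore :=
    Subgroup.normal_le_normalCore.mpr hK
  rw [hPB, Cfsg.Agent.S1051.result D hD] at hcore
  intro g hg
  exact Subgroup.mem_bot.mp (hcore (MonoidHom.mem_ker.mpr hg))

end Cfsg.Agent.Lib.helper11
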