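import Cfsg.Agent.Lib.helper11d.Par1
import Cfsg.Agent.S1043
import Cfsg.Agent.Lib.helper2.BN

/-! Standard parabolic subgroups: generation by root subgroups, and the normaliser of the
unipotent radical. -/

set_option autoImplicit false

namespace Cfsg.Agent.Lib.helper11

open Cfsg Cfsg.Lie

/-- generators of `P_J` as in `S1047` -/
def paraGen (F : Type*) [Field F] (D : ChevalleyDatum) (J : Set ℕ) : Set (GL D.Idx F) :=
  {g : GL D.Idx F | ∃ (r : ℕ) (t : F), (D.IsPosRoot r ∨ D.InRootSub J r) ∧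
    (g : Matrix D.Idx D.Idx F) = D.x F r t}

/-- generators of `U_J` -/
def radGen (F : Type*) [Field F] (D : ChevalleyDatum) (J : Set ℕ) : Set (GL D.Idx F) :=
  {g : GL D.Idx F | ∃ (r : ℕ) (t : F), D.IsPosRoot r ∧ ¬ D.InRootSub J r ∧
    (g : Matrix D.Idx D.Idx F) = D.x F r t}

theorem not_sub_iff (D : ChevalleyDatum) (J : Set ℕ) (r : ℕ) (hr : r < D.nroots) :
    ¬ D.InRootSub J r ↔ ∃ i < D.rank, i ∉ J ∧ cor D r i ≠ 0 := by
  constructor
  · intro h
    by_contra hcon
    push_neg at hcon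
    exact h ⟨hr, hcon⟩
  · rintro ⟨i, hi, hiJ, hne⟩ ⟨-, h⟩
    exact hne (h i hi hiJ)

theorem nU_mem_para {F : Type*} [Field F] (D : ChevalleyDatum)
    (hD : D ∈ [chevG2, chevB2, chevD4, chevF4, chevE6, chevE7, chevE8]) (J : Set ℕ) (j : ℕ)
    (hjJ : j ∈ J) (hj : j < D.rank) : nU D hD (D.simple j) (1 : F) ∈ D.parabolicSubgroup F J :=
  Subgroup.mem_sup_right (Subgroup.subset_closure ⟨j, hjJ, hj, nU_val D hD _ 1⟩)

/-- the root elements of `Φ_J` lie in `P_J` -/
theorem xU_mem_para_of_sub {F : Type*} [Field F] (D : ChevalleyDatum)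
    (hD : D ∈ [chevG2, chevB2, chevD4, chevF4, chevE6, chevE7, chevE8]) (hnx : NXAll D)
    (hclimb : climbOK D = true) (J : Set ℕ) :
    ∀ r : ℕ, D.InRootSub J r → ∀ t : F, xU D hD r t ∈ D.parabolicSubgroup F J := by
  intro r
  induction' hm : D.nroots - r using Nat.strong_induction_on with m ih generalizing r
  intro hr t
  by_cases hp : D.IsPosRoot r
  · exact Subgroup.mem_sup_left (Subgroup.mem_sup_left (xU_mem_pos D hD r hp t))
  · obtain ⟨j, hj, hne, hlt, hsub⟩ := climb_spec D hclimb r hr.1 hp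
    have hjJ : j ∈ J := by
      by_contra hcon
      exact hne (hr.2 j hj hcon)
    have hw := (hnx j hj).1
    have hr' := refl_lt D j r hw hr.1
    have hsub' : D.InRootSub J (D.reflectRoot j r) := ⟨hr', fun i hi hiJ => by
      by_contra hcon
      exact hsub i hcon (hr.2 i hi hiJ)⟩
    have ih' := ih (D.nroots - D.reflectRoot j r) (by omega) _ rfl hsub'
    have h1 := nU_conj_x (F := F) D hD hnx j (D.reflectRoot j r) hj hr'
      (((eta D j (D.reflectRoot j r) : ℤ) : F) * t)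
    rw [eta_mul_self D j _ (ok_of_mem D hD j hj) hr' t, refl_refl D j r hw hr.1] at h1
    rw [← h1]
    have hn := nU_mem_para (F := F) D hD J j hjJ hj
    exact Subgroup.mul_mem _ (Subgroup.mul_mem _ hn (ih' _)) (Subgroup.inv_mem _ hn)

/-- `P_J = ⟨H, X_r : r ∈ Φ⁺ ∪ Φ_J⟩` -/
theorem para_eq_gen {F : Type*} [Field F] (D : ChevalleyDatum)
    (hD : D ∈ [chevG2, chevB2, chevD4, chevF4, chevE6, chevE7, chevE8]) (hnx : NXAll D)
    (hc : HCert D) (hclimb : climbOK D = true) (hsimp : simpOK D = true) (J : Set ℕ) :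
    D.parabolicSubgroup F J = D.diagonalSubgroup F ⊔ Subgroup.closure (paraGen F D J) := by
  apply le_antisymm
  · unfold ChevalleyDatum.parabolicSubgroup ChevalleyDatum.borelSubgroup
    refine sup_le (sup_le ?_ le_sup_left) ?_
    · unfold ChevalleyDatum.posUnipotent
      rw [Subgroup.closure_le]
      rintro g ⟨r, t, hr, hg⟩
      exact Subgroup.mem_sup_right (Subgroup.subset_closure ⟨r, t, Or.inl hr, hg⟩)
    · rw [Subgroup.closure_le]
      rintro g ⟨j, hj, hjr, hg⟩
      rw [eq_nU D hD _ 1 g hg]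
      have hp := (hc.2 j hjr).2
      have hneg : D.InRootSub J (D.neg (D.simple j)) :=
        ⟨neg_lt' D hD hnx _ hp.1, fun i hi hiJ =>
          ((simp_spec D hsimp j hjr).2 i hi (by rintro rfl; exact hiJ hj)).2⟩
      apply Subgroup.mem_sup_right
      unfold nU
      exact Subgroup.mul_mem _ (Subgroup.mul_mem _
        (Subgroup.subset_closure ⟨_, _, Or.inl hp, rfl⟩)
        (Subgroup.subset_closure ⟨_, _, Or.inr hneg, rfl⟩))
        (Subgroup.subset_closure ⟨_, _, Or.inl hp, rfl⟩)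
  · apply sup_le
    · exact le_trans (le_sup_right (a := D.posUnipotent F)) le_sup_left
    · rw [Subgroup.closure_le]
      rintro g ⟨r, t, hr | hr, hg⟩
      · rw [eq_xU D hD r t g hg]
        exact Subgroup.mem_sup_left (Subgroup.mem_sup_left (xU_mem_pos D hD r hr t))
      · rw [eq_xU D hD r t g hg]
        exact xU_mem_para_of_sub D hD hnx hclimb J r hr t

/-- `X_r`, `r` positive, normalises `U_J` -/
theorem xU_pos_mem_normalizer_rad {F : Type*} [Field F] (D : ChevalleyDatum)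
    (hD : D ∈ [chevG2, chevB2, chevD4, chevF4, chevE6, chevE7, chevE8]) (L : ℕ → ℤ)
    (hwt : WtCert D L) (htri : triOK D = true) (hcomm : CommAll F D) (J : Set ℕ) (r : ℕ)
    (hr : D.IsPosRoot r) (t : F) :
    xU D hD r t ∈ Subgroup.normalizer (Subgroup.closure (radGen F D J) : Set _) := by
  have key : ∀ (t : F) (g : GL D.Idx F), g ∈ radGen F D J →
      (xU D hD r t)⁻¹ * g * xU D hD r t ∈ Subgroup.closure (radGen F D J) := by
    rintro t g ⟨s, u, hs, hsJ, hg⟩
    rw [eq_xU D hD s u g hg]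
    by_cases hrs : s = r
    · rw [hrs, xU_inv, xU_add D hD r hr.1, xU_add D hD r hr.1]
      rw [hrs] at hsJ
      exact Subgroup.subset_closure ⟨r, _, hr, hsJ, rfl⟩
    · have hsn : s ≠ D.neg r := by
        intro hcon
        have h1 := (triOK_pos D htri s hs).1
        have h2 := (triOK_pos D htri r hr).2.1
        rw [← hcon] at h2
        omega
      rw [xp_conj D hD r s (hcomm r hr.1 s hs.1 hrs hsn) t u]
      obtain ⟨i, hi, hiJ, hne⟩ := (not_sub_iff D J s hs.1).mp hsJ
      have hmem0 : xU D hD s u ∈ radGen F D J := ⟨s, u, hs, hsJ, rfl⟩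
      apply Subgroup.mul_mem _ (Subgroup.subset_closure hmem0)
      apply wordU_mem
      intro x hx
      unfold ChevalleyDatum.commWord at hx
      rw [List.mem_map] at hx
      obtain ⟨c, hc', rfl⟩ := hx
      obtain ⟨h1, h2, -⟩ := comm_term_pos D L hwt htri r s hr hs c hc'
      have hmem : xU D hD c.1 ((c.2.1 : F) * (-t) ^ c.2.2.1 * u ^ c.2.2.2) ∈ radGen F D J :=
        ⟨c.1, _, h1, (not_sub_iff D J c.1 h1.1).mpr ⟨i, hi, hiJ, h2 i hne⟩, rfl⟩
      exact Subgroup.subset_closure hmem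
  apply mem_normalizer_closure
  · intro g hg
    have := key (-t) g hg
    rwa [← xU_inv, inv_inv] at this
  · intro g hg
    exact key t g hg

/-- `H` normalises `U_J` -/
theorem diag_le_normalizer_rad {F : Type*} [Field F] (D : ChevalleyDatum)
    (hD : D ∈ [chevG2, chevB2, chevD4, chevF4, chevE6, chevE7, chevE8]) (hnx : NXAll D)
    (hc : HCert D) (J : Set ℕ) :
    D.diagonalSubgroup F ≤
      Subgroup.normalizer (Subgroup.closure (radGen F D J) : Set (GL D.Idx F)) := by
  unfold ChevalleyDatum.diagonalSubgroup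
  rw [Subgroup.closure_le]
  rintro g ⟨r, t, hr, ht, hg⟩
  rw [eq_hU D hD r t g hg]
  apply mem_normalizer_closure
  · rintro g' ⟨s, u, hs, hsJ, hg'⟩
    rw [eq_xU D hD s u g' hg']
    obtain ⟨c, hc'⟩ := hU_conj_x D hD hnx hc r hr t ht s hs.1 u
    rw [hc']
    exact Subgroup.subset_closure ⟨s, c, hs, hsJ, rfl⟩
  · rintro g' ⟨s, u, hs, hsJ, hg'⟩
    rw [eq_xU D hD s u g' hg']
    obtain ⟨c, hc'⟩ := hU_conj_x D hD hnx hc r hr t⁻¹ (inv_ne_zero ht) s hs.1 u
    rw [← hU_inv D hD hnx hc r hr t ht, inv_inv] at hc'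
    rw [hc']
    exact Subgroup.subset_closure ⟨s, c, hs, hsJ, rfl⟩

/-- `n_{p_j}`, `j ∈ J`, normalises `U_J` -/
theorem nU_mem_normalizer_rad {F : Type*} [Field F] (D : ChevalleyDatum)
    (hD : D ∈ [chevG2, chevB2, chevD4, chevF4, chevE6, chevE7, chevE8]) (hnx : NXAll D)
    (hc : HCert D) (hup : UpCert D) (L : ℕ → ℤ) (hwt : WtCert D L) (hsimp : simpOK D = true)
    (J : Set ℕ) (j : ℕ) (hjJ : j ∈ J) (hj : j < D.rank) :
    nU D hD (D.simple j) (1 : F) ∈
      Subgroup.normalizer (Subgroup.closure (radGen F D J) : Set _) := by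
  have hrefl : ∀ s, D.IsPosRoot s → ¬ D.InRootSub J s →
      D.IsPosRoot (D.reflectRoot j s) ∧ ¬ D.InRootSub J (D.reflectRoot j s) := by
    intro s hs hsJ
    obtain ⟨i, hi, hiJ, hne⟩ := (not_sub_iff D J s hs.1).mp hsJ
    have hij : i ≠ j := by rintro rfl; exact hiJ hjJ
    have hsp : s ≠ D.simple j := by
      rintro rfl
      exact hne ((simp_spec D hsimp j hj).2 i hi hij).1
    have h1 := (upRow_spec D j s (hup j hj s hs.1) hs hsp).1.1
    refine ⟨h1, (not_sub_iff D J _ h1.1).mpr ⟨i, hi, hiJ, ?_⟩⟩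
    rw [Ne, refl_supp D L hwt hsimp hc hnx hD j s hj hs.1 i hi hij]
    exact hne
  apply mem_normalizer_closure
  · rintro g ⟨s, u, hs, hsJ, hg⟩
    rw [eq_xU D hD s u g hg, nU_conj_x D hD hnx j s hj hs.1 u]
    obtain ⟨h1, h2⟩ := hrefl s hs hsJ
    exact Subgroup.subset_closure ⟨_, _, h1, h2, rfl⟩
  · rintro g ⟨s, u, hs, hsJ, hg⟩
    rw [eq_xU D hD s u g hg, nU_inv_conj_x D hD hnx j s hj hs.1 u]
    obtain ⟨h1, h2⟩ := hrefl s hs hsJ
    exact Subgroup.subset_closure ⟨_, _, h1, h2, rfl⟩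

/-- `P_J` normalises `U_J` -/
theorem para_le_normalizer {F : Type*} [Field F] (D : ChevalleyDatum)
    (hD : D ∈ [chevG2, chevB2, chevD4, chevF4, chevE6, chevE7, chevE8]) (hnx : NXAll D)
    (hc : HCert D) (hup : UpCert D) (L : ℕ → ℤ) (hwt : WtCert D L) (hsimp : simpOK D = true)
    (htri : triOK D = true) (hcomm : CommAll F D) (J : Set ℕ) :
    D.parabolicSubgroup F J ≤
      Subgroup.normalizer (D.unipotentRadical F J : Set (GL D.Idx F)) := by
  show _ ≤ Subgroup.normalizer (Subgroup.closure (radGen F D J) : Set (GL D.Idx F))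
  unfold ChevalleyDatum.parabolicSubgroup ChevalleyDatum.borelSubgroup
  refine sup_le (sup_le ?_ (diag_le_normalizer_rad D hD hnx hc J)) ?_
  · unfold ChevalleyDatum.posUnipotent
    rw [Subgroup.closure_le]
    rintro g ⟨r, t, hr, hg⟩
    rw [eq_xU D hD r t g hg]
    exact xU_pos_mem_normalizer_rad D hD L hwt htri hcomm J r hr t
  · rw [Subgroup.closure_le]
    rintro g ⟨j, hjJ, hj, hg⟩
    rw [eq_nU D hD _ 1 g hg]
    exact nU_mem_normalizer_rad D hD hnx hc hup L hwt hsimp J j hjJ hj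

/-- `P_J ≤ G` -/
theorem para_le_group {F : Type*} [Field F] (D : ChevalleyDatum)
    (hD : D ∈ [chevG2, chevB2, chevD4, chevF4, chevE6, chevE7, chevE8]) (hnx : NXAll D)
    (hc : HCert D) (J : Set ℕ) : D.parabolicSubgroup F J ≤ D.group F := by
  obtain ⟨hBG, -, -⟩ := Cfsg.Agent.S1043.main0 (F := F) D hD hnx hc
  unfold ChevalleyDatum.parabolicSubgroup
  refine sup_le hBG ?_
  rw [Subgroup.closure_le]
  rintro g ⟨j, -, -, hg⟩
  rw [eq_nU D hD _ 1 g hg]
  exact nU_mem_group D hD _ _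

/-- `N_G(U_J) = P_J` -/
theorem normalizer_rad_eq {F : Type*} [Field F] (D : ChevalleyDatum)
    (hD : D ∈ [chevG2, chevB2, chevD4, chevF4, chevE6, chevE7, chevE8]) (hnx : NXAll D)
    (hc : HCert D) (hup : UpCert D) (L : ℕ → ℤ) (hwt : WtCert D L) (hsimp : simpOK D = true)
    (htri : triOK D = true) (hcomm : CommAll F D) (J : Set ℕ) (hJ : ∀ j ∈ J, j < D.rank) :
    Subgroup.normalizer (D.unipotentRadical F J : Set (GL D.Idx F)) ⊓ D.group F =
      D.parabolicSubgroup F J := by
  have hPN := para_le_normalizer D hD hnx hc hup L hwt hsimp htri hcomm J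
  have hPG := para_le_group (F := F) D hD hnx hc J
  apply le_antisymm _ (le_inf hPN hPG)
  obtain ⟨P, hPB, -, hPS⟩ := exists_bn (F := F) D hD hnx hc htri hup hcomm
  have hBP : D.borelSubgroup F ≤ D.parabolicSubgroup F J := le_sup_left
  have hM : P.B ≤ (Subgroup.normalizer (D.unipotentRadical F J : Set (GL D.Idx F)) ⊓
      D.group F).subgroupOf (D.group F) := by
    intro x hx
    rw [hPB, Subgroup.mem_subgroupOf] at hx
    rw [Subgroup.mem_subgroupOf]
    exact ⟨hPN (hBP hx), x.2⟩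
  have hle : P.B ⊔ Subgroup.closure (P.S ∩
      (((Subgroup.normalizer (D.unipotentRadical F J : Set (GL D.Idx F)) ⊓
        D.group F).subgroupOf (D.group F) : Subgroup ↥(D.group F)) : Set ↥(D.group F))) ≤
      (D.parabolicSubgroup F J).subgroupOf (D.group F) := by
    apply sup_le
    · intro x hx
      rw [hPB, Subgroup.mem_subgroupOf] at hx
      rw [Subgroup.mem_subgroupOf]
      exact hBP hx
    · rw [Subgroup.closure_le]
      rintro x ⟨hxS, hxM⟩
      rw [hPS] at hxS
      obtain ⟨i, hi, hx⟩ := hxS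
      have hxn : (x : GL D.Idx F) = nU D hD (D.simple i) 1 := eq_nU D hD _ 1 _ hx
      have hxN : (x : GL D.Idx F) ∈
          Subgroup.normalizer (D.unipotentRadical F J : Set (GL D.Idx F)) := hxM.1
      show (x : GL D.Idx F) ∈ D.parabolicSubgroup F J
      rw [hxn]
      by_cases hiJ : i ∈ J
      · exact nU_mem_para D hD J i hiJ hi
      · exfalso
        rw [hxn] at hxN
        have hp := (hc.2 i hi).2
        have hpJ : ¬ D.InRootSub J (D.simple i) :=
          (not_sub_iff D J _ hp.1).mpr ⟨i, hi, hiJ, (simp_spec D hsimp i hi).1⟩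
        have h1 : xU D hD (D.simple i) (1 : F) ∈ D.unipotentRadical F J :=
          Subgroup.subset_closure ⟨_, _, hp, hpJ, rfl⟩
        have h2 := (Subgroup.mem_normalizer_iff.mp hxN _).mp h1
        rw [nU_conj_x D hD hnx i _ hi hp.1, refl_simple] at h2
        have h3 : D.unipotentRadical F J ≤ D.borelSubgroup F := by
          refine le_trans ?_ (le_sup_left (a := D.posUnipotent F))
          unfold ChevalleyDatum.unipotentRadical ChevalleyDatum.posUnipotent
          apply Subgroup.closure_mono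
          rintro g ⟨r, t, hr, -, hg⟩
          exact ⟨r, t, hr, hg⟩
        exact xU_neg_not_mem_borel D hD hnx hc htri _ (neg_of_pos D hD hnx htri _ hp) _
          (mul_ne_zero (eta_ne_zero D i _ (ok_of_mem D hD i hi) hp.1) one_ne_zero) (h3 h2)
  intro g hg
  have hgG : g ∈ D.group F := hg.2
  have h1 : (⟨g, hgG⟩ : ↥(D.group F)) ∈
      (Subgroup.normalizer (D.unipotentRadical F J : Set (GL D.Idx F)) ⊓
        D.group F).subgroupOf (D.group F) := by
    rw [Subgroup.mem_subgroupOf]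
    exact hg
  rw [Cfsg.Agent.Lib.helper2.BN.eq_parabolic P _ hM] at h1
  exact hle h1

end Cfsg.Agent.Lib.helper11
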