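import Cfsg.Agent.Lib.helper11d.Par2

/-! The Levi decomposition `P_J = U_J ⋊ L_J` of a standard parabolic subgroup. -/

set_option autoImplicit false

namespace Cfsg.Agent.Lib.helper11

open Cfsg Cfsg.Lie

section zlev

variable {ι : Type*} [Fintype ι] [DecidableEq ι] {F : Type*} [Field F]

/-- nonzero entries preserve the (integer) level -/
def LZ (ℓ : ι → ℤ) (A : Matrix ι ι F) : Prop := ∀ row col, A row col ≠ 0 → ℓ row = ℓ col

/-- nonzero entries strictly raise the (integer) level -/
def SZ (ℓ : ι → ℤ) (A : Matrix ι ι F) : Prop := ∀ row col, A row col ≠ 0 → ℓ col < ℓ row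

theorem LZ.one (ℓ : ι → ℤ) : LZ ℓ (1 : Matrix ι ι F) := by
  intro row col h
  by_contra hne
  exact h (Matrix.one_apply_ne (fun e => hne (by rw [e])))

theorem LZ.mul {ℓ : ι → ℤ} {A B : Matrix ι ι F} (hA : LZ ℓ A) (hB : LZ ℓ B) : LZ ℓ (A * B) := by
  intro row col h
  obtain ⟨k, h1, h2⟩ := exists_mul_ne_zero A B row col h
  exact (hA _ _ h1).trans (hB _ _ h2)

theorem LZ.of_sub_one {ℓ : ι → ℤ} {A : Matrix ι ι F} (h : LZ ℓ (A - 1)) : LZ ℓ A := by
  intro row col hne
  by_cases hrc : row = col
  · rw [hrc]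
  · apply h
    rwa [Matrix.sub_apply, Matrix.one_apply_ne hrc, sub_zero]

theorem SZ.zero (ℓ : ι → ℤ) : SZ ℓ (0 : Matrix ι ι F) := by
  intro row col h
  exact absurd rfl h

theorem SZ.add {ℓ : ι → ℤ} {A B : Matrix ι ι F} (hA : SZ ℓ A) (hB : SZ ℓ B) : SZ ℓ (A + B) := by
  intro row col h
  by_contra hcon
  apply h
  have h1 : A row col = 0 := by
    by_contra h1
    exact hcon (hA _ _ h1)
  have h2 : B row col = 0 := by
    by_contra h2
    exact hcon (hB _ _ h2)
  rw [Matrix.add_apply, h1, h2, add_zero]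

theorem SZ.mul {ℓ : ι → ℤ} {A B : Matrix ι ι F} (hA : SZ ℓ A) (hB : SZ ℓ B) : SZ ℓ (A * B) := by
  intro row col h
  obtain ⟨k, h1, h2⟩ := exists_mul_ne_zero A B row col h
  exact lt_trans (hB _ _ h2) (hA _ _ h1)

/-- invertible level-preserving matrices -/
def lzGroup (ℓ : ι → ℤ) : Subgroup (GL ι F) where
  carrier := {g | LZ ℓ (g : Matrix ι ι F) ∧ LZ ℓ ((g⁻¹ : GL ι F) : Matrix ι ι F)}
  one_mem' := by
    constructor
    · rw [Units.val_one]; exact LZ.one ℓ
    · rw [inv_one, Units.val_one]; exact LZ.one ℓ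
  mul_mem' := by
    rintro a b ⟨ha, ha'⟩ ⟨hb, hb'⟩
    constructor
    · rw [Units.val_mul]; exact ha.mul hb
    · rw [mul_inv_rev, Units.val_mul]; exact hb'.mul ha'
  inv_mem' := by
    rintro a ⟨ha, ha'⟩
    exact ⟨ha', by rwa [inv_inv]⟩

/-- invertible matrices `g` with `g - 1` and `g⁻¹ - 1` strictly level-raising -/
def szGroup (ℓ : ι → ℤ) : Subgroup (GL ι F) where
  carrier := {g | SZ ℓ ((g : Matrix ι ι F) - 1) ∧ SZ ℓ (((g⁻¹ : GL ι F) : Matrix ι ι F) - 1)}
  one_mem' := by
    constructor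
    · rw [Units.val_one, sub_self]; exact SZ.zero ℓ
    · rw [inv_one, Units.val_one, sub_self]; exact SZ.zero ℓ
  mul_mem' := by
    rintro a b ⟨ha, ha'⟩ ⟨hb, hb'⟩
    constructor
    · have : ((a * b : GL ι F) : Matrix ι ι F) - 1 =
          ((a : Matrix ι ι F) - 1) * ((b : Matrix ι ι F) - 1) + ((a : Matrix ι ι F) - 1) +
            ((b : Matrix ι ι F) - 1) := by
        rw [Units.val_mul]; noncomm_ring
      rw [this]
      exact ((ha.mul hb).add ha).add hb
    · have : (((a * b)⁻¹ : GL ι F) : Matrix ι ι F) - 1 =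
          (((b⁻¹ : GL ι F) : Matrix ι ι F) - 1) * (((a⁻¹ : GL ι F) : Matrix ι ι F) - 1) +
            (((b⁻¹ : GL ι F) : Matrix ι ι F) - 1) + (((a⁻¹ : GL ι F) : Matrix ι ι F) - 1) := by
        rw [mul_inv_rev, Units.val_mul]; noncomm_ring
      rw [this]
      exact ((hb'.mul ha').add hb').add ha'
  inv_mem' := by
    rintro a ⟨ha, ha'⟩
    exact ⟨ha', by rwa [inv_inv]⟩

theorem lz_sz_eq_one (ℓ : ι → ℤ) (g : GL ι F) (h1 : g ∈ lzGroup (F := F) ℓ)
    (h2 : g ∈ szGroup (F := F) ℓ) : g = 1 := by
  apply Units.ext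
  ext row col
  by_contra hne
  rw [Units.val_one] at hne
  have h3 : ((g : Matrix ι ι F) - 1) row col ≠ 0 := by
    rw [Matrix.sub_apply]
    exact sub_ne_zero.mpr hne
  have h4 := h2.1 row col h3
  by_cases hrc : row = col
  · rw [hrc] at h4
    exact lt_irrefl _ h4
  · have h5 : (g : Matrix ι ι F) row col ≠ 0 := by
      rwa [Matrix.sub_apply, Matrix.one_apply_ne hrc, sub_zero] at h3
    have := h1.1 row col h5
    omega

end zlev

/-- scaled coroot weight of a coordinate -/
def wtI (D : ChevalleyDatum) (L : ℕ → ℤ) : D.Idx → ℕ → ℤ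
  | Sum.inl _, _ => 0
  | Sum.inr v, i => cor D v.val i * L v.val

/-- the entries of `x_r(t) - 1` shift the weight by a positive multiple of `r` -/
theorem xMat_wt {F : Type*} [Field F] (D : ChevalleyDatum) (L : ℕ → ℤ) (hwt : WtCert D L)
    (r : Fin D.nroots) (t : F) (row col : D.Idx) (h : (D.xMat F r t - 1) row col ≠ 0) :
    ∃ k : ℤ, 1 ≤ k ∧ ∀ i, wtI D L row i = wtI D L col i + k * (cor D r.val i * L r.val) := by
  rw [Matrix.sub_apply] at h
  rcases col with i | s <;> rcases row with i' | u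
  · exfalso
    apply h
    rw [Cfsg.Agent.S1023.xMat_inl_inl, Matrix.one_apply]
    by_cases e : i' = i
    · simp [e]
    · have : (Sum.inl i' : D.Idx) ≠ Sum.inl i := fun h' => e (Sum.inl.inj h')
      simp [e, this]
  · rw [Cfsg.Agent.S1023.xMat_inr_inl, Matrix.one_apply_ne (by simp), sub_zero] at h
    by_cases hu : u = r
    · subst hu
      exact ⟨1, le_refl _, fun j => by simp [wtI]⟩
    · rw [if_neg hu] at h
      exact absurd rfl h
  · rw [Cfsg.Agent.S1023.xMat_inl_inr, Matrix.one_apply_ne (by simp), sub_zero] at h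
    by_cases hs : s = r
    · rw [if_pos hs] at h
      exact absurd rfl h
    · rw [if_neg hs] at h
      by_cases hs2 : s.val = D.negIdx.getD r.val 0
      · refine ⟨1, le_refl _, fun j => ?_⟩
        have := wt_neg D L hwt r.val r.isLt j
        have e : s.val = D.neg r.val := hs2
        show (0 : ℤ) = cor D s.val j * L s.val + 1 * (cor D r.val j * L r.val)
        rw [e, this]
        ring
      · rw [if_neg hs2] at h
        exact absurd rfl h
  · rw [Cfsg.Agent.S1023.xMat_inr_inr] at h
    by_cases hs : s = r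
    · exfalso
      apply h
      rw [if_pos hs, Matrix.one_apply]
      subst hs
      by_cases e : u = s
      · simp [e]
      · have : (Sum.inr u : D.Idx) ≠ Sum.inr s := fun h' => e (Sum.inr.inj h')
        simp [e, this]
    · rw [if_neg hs] at h
      by_cases hs2 : s.val = D.negIdx.getD r.val 0
      · rw [if_pos hs2] at h
        by_cases hus : u = s
        · exfalso
          apply h
          subst hus
          simp
        · rw [if_neg hus, Matrix.one_apply_ne (fun h' => hus (Sum.inr.inj h')), sub_zero] at h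
          by_cases hu : u = r
          · subst hu
            refine ⟨2, by norm_num, fun j => ?_⟩
            have := wt_neg D L hwt u.val u.isLt j
            have e : s.val = D.neg u.val := hs2
            show cor D u.val j * L u.val =
              cor D s.val j * L s.val + 2 * (cor D u.val j * L u.val)
            rw [e, this]
            ring
          · rw [if_neg hu] at h
            exact absurd rfl h
      · rw [if_neg hs2] at h
        have hne : D.chainCoeff r.val s.val u.val ≠ [] := by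
          intro hnil
          apply h
          rw [hnil]
          by_cases hus : u = s
          · subst hus
            simp [Cfsg.Agent.S1023.pev]
          · simp [hus, Cfsg.Agent.S1023.pev,
              Matrix.one_apply_ne (fun h' => hus (Sum.inr.inj h'))]
        obtain ⟨e, he, hes, q, hq, hqu⟩ := chainCoeff_ne_nil D r.val s.val u.val hne
        obtain ⟨-, k, hk, hw⟩ := wt_chain D L hwt r.val r.isLt e he q hq
        refine ⟨k, hk, fun j => ?_⟩
        have := hw j
        rw [hes, hqu] at this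
        exact this

open Classical in
/-- the `J`-level of a coordinate: the sum of its weight coefficients outside `J` -/
noncomputable def levJ (D : ChevalleyDatum) (L : ℕ → ℤ) (J : Set ℕ) (a : D.Idx) : ℤ :=
  ∑ i ∈ (Finset.range D.rank).filter (fun i => i ∉ J), wtI D L a i

theorem x_sub_lz {F : Type*} [Field F] (D : ChevalleyDatum) (L : ℕ → ℤ) (hwt : WtCert D L)
    (J : Set ℕ) (r : ℕ) (hr : D.InRootSub J r) (t : F) : LZ (levJ D L J) (D.x F r t - 1) := by
  have hx : D.x F r t = D.xMat F ⟨r, hr.1⟩ t := by simp [ChevalleyDatum.x, hr.1]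
  rw [hx]
  intro row col h
  obtain ⟨k, -, hk⟩ := xMat_wt D L hwt ⟨r, hr.1⟩ t row col h
  unfold levJ
  classical
  apply Finset.sum_congr rfl
  intro i hi
  have hi' := Finset.mem_filter.mp hi
  rw [hk i]
  have : cor D r i = 0 := hr.2 i (Finset.mem_range.mp hi'.1) hi'.2
  simp [this]

theorem x_sub_sz {F : Type*} [Field F] (D : ChevalleyDatum) (L : ℕ → ℤ) (hwt : WtCert D L)
    (J : Set ℕ) (r : ℕ) (hr : D.IsPosRoot r) (hrJ : ¬ D.InRootSub J r) (t : F) :
    SZ (levJ D L J) (D.x F r t - 1) := by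
  have hx : D.x F r t = D.xMat F ⟨r, hr.1⟩ t := by simp [ChevalleyDatum.x, hr.1]
  rw [hx]
  intro row col h
  obtain ⟨k, hk1, hk⟩ := xMat_wt D L hwt ⟨r, hr.1⟩ t row col h
  obtain ⟨i0, hi0, hi0J, hne⟩ := (not_sub_iff D J r hr.1).mp hrJ
  have hL := wt_pos D L hwt r hr.1
  unfold levJ
  classical
  have e : ∑ i ∈ (Finset.range D.rank).filter (fun i => i ∉ J), wtI D L row i =
      ∑ i ∈ (Finset.range D.rank).filter (fun i => i ∉ J), wtI D L col i +
        k * ∑ i ∈ (Finset.range D.rank).filter (fun i => i ∉ J), (cor D r i * L r) := by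
    rw [Finset.mul_sum, ← Finset.sum_add_distrib]
    exact Finset.sum_congr rfl (fun i _ => hk i)
  have hpos : 0 < ∑ i ∈ (Finset.range D.rank).filter (fun i => i ∉ J), (cor D r i * L r) := by
    apply Finset.sum_pos'
    · intro i _
      exact mul_nonneg (cor_nonneg D r i hr) hL.le
    · exact ⟨i0, by simp [hi0, hi0J],
        mul_pos (lt_of_le_of_ne (cor_nonneg D r i0 hr) (Ne.symm hne)) hL⟩
  have := mul_pos (lt_of_lt_of_le one_pos hk1) hpos
  rw [e]
  linarith

theorem rad_le_sz {F : Type*} [Field F] (D : ChevalleyDatum)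
    (hD : D ∈ [chevG2, chevB2, chevD4, chevF4, chevE6, chevE7, chevE8]) (L : ℕ → ℤ)
    (hwt : WtCert D L) (J : Set ℕ) : D.unipotentRadical F J ≤ szGroup (levJ D L J) := by
  unfold ChevalleyDatum.unipotentRadical
  rw [Subgroup.closure_le]
  rintro g ⟨r, t, hr, hrJ, hg⟩
  rw [eq_xU D hD r t g hg]
  constructor
  · exact x_sub_sz D L hwt J r hr hrJ t
  · rw [xU_inv]
    exact x_sub_sz D L hwt J r hr hrJ (-t)

theorem levi_le_lz {F : Type*} [Field F] (D : ChevalleyDatum)
    (hD : D ∈ [chevG2, chevB2, chevD4, chevF4, chevE6, chevE7, chevE8]) (hnx : NXAll D)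
    (hc : HCert D) (L : ℕ → ℤ) (hwt : WtCert D L) (J : Set ℕ) :
    D.leviSubgroup F J ≤ lzGroup (levJ D L J) := by
  unfold ChevalleyDatum.leviSubgroup
  apply sup_le
  · intro g hg
    constructor
    · intro row col hne
      by_contra hcon
      exact hne (diag_apply_ne D hD hnx hc g hg row col (fun e => hcon (by rw [e])))
    · intro row col hne
      by_contra hcon
      exact hne (diag_apply_ne D hD hnx hc g⁻¹ (inv_mem hg) row col (fun e => hcon (by rw [e])))
  · rw [Subgroup.closure_le]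
    rintro g ⟨r, t, hr, hg⟩
    rw [eq_xU D hD r t g hg]
    constructor
    · exact (x_sub_lz D L hwt J r hr t).of_sub_one
    · rw [xU_inv]
      exact (x_sub_lz D L hwt J r hr (-t)).of_sub_one

/-- `U_J ∩ L_J = 1` -/
theorem rad_inf_levi {F : Type*} [Field F] (D : ChevalleyDatum)
    (hD : D ∈ [chevG2, chevB2, chevD4, chevF4, chevE6, chevE7, chevE8]) (hnx : NXAll D)
    (hc : HCert D) (L : ℕ → ℤ) (hwt : WtCert D L) (J : Set ℕ) :
    D.unipotentRadical F J ⊓ D.leviSubgroup F J = ⊥ := by
  rw [eq_bot_iff]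
  rintro g ⟨h1, h2⟩
  rw [Subgroup.mem_bot]
  exact lz_sz_eq_one _ g (levi_le_lz D hD hnx hc L hwt J h2) (rad_le_sz D hD L hwt J h1)

/-- `U_J L_J = P_J` -/
theorem rad_sup_levi {F : Type*} [Field F] (D : ChevalleyDatum)
    (hD : D ∈ [chevG2, chevB2, chevD4, chevF4, chevE6, chevE7, chevE8]) (hnx : NXAll D)
    (hc : HCert D) (hclimb : climbOK D = true) (hsimp : simpOK D = true) (J : Set ℕ) :
    D.unipotentRadical F J ⊔ D.leviSubgroup F J = D.parabolicSubgroup F J := by
  rw [para_eq_gen D hD hnx hc hclimb hsimp J]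
  apply le_antisymm
  · apply sup_le
    · unfold ChevalleyDatum.unipotentRadical
      refine le_trans ?_ le_sup_right
      apply Subgroup.closure_mono
      rintro g ⟨r, t, hr, -, hg⟩
      exact ⟨r, t, Or.inl hr, hg⟩
    · unfold ChevalleyDatum.leviSubgroup
      apply sup_le_sup_left
      apply Subgroup.closure_mono
      rintro g ⟨r, t, hr, hg⟩
      exact ⟨r, t, Or.inr hr, hg⟩
  · apply sup_le
    · exact le_trans (le_sup_left (b := Subgroup.closure {g : GL D.Idx F |
        ∃ (r : ℕ) (t : F), D.InRootSub J r ∧ (g : Matrix D.Idx D.Idx F) = D.x F r t}))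
        le_sup_right
    · rw [Subgroup.closure_le]
      rintro g ⟨r, t, hr, hg⟩
      by_cases hrJ : D.InRootSub J r
      · exact Subgroup.mem_sup_right (Subgroup.mem_sup_right
          (Subgroup.subset_closure ⟨r, t, hrJ, hg⟩))
      · rcases hr with hr | hr
        · exact Subgroup.mem_sup_left (Subgroup.subset_closure ⟨r, t, hr, hrJ, hg⟩)
        · exact absurd hr hrJ

end Cfsg.Agent.Lib.helper11
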