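import Cfsg.Agent.Lib.helper11.ChevBN
import Cfsg.Agent.Lib.helper11c.Orb1

/-! Permutation representations of a Chevalley group over the field with two elements on a
finite set of row vectors. -/

set_option autoImplicit false

namespace Cfsg.Agent.Lib.helper11

open Cfsg Cfsg.Lie

/-- the row vector with the integer entries of a list -/
def rowV (F : Type*) [Field F] (D : ChevalleyDatum) (l : List ℤ) : D.Idx → F :=
  fun a => ((l.getD (code D a) 0 : ℤ) : F)

/-- integer dot product of a row list with a monomial vector (evaluated at `c = 1`) -/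
def dotZ (l : List ℤ) (v : List (ℕ × ℤ × ℤ)) : ℤ := (v.map fun e => l.getD e.1 0 * e.2.1).sum

theorem dot_sem {F : Type*} [Field F] (D : ChevalleyDatum) (l : List ℤ)
    (hl : l.length = D.rank + D.nroots) (v : List (ℕ × ℤ × ℤ)) :
    ∑ a, rowV F D l a * sem D v (1 : F) a = ((dotZ l v : ℤ) : F) := by
  induction v with
  | nil => simp [sem_nil, dotZ]
  | cons e v ih =>
    rw [sem_cons D e v]
    simp only [Pi.add_apply, mul_add, Finset.sum_add_distrib]
    rw [ih]
    have h1 : ∑ a, rowV F D l a * sem D [e] (1 : F) a = ((l.getD e.1 0 * e.2.1 : ℤ) : F) := by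
      simp only [sem, List.map_cons, List.map_nil, List.sum_cons, List.sum_nil, add_zero,
        one_zpow, mul_one]
      by_cases hj : e.1 < D.rank + D.nroots
      · obtain ⟨col, hcol⟩ := exists_code D e.1 hj
        rw [Finset.sum_eq_single col]
        · rw [if_pos hcol.symm]
          unfold rowV
          rw [hcol]
          push_cast
          ring
        · intro b _ hb
          have : ¬ (e.1 = code D b) := fun h => hb (code_injective D (h.symm.trans hcol.symm))
          rw [if_neg this, mul_zero]
        · intro h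
          exact absurd (Finset.mem_univ col) h
      · have h2 : l.getD e.1 0 = 0 := by
          rw [List.getD_eq_getElem?_getD, List.getElem?_eq_none (by omega)]
          rfl
        rw [h2, zero_mul, Int.cast_zero]
        apply Finset.sum_eq_zero
        intro b _
        have : ¬ (e.1 = code D b) := fun h => hj (h ▸ code_lt D b)
        rw [if_neg this, mul_zero]
    rw [h1]
    unfold dotZ
    rw [List.map_cons, List.sum_cons]
    push_cast
    ring

/-- a row vector times `x_r(1)`, computed symbolically -/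
theorem vecMul_x {F : Type*} [Field F] (D : ChevalleyDatum)
    (hD : D ∈ [chevG2, chevB2, chevD4, chevF4, chevE6, chevE7, chevE8]) (l : List ℤ)
    (hl : l.length = D.rank + D.nroots) (r : ℕ) (hr : r < D.nroots) (col : D.Idx) :
    Matrix.vecMul (rowV F D l) (D.x F r 1) col =
      ((dotZ l (appXf D r 1 1 [(code D col, 1, 0)]) : ℤ) : F) := by
  rw [appXf_eq D r 1 1 _ (keys_nodup D hD r hr), ← dot_sem D l hl]
  have h1 := appX_spec (F := F) D r hr 1 1 1 one_ne_zero [(code D col, 1, 0)]
  rw [sem_single] at h1
  have h2 : D.x F r (((1 : ℤ) : F) * (1 : F) ^ (1 : ℤ)) = D.x F r 1 := by simp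
  rw [h2] at h1
  rw [h1]
  simp only [Matrix.vecMul, dotProduct]
  apply Finset.sum_congr rfl
  intro a _
  rw [mulVec_single_entry]

/-- certificate: `w_i x_r(1) = w_{i'}` modulo 2 -/
def actOK (D : ChevalleyDatum) (li li' : List ℤ) (r : ℕ) : Bool :=
  (List.range (D.rank + D.nroots)).all fun j =>
    decide ((dotZ li (appXf D r 1 1 [(j, 1, 0)]) - li'.getD j 0) % 2 = 0)

theorem act_of_cert {F : Type*} [Field F] [CharP F 2] (D : ChevalleyDatum)
    (hD : D ∈ [chevG2, chevB2, chevD4, chevF4, chevE6, chevE7, chevE8]) (li li' : List ℤ)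
    (hl : li.length = D.rank + D.nroots) (r : ℕ) (hr : r < D.nroots)
    (h : actOK D li li' r = true) :
    Matrix.vecMul (rowV F D li) (D.x F r 1) = rowV F D li' := by
  unfold actOK at h
  rw [List.all_eq_true] at h
  funext col
  rw [vecMul_x D hD li hl r hr col]
  have h1 := h (code D col) (List.mem_range.mpr (code_lt D col))
  rw [decide_eq_true_eq] at h1
  unfold rowV
  rw [← sub_eq_zero, ← Int.cast_sub, CharP.intCast_eq_zero_iff F 2]
  exact Int.dvd_of_emod_eq_zero h1

/-- the permutation representation on a finite set of row vectors -/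
theorem perm_rep {F : Type*} [Field F] [CharP F 2] (hF : ∀ t : F, t = 0 ∨ t = 1)
    (D : ChevalleyDatum)
    (hD : D ∈ [chevG2, chevB2, chevD4, chevF4, chevE6, chevE7, chevE8]) (n : ℕ)
    (w : Fin n → D.Idx → F) (hinj : Function.Injective w) (π : ℕ → Equiv.Perm (Fin n))
    (hact : ∀ r < D.nroots, ∀ i, Matrix.vecMul (w i) (D.x F r 1) = w (π r i)) :
    ∃ φ : ↥(D.group F) →* Equiv.Perm (Fin n), ∀ r (_ : r < D.nroots),
      φ ⟨xU D hD r 1, xU_mem_group D hD r 1⟩ = π r := by
  let S : Subgroup (GL D.Idx F) :=
    { carrier := {g | ∃ σ : Equiv.Perm (Fin n), ∀ i,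
        Matrix.vecMul (w i) ((g⁻¹ : GL D.Idx F) : Matrix D.Idx D.Idx F) = w (σ i)}
      one_mem' := ⟨1, fun i => by simp⟩
      mul_mem' := by
        rintro a b ⟨σ, hσ⟩ ⟨τ, hτ⟩
        refine ⟨σ * τ, fun i => ?_⟩
        rw [mul_inv_rev, Units.val_mul, ← Matrix.vecMul_vecMul, hτ, hσ]
        rfl
      inv_mem' := by
        rintro a ⟨σ, hσ⟩
        refine ⟨σ⁻¹, fun i => ?_⟩
        rw [inv_inv]
        have h1 := hσ (σ⁻¹ i)
        have e : σ (σ⁻¹ i) = i := by simp
        rw [e] at h1
        rw [← h1, Matrix.vecMul_vecMul, ← Units.val_mul, inv_mul_cancel, Units.val_one,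
          Matrix.vecMul_one] }
  have hS : ∀ g : S, ∃ σ : Equiv.Perm (Fin n), ∀ i,
      Matrix.vecMul (w i) (((g : GL D.Idx F)⁻¹ : GL D.Idx F) : Matrix D.Idx D.Idx F) = w (σ i) :=
    fun g => g.2
  let ψ : S →* Equiv.Perm (Fin n) :=
    { toFun := fun g => Classical.choose (hS g)
      map_one' := by
        apply Equiv.ext
        intro i
        apply hinj
        rw [← Classical.choose_spec (hS 1) i]
        simp
      map_mul' := by
        intro a b
        apply Equiv.ext
        intro i
        apply hinj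
        rw [← Classical.choose_spec (hS (a * b)) i]
        show _ = w (Classical.choose (hS a) (Classical.choose (hS b) i))
        rw [← Classical.choose_spec (hS a), ← Classical.choose_spec (hS b) i,
          Matrix.vecMul_vecMul, ← Units.val_mul, ← mul_inv_rev]
        rfl }
  have hψ : ∀ (g : S) (i : Fin n),
      Matrix.vecMul (w i) (((g : GL D.Idx F)⁻¹ : GL D.Idx F) : Matrix D.Idx D.Idx F) =
        w (ψ g i) := fun g i => Classical.choose_spec (hS g) i
  have hneg : (-1 : F) = 1 := CharTwo.neg_eq 1
  have hGS : D.group F ≤ S := by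
    apply group_le_of_all D hD
    intro r hr t
    rcases hF t with rfl | rfl
    · rw [xU_zero]
      exact S.one_mem
    · refine ⟨π r, fun i => ?_⟩
      rw [xU_inv, hneg, xU_val]
      exact hact r hr i
  refine ⟨ψ.comp (Subgroup.inclusion hGS), fun r hr => ?_⟩
  apply Equiv.ext
  intro i
  apply hinj
  have h1 := hψ (Subgroup.inclusion hGS ⟨xU D hD r 1, xU_mem_group D hD r 1⟩) i
  rw [MonoidHom.comp_apply, ← h1]
  show Matrix.vecMul (w i) (((xU D hD r (1 : F))⁻¹ : GL D.Idx F) : Matrix D.Idx D.Idx F) = _
  rw [xU_inv, hneg, xU_val]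
  exact hact r hr i

end Cfsg.Agent.Lib.helper11
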