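import Cfsg.Agent.Lib.helper11d.Par2
import Cfsg.Agent.Lib.helper11d.Par3
import Cfsg.Agent.Lib.helper11d.Par1OK
import Cfsg.Agent.Lib.helper11d.Uniq1OK
import Cfsg.Agent.Lib.helper11.ChevCore
import Cfsg.Agent.Lib.helper11.ChevCommAll
import Cfsg.Agent.Lib.helper11.ChevParaOK
import Cfsg.Agent.Lib.helper11.ChevTriOK
import Cfsg.Agent.Lib.helper11.ChevHAll
import Cfsg.Agent.Lib.helper11.ChevHOK
import Cfsg.Agent.Lib.helper11.ChevNOK

/-! The centraliser of the unipotent radical `U_J` of a proper parabolic subgroup lies in `U`. -/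

set_option autoImplicit false

namespace Cfsg.Agent.Lib.helper11

open Cfsg Cfsg.Lie

section zstr

variable {ι : Type*} [Fintype ι] [DecidableEq ι] {F : Type*} [Field F]

/-- nonzero entries raise the integer level by at least `k` -/
def ZStr (ℓ : ι → ℤ) (k : ℤ) (M : Matrix ι ι F) : Prop :=
  ∀ row col, M row col ≠ 0 → ℓ col + k ≤ ℓ row

theorem ZStr.one (ℓ : ι → ℤ) : ZStr ℓ 0 (1 : Matrix ι ι F) := by
  intro row col h
  by_cases hrc : row = col
  · rw [hrc, add_zero]
  · exact absurd (Matrix.one_apply_ne hrc) h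

theorem ZStr.mul {ℓ : ι → ℤ} {j k : ℤ} {M N : Matrix ι ι F} (hM : ZStr ℓ j M) (hN : ZStr ℓ k N) :
    ZStr ℓ (j + k) (M * N) := by
  intro row col h
  obtain ⟨mid, h1, h2⟩ := exists_mul_ne_zero M N row col h
  have := hM row mid h1
  have := hN mid col h2
  omega

/-- invertible matrices not lowering the level, with their inverses -/
def zGroup (ℓ : ι → ℤ) : Subgroup (GL ι F) where
  carrier := {g | ZStr ℓ 0 (g : Matrix ι ι F) ∧ ZStr ℓ 0 ((g⁻¹ : GL ι F) : Matrix ι ι F)}
  one_mem' := ⟨ZStr.one ℓ, by rw [inv_one]; exact ZStr.one ℓ⟩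
  mul_mem' := by
    rintro a b ⟨ha, ha'⟩ ⟨hb, hb'⟩
    refine ⟨?_, ?_⟩
    · rw [Units.val_mul]
      have := ha.mul hb
      rwa [add_zero] at this
    · rw [mul_inv_rev, Units.val_mul]
      have := hb'.mul ha'
      rwa [add_zero] at this
  inv_mem' := by
    rintro a ⟨ha, ha'⟩
    exact ⟨ha', by rwa [inv_inv]⟩

end zstr

/-- weighted height of a root -/
def hW (D : ChevalleyDatum) (L : ℕ → ℤ) (r : ℕ) : ℤ :=
  ((List.range D.rank).map fun i => cor D r i * L r).sum

/-- weighted height of a coordinate -/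
def hWI (D : ChevalleyDatum) (L : ℕ → ℤ) (a : D.Idx) : ℤ :=
  ((List.range D.rank).map fun i => wtI D L a i).sum

theorem hWI_inl (D : ChevalleyDatum) (L : ℕ → ℤ) (k : Fin D.rank) : hWI D L (Sum.inl k) = 0 := by
  unfold hWI
  apply List.sum_eq_zero
  intro x hx
  obtain ⟨i, -, rfl⟩ := List.mem_map.mp hx
  rfl

theorem hWI_inr (D : ChevalleyDatum) (L : ℕ → ℤ) (v : Fin D.nroots) :
    hWI D L (Sum.inr v) = hW D L v.val := rfl

theorem list_sum_shift (l : List ℕ) (f g : ℕ → ℤ) (k : ℤ) :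
    (l.map fun i => f i + k * g i).sum = (l.map f).sum + k * (l.map g).sum := by
  induction l with
  | nil => simp
  | cons a l ih =>
    simp only [List.map_cons, List.sum_cons, ih]
    ring

theorem hW_neg (D : ChevalleyDatum) (L : ℕ → ℤ) (hwt : WtCert D L) (r : ℕ) (hr : r < D.nroots) :
    hW D L (D.neg r) = - hW D L r := by
  unfold hW
  have : (fun i => cor D (D.neg r) i * L (D.neg r)) =
      fun i => (fun _ => (0 : ℤ)) i + (-1) * (fun i => cor D r i * L r) i := by
    funext i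
    rw [wt_neg D L hwt r hr i]
    ring
  rw [this, list_sum_shift]
  simp

theorem hW_nonneg (D : ChevalleyDatum) (L : ℕ → ℤ) (hwt : WtCert D L) (r : ℕ)
    (hr : D.IsPosRoot r) : 0 ≤ hW D L r := by
  unfold hW
  apply List.sum_nonneg
  intro x hx
  obtain ⟨i, -, rfl⟩ := List.mem_map.mp hx
  exact mul_nonneg (cor_nonneg D r i hr) (wt_pos D L hwt r hr.1).le

theorem x_sub_zstr {F : Type*} [Field F] (D : ChevalleyDatum) (L : ℕ → ℤ) (hwt : WtCert D L)
    (r : ℕ) (hr : D.IsPosRoot r) (t : F) : ZStr (hWI D L) (hW D L r) (D.x F r t - 1) := by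
  have hx : D.x F r t = D.xMat F ⟨r, hr.1⟩ t := by simp [ChevalleyDatum.x, hr.1]
  rw [hx]
  intro row col h
  obtain ⟨k, hk1, hk⟩ := xMat_wt D L hwt ⟨r, hr.1⟩ t row col h
  have e : hWI D L row = hWI D L col + k * hW D L r := by
    unfold hWI hW
    rw [← list_sum_shift]
    exact congrArg List.sum (List.map_congr_left fun i _ => hk i)
  have := hW_nonneg D L hwt r hr
  rw [e]
  nlinarith

theorem x_zstr0 {F : Type*} [Field F] (D : ChevalleyDatum) (L : ℕ → ℤ) (hwt : WtCert D L)
    (r : ℕ) (hr : D.IsPosRoot r) (t : F) : ZStr (hWI D L) 0 (D.x F r t) := by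
  intro row col h
  by_cases hrc : row = col
  · rw [hrc, add_zero]
  · have h' : (D.x F r t - 1) row col ≠ 0 := by
      rwa [Matrix.sub_apply, Matrix.one_apply_ne hrc, sub_zero]
    have := x_sub_zstr D L hwt r hr t row col h'
    have := hW_nonneg D L hwt r hr
    omega

theorem borel_le_z {F : Type*} [Field F] (D : ChevalleyDatum)
    (hD : D ∈ [chevG2, chevB2, chevD4, chevF4, chevE6, chevE7, chevE8]) (hnx : NXAll D)
    (hc : HCert D) (L : ℕ → ℤ) (hwt : WtCert D L) :
    D.borelSubgroup F ≤ zGroup (hWI D L) := by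
  unfold ChevalleyDatum.borelSubgroup
  apply sup_le
  · unfold ChevalleyDatum.posUnipotent
    rw [Subgroup.closure_le]
    rintro g ⟨r, t, hr, hg⟩
    rw [eq_xU D hD r t g hg]
    exact ⟨x_zstr0 D L hwt r hr t, by rw [xU_inv]; exact x_zstr0 D L hwt r hr (-t)⟩
  · intro g hg
    constructor
    · intro row col hne
      have : row = col := by
        by_contra hcon
        exact hne (diag_apply_ne D hD hnx hc g hg row col hcon)
      rw [this, add_zero]
    · intro row col hne
      have : row = col := by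
        by_contra hcon
        exact hne (diag_apply_ne D hD hnx hc g⁻¹ (inv_mem hg) row col hcon)
      rw [this, add_zero]

/-- certificate: a positive root involving `p_j` that `w_{p_i}` lowers -/
def radRow (D : ChevalleyDatum) (L : ℕ → ℤ) (i j : ℕ) : Bool :=
  (List.range D.nroots).any fun r => decide (D.IsPosRoot r) && !decide (cor D r j = 0) &&
    decide (D.reflectRoot i r < D.nroots) && decide (hW D L (D.reflectRoot i r) < hW D L r)

def radOK (D : ChevalleyDatum) (L : ℕ → ℤ) : Bool :=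
  (List.range D.rank).all fun i => (List.range D.rank).all fun j =>
    decide (i = j) || radRow D L i j

theorem rad_spec (D : ChevalleyDatum) (L : ℕ → ℤ) (h : radOK D L = true) (i j : ℕ)
    (hi : i < D.rank) (hj : j < D.rank) (hij : i ≠ j) :
    ∃ r, D.IsPosRoot r ∧ cor D r j ≠ 0 ∧ D.reflectRoot i r < D.nroots ∧
      hW D L (D.reflectRoot i r) < hW D L r := by
  unfold radOK at h
  rw [List.all_eq_true] at h
  have h1 := h i (List.mem_range.mpr hi)
  rw [List.all_eq_true] at h1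
  have h2 := h1 j (List.mem_range.mpr hj)
  rw [Bool.or_eq_true, decide_eq_true_eq] at h2
  rcases h2 with h2 | h2
  · exact absurd h2 hij
  unfold radRow at h2
  rw [List.any_eq_true] at h2
  obtain ⟨r, -, hr⟩ := h2
  simp only [Bool.and_eq_true, decide_eq_true_eq, Bool.not_eq_true', decide_eq_false_iff_not] at hr
  exact ⟨r, hr.1.1.1, hr.1.1.2, hr.1.2, hr.2⟩

/-- the elements of the group acting on `U_J` as some element of `B` does -/
def actB (F : Type*) [Field F] (D : ChevalleyDatum) (J : Set ℕ)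
    (hBN : D.borelSubgroup F ≤
      Subgroup.normalizer (D.unipotentRadical F J : Set (GL D.Idx F))) :
    Subgroup ↥(D.group F) where
  carrier := {g | ∃ b ∈ D.borelSubgroup F, ∀ u ∈ D.unipotentRadical F J,
    (g : GL D.Idx F) * u * (g : GL D.Idx F)⁻¹ = b * u * b⁻¹}
  one_mem' := ⟨1, one_mem _, fun u _ => by simp⟩
  mul_mem' := by
    rintro g g' ⟨b, hb, h⟩ ⟨b', hb', h'⟩
    refine ⟨b * b', mul_mem hb hb', fun u hu => ?_⟩
    have hu' : b' * u * b'⁻¹ ∈ D.unipotentRadical F J :=
      (Subgroup.mem_normalizer_iff.mp (hBN hb') u).mp hu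
    rw [Subgroup.coe_mul, mul_inv_rev]
    calc (g : GL D.Idx F) * (g' : GL D.Idx F) * u * ((g' : GL D.Idx F)⁻¹ * (g : GL D.Idx F)⁻¹)
        = (g : GL D.Idx F) * ((g' : GL D.Idx F) * u * (g' : GL D.Idx F)⁻¹) *
          (g : GL D.Idx F)⁻¹ := by group
      _ = (g : GL D.Idx F) * (b' * u * b'⁻¹) * (g : GL D.Idx F)⁻¹ := by rw [h' u hu]
      _ = b * (b' * u * b'⁻¹) * b⁻¹ := h _ hu'
      _ = b * b' * u * (b * b')⁻¹ := by group
  inv_mem' := by
    rintro g ⟨b, hb, h⟩
    refine ⟨b⁻¹, inv_mem hb, fun u hu => ?_⟩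
    have hu' : b⁻¹ * u * b ∈ D.unipotentRadical F J := by
      have := (Subgroup.mem_normalizer_iff.mp (hBN (inv_mem hb)) u).mp hu
      rwa [inv_inv] at this
    have h1 := h _ hu'
    have h2 : (g : GL D.Idx F) * (b⁻¹ * u * b) * (g : GL D.Idx F)⁻¹ = u := by
      rw [h1]
      group
    rw [Subgroup.coe_inv, inv_inv, inv_inv]
    calc (g : GL D.Idx F)⁻¹ * u * (g : GL D.Idx F)
        = (g : GL D.Idx F)⁻¹ * ((g : GL D.Idx F) * (b⁻¹ * u * b) * (g : GL D.Idx F)⁻¹) *
          (g : GL D.Idx F) := by rw [h2]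
      _ = b⁻¹ * u * b := by group

end Cfsg.Agent.Lib.helper11
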