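import Cfsg.Agent.Lib.helper11d.Rad1

/-! The centraliser of the unipotent radical `U_J` of a proper parabolic subgroup lies in `B`. -/

set_option autoImplicit false

namespace Cfsg.Agent.Lib.helper11

open Cfsg Cfsg.Lie

theorem neg_ne_self (D : ChevalleyDatum)
    (hD : D ∈ [chevG2, chevB2, chevD4, chevF4, chevE6, chevE7, chevE8]) (s : ℕ)
    (hs : s < D.nroots) : D.neg s ≠ s := by
  have h1 := negRev_spec D (negRev_of_mem D hD) s hs
  have h2 := triOK_even D (tri_of_mem D hD)
  omega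

/-- an element of the group centralising `U_J`, `J` proper, lies in `B` -/
theorem cent_le_borel {F : Type*} [Field F] (D : ChevalleyDatum)
    (hD : D ∈ [chevG2, chevB2, chevD4, chevF4, chevE6, chevE7, chevE8]) (J : Set ℕ)
    (hJ : ∃ j, j < D.rank ∧ j ∉ J) (hrad : radOK D (rootLen D) = true)
    (c : GL D.Idx F) (hcG : c ∈ D.group F)
    (hcc : ∀ u ∈ D.unipotentRadical F J, c * u = u * c) : c ∈ D.borelSubgroup F := by
  have hnx := nxAll_of_mem D hD
  have hc := hcert_of_mem D hD
  have htri := tri_of_mem D hD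
  have hup := upcert_of_mem D hD
  have hwt := wtcert_of_mem D hD
  have hsimp := simp_of_mem D hD
  have hgcd := gcd_of_mem D hD
  have hcomm : CommAll F D := fun r hr s hs h1 h2 => commRel_of_mem F D hD r s hr hs h1 h2
  have hBN : D.borelSubgroup F ≤
      Subgroup.normalizer (D.unipotentRadical F J : Set (GL D.Idx F)) :=
    le_trans le_sup_left (para_le_normalizer D hD hnx hc hup (rootLen D) hwt hsimp htri hcomm J)
  obtain ⟨P, hPB, -, hPS⟩ := exists_bn (F := F) D hD hnx hc htri hup hcomm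
  have hM : P.B ≤ actB F D J hBN := by
    intro x hx
    rw [hPB, Subgroup.mem_subgroupOf] at hx
    exact ⟨x.1, hx, fun u _ => rfl⟩
  have hpar := Cfsg.Agent.Lib.helper2.BN.eq_parabolic P _ hM
  have hempty : P.S ∩ ((actB F D J hBN : Subgroup ↥(D.group F)) : Set ↥(D.group F)) = ∅ := by
    rw [Set.eq_empty_iff_forall_notMem]
    rintro x ⟨hxS, b, hb, hx⟩
    rw [hPS] at hxS
    obtain ⟨i, hi, hxi⟩ := hxS
    have hxn : (x : GL D.Idx F) = nU D hD (D.simple i) 1 := eq_nU D hD _ 1 _ hxi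
    rw [hxn] at hx
    have hp := (hc.2 i hi).2
    by_cases hiJ : i ∈ J
    · obtain ⟨j, hj, hjJ⟩ := hJ
      have hij : i ≠ j := fun e => hjJ (e ▸ hiJ)
      obtain ⟨r, hr, hcor, hs, hlt⟩ := rad_spec D _ hrad i j hi hj hij
      have hu : xU D hD r (1 : F) ∈ D.unipotentRadical F J :=
        Subgroup.subset_closure ⟨r, 1, hr, (not_sub_iff D J r hr.1).mpr ⟨j, hj, hjJ, hcor⟩, rfl⟩
      have h1 := hx _ hu
      rw [nU_conj_x D hD hnx i r hi hr.1] at h1
      have hbz := borel_le_z D hD hnx hc (rootLen D) hwt hb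
      have hz := (hbz.1.mul (x_sub_zstr D (rootLen D) hwt r hr (1 : F))).mul hbz.2
      have h2 : D.x F (D.reflectRoot i r) (((eta D i r : ℤ) : F) * 1) - 1 =
          (b : Matrix D.Idx D.Idx F) * (D.x F r 1 - 1) *
            ((b⁻¹ : GL D.Idx F) : Matrix D.Idx D.Idx F) := by
        have := congrArg Units.val h1
        rw [Units.val_mul, Units.val_mul, xU_val, xU_val] at this
        rw [this, Matrix.mul_sub, Matrix.sub_mul, Matrix.mul_one, ← Units.val_mul,
          mul_inv_cancel, Units.val_one]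
      rw [← h2] at hz
      obtain ⟨k, hk, hne⟩ := exists_cor_ne_zero F D hgcd (D.reflectRoot i r) hs
      have hns : D.neg (D.reflectRoot i r) < D.nroots := neg_lt' D hD hnx _ hs
      have hent : (D.x F (D.reflectRoot i r) (((eta D i r : ℤ) : F) * 1) - 1)
          (Sum.inl ⟨k, hk⟩) (Sum.inr ⟨D.neg (D.reflectRoot i r), hns⟩) ≠ 0 := by
        have hx' : D.x F (D.reflectRoot i r) (((eta D i r : ℤ) : F) * 1) =
            D.xMat F ⟨D.reflectRoot i r, hs⟩ (((eta D i r : ℤ) : F) * 1) := by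
          simp [ChevalleyDatum.x, hs]
        rw [Matrix.sub_apply, Matrix.one_apply_ne (by simp), sub_zero, hx',
          Cfsg.Agent.S1023.xMat_inl_inr,
          if_neg (fun e => neg_ne_self D hD _ hs (congrArg Fin.val e))]
        have e2 : ((⟨D.neg (D.reflectRoot i r), hns⟩ : Fin D.nroots) : ℕ) =
            D.negIdx.getD ((⟨D.reflectRoot i r, hs⟩ : Fin D.nroots) : ℕ) 0 := rfl
        rw [if_pos e2]
        exact mul_ne_zero hne
          (mul_ne_zero (eta_ne_zero D i r (ok_of_mem D hD i hi) hr.1) one_ne_zero)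
      have := hz _ _ hent
      rw [hWI_inl, hWI_inr, hW_neg D _ hwt _ hs] at this
      omega
    · have hpJ : ¬ D.InRootSub J (D.simple i) :=
        (not_sub_iff D J _ hp.1).mpr ⟨i, hi, hiJ, (simp_spec D hsimp i hi).1⟩
      have hu : xU D hD (D.simple i) (1 : F) ∈ D.unipotentRadical F J :=
        Subgroup.subset_closure ⟨_, _, hp, hpJ, rfl⟩
      have h1 := hx _ hu
      rw [nU_conj_x D hD hnx i _ hi hp.1, refl_simple] at h1
      have hmem : b * xU D hD (D.simple i) 1 * b⁻¹ ∈ D.borelSubgroup F :=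
        mul_mem (mul_mem hb (Subgroup.mem_sup_left (xU_mem_pos D hD _ hp 1))) (inv_mem hb)
      rw [← h1] at hmem
      exact xU_neg_not_mem_borel D hD hnx hc htri _ (neg_of_pos D hD hnx htri _ hp) _
        (mul_ne_zero (eta_ne_zero D i _ (ok_of_mem D hD i hi) hp.1) one_ne_zero) hmem
  rw [hempty, Subgroup.closure_empty, sup_bot_eq] at hpar
  have hcM : (⟨c, hcG⟩ : ↥(D.group F)) ∈ actB F D J hBN := ⟨1, one_mem _, fun u hu => by
    show c * u * c⁻¹ = 1 * u * 1⁻¹
    rw [hcc u hu]
    group⟩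
  rw [hpar, hPB, Subgroup.mem_subgroupOf] at hcM
  exact hcM

end Cfsg.Agent.Lib.helper11
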