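import Cfsg.Agent.Lib.helper11d.Rad2

/-! An element of `B` centralising the unipotent radical `U_J` of a proper parabolic subgroup lies
in `U`. -/

set_option autoImplicit false

namespace Cfsg.Agent.Lib.helper11

open Cfsg Cfsg.Lie

/-- certificate: a positive root `r` involving `p_j` with `p_i + r` a root -/
def radRow2 (D : ChevalleyDatum) (i j : ℕ) : Bool :=
  (List.range D.nroots).any fun r => decide (D.IsPosRoot r) && !decide (cor D r j = 0) &&
    (match D.chainRoot (D.simple i) r 1 with
     | some r' => decide (D.IsPosRoot r') && !decide (cor D r' j = 0)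
     | none => false)

def rad2OK (D : ChevalleyDatum) : Bool :=
  (List.range D.rank).all fun i => (List.range D.rank).all fun j =>
    decide (i = j) || radRow2 D i j

theorem rad2_spec (D : ChevalleyDatum) (h : rad2OK D = true) (i j : ℕ)
    (hi : i < D.rank) (hj : j < D.rank) (hij : i ≠ j) :
    ∃ r r', D.IsPosRoot r ∧ cor D r j ≠ 0 ∧ D.chainRoot (D.simple i) r 1 = some r' ∧
      D.IsPosRoot r' ∧ cor D r' j ≠ 0 := by
  unfold rad2OK at h
  rw [List.all_eq_true] at h
  have h1 := h i (List.mem_range.mpr hi)
  rw [List.all_eq_true] at h1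
  have h2 := h1 j (List.mem_range.mpr hj)
  rw [Bool.or_eq_true, decide_eq_true_eq] at h2
  rcases h2 with h2 | h2
  · exact absurd h2 hij
  unfold radRow2 at h2
  rw [List.any_eq_true] at h2
  obtain ⟨r, -, hr⟩ := h2
  rw [Bool.and_eq_true, Bool.and_eq_true] at hr
  obtain ⟨⟨hr1, hr2⟩, hr3⟩ := hr
  rw [decide_eq_true_eq] at hr1
  rw [Bool.not_eq_true', decide_eq_false_iff_not] at hr2
  match hm : D.chainRoot (D.simple i) r 1, hr3 with
  | some r', hr3 =>
    rw [Bool.and_eq_true, decide_eq_true_eq, Bool.not_eq_true', decide_eq_false_iff_not] at hr3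
    exact ⟨r, r', hr1, hr2, hm, hr3.1, hr3.2⟩

/-- certificate: every positive root is fundamental or a sum of a fundamental root and an earlier
positive root -/
def genRow (D : ChevalleyDatum) (r : ℕ) : Bool :=
  !decide (D.IsPosRoot r) || (List.range D.rank).any fun i => decide (D.simple i = r) ||
    (List.range r).any fun s => decide (D.IsPosRoot s) &&
      decide (D.chainRoot (D.simple i) s 1 = some r)

def genOK (D : ChevalleyDatum) : Bool := (List.range D.nroots).all (genRow D)

theorem gen_spec (D : ChevalleyDatum) (h : genOK D = true) (r : ℕ) (hr : D.IsPosRoot r) :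
    ∃ i < D.rank, D.simple i = r ∨
      ∃ s < r, D.IsPosRoot s ∧ D.chainRoot (D.simple i) s 1 = some r := by
  unfold genOK at h
  rw [List.all_eq_true] at h
  have h1 := h r (List.mem_range.mpr hr.1)
  unfold genRow at h1
  rw [Bool.or_eq_true, Bool.not_eq_true', decide_eq_false_iff_not] at h1
  rcases h1 with h1 | h1
  · exact absurd hr h1
  rw [List.any_eq_true] at h1
  obtain ⟨i, hi, h2⟩ := h1
  rw [Bool.or_eq_true, decide_eq_true_eq] at h2
  refine ⟨i, List.mem_range.mp hi, ?_⟩
  rcases h2 with h2 | h2
  · exact Or.inl h2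
  · rw [List.any_eq_true] at h2
    obtain ⟨s, hs, h3⟩ := h2
    rw [Bool.and_eq_true, decide_eq_true_eq, decide_eq_true_eq] at h3
    exact Or.inr ⟨s, List.mem_range.mp hs, h3.1, h3.2⟩

/-- a character of the root lattice that is trivial on the fundamental roots is trivial -/
theorem char_trivial {F : Type*} [Field F] (D : ChevalleyDatum)
    (hD : D ∈ [chevG2, chevB2, chevD4, chevF4, chevE6, chevE7, chevE8]) (hgen : genOK D = true)
    (χ : ℕ → Fˣ) (hχ : D.IsRootCharacter χ) (h : ∀ i < D.rank, χ (D.simple i) = 1) :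
    ∀ s < D.nroots, χ s = 1 := by
  have hc := hcert_of_mem D hD
  have hnx := nxAll_of_mem D hD
  have htri := tri_of_mem D hD
  have hpos : ∀ r, D.IsPosRoot r → χ r = 1 := by
    intro r
    induction r using Nat.strong_induction_on with
    | _ r ih =>
      intro hr
      obtain ⟨i, hi, h1 | ⟨s, hs, hsp, hch⟩⟩ := gen_spec D hgen r hr
      · rw [← h1]
        exact h i hi
      · rw [hχ.2 (D.simple i) s r (hc.2 i hi).2.1 hsp.1 hch, h i hi, ih s hs hsp, mul_one]
  intro s hs
  rcases Cfsg.Agent.S1041.posOrNeg D hD s hs with hp | hn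
  · exact hpos s hp
  · have hns := neg_lt' D hD hnx s hs
    have e1 := negRev_spec D (negRev_of_mem D hD) s hs
    have e2 := negRev_spec D (negRev_of_mem D hD) _ hns
    have hnn : D.neg (D.neg s) = s := by omega
    have hpn : D.IsPosRoot (D.neg s) := by
      rcases Cfsg.Agent.S1041.posOrNeg D hD _ hns with hp | hn'
      · exact hp
      · have a1 := (triOK_neg D htri s hn).1
        have a2 := (triOK_neg D htri _ hn').1
        have a3 := triOK_even D htri
        omega
    have := hχ.1 (D.neg s) hns
    rw [hnn, hpos _ hpn, inv_one] at this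
    exact this

end Cfsg.Agent.Lib.helper11
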