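import Cfsg.Agent.Lib.helper11d.RadOK

/-! The centraliser of the unipotent radical `U_J` of a proper parabolic subgroup lies in `U`. -/

set_option autoImplicit false

namespace Cfsg.Agent.Lib.helper11

open Cfsg Cfsg.Lie
open scoped Pointwise

/-- an element of `B` centralising `U_J`, `J` proper, lies in `U` -/
theorem cent_borel_unip {F : Type*} [Field F] (D : ChevalleyDatum)
    (hD : D ∈ [chevG2, chevB2, chevD4, chevF4, chevE6, chevE7, chevE8]) (J : Set ℕ)
    (hJ : ∃ j, j < D.rank ∧ j ∉ J) (c : GL D.Idx F) (hcB : c ∈ D.borelSubgroup F)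
    (hcc : ∀ u ∈ D.unipotentRadical F J, c * u = u * c) : c ∈ D.posUnipotent F := by
  have hnx := nxAll_of_mem D hD
  have hc := hcert_of_mem D hD
  have htri := tri_of_mem D hD
  have hsimp := simp_of_mem D hD
  have hgcd := gcd_of_mem D hD
  obtain ⟨hct, h, hh, hdiag⟩ := borel_le_diagPart D hD hnx hc htri hcB
  obtain ⟨χ, hχ, hhχ⟩ := diag_charDiag D hD hnx hc h hh
  have hd1 : ∀ k : Fin D.rank, (c : Matrix D.Idx D.Idx F) (Sum.inl k) (Sum.inl k) = 1 := by
    intro k
    rw [hdiag, hhχ]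
    simp [ChevalleyDatum.charDiag]
  have hd2 : ∀ s : Fin D.nroots,
      (c : Matrix D.Idx D.Idx F) (Sum.inr s) (Sum.inr s) = ((χ s.val : Fˣ) : F) := by
    intro s
    rw [hdiag, hhχ]
    simp [ChevalleyDatum.charDiag]
  have key : ∀ r, D.IsPosRoot r → ¬ D.InRootSub J r → χ r = 1 := by
    intro r hr hrJ
    have hu : xU D hD r (1 : F) ∈ D.unipotentRadical F J :=
      Subgroup.subset_closure ⟨r, 1, hr, hrJ, rfl⟩
    have h1 := congrArg Units.val (hcc _ hu)
    rw [Units.val_mul, Units.val_mul, xU_val] at h1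
    have hx' : D.x F r 1 = D.xMat F ⟨r, hr.1⟩ 1 := by simp [ChevalleyDatum.x, hr.1]
    have h2 : (c : Matrix D.Idx D.Idx F) * (D.xMat F ⟨r, hr.1⟩ 1 - 1) =
        (D.xMat F ⟨r, hr.1⟩ 1 - 1) * (c : Matrix D.Idx D.Idx F) := by
      rw [Matrix.mul_sub, Matrix.sub_mul, Matrix.mul_one, Matrix.one_mul, ← hx', h1]
    obtain ⟨k, hk, hne⟩ := exists_cor_ne_zero F D hgcd r hr.1
    have hnr : D.neg r < D.nroots := neg_lt' D hD hnx r hr.1
    have hnr' : D.neg r ≠ r := neg_ne_self D hD r hr.1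
    have e2 : ((⟨D.neg r, hnr⟩ : Fin D.nroots) : ℕ) =
        D.negIdx.getD ((⟨r, hr.1⟩ : Fin D.nroots) : ℕ) 0 := rfl
    have h3 := congrFun (congrFun h2 (Sum.inl ⟨k, hk⟩)) (Sum.inr ⟨D.neg r, hnr⟩)
    rw [Matrix.mul_apply, Matrix.mul_apply] at h3
    have hY : (D.xMat F ⟨r, hr.1⟩ (1 : F) - 1) (Sum.inl ⟨k, hk⟩) (Sum.inr ⟨D.neg r, hnr⟩) =
        ((cor D r k : ℤ) : F) := by
      rw [Matrix.sub_apply, Matrix.one_apply_ne (by simp), sub_zero,
        Cfsg.Agent.S1023.xMat_inl_inr, if_neg (fun e => hnr' (congrArg Fin.val e)), if_pos e2,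
        mul_one]
      rfl
    have hL : ∑ m, (c : Matrix D.Idx D.Idx F) (Sum.inl ⟨k, hk⟩) m *
        (D.xMat F ⟨r, hr.1⟩ (1 : F) - 1) m (Sum.inr ⟨D.neg r, hnr⟩) =
        (c : Matrix D.Idx D.Idx F) (Sum.inl ⟨k, hk⟩) (Sum.inl ⟨k, hk⟩) *
          (D.xMat F ⟨r, hr.1⟩ (1 : F) - 1) (Sum.inl ⟨k, hk⟩) (Sum.inr ⟨D.neg r, hnr⟩) := by
      apply Finset.sum_eq_single
      · intro m _ hm
        rcases m with m | m
        · have : (c : Matrix D.Idx D.Idx F) (Sum.inl ⟨k, hk⟩) (Sum.inl m) = 0 := by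
            by_contra hne'
            rcases hct.1 _ _ hne' with e | e
            · exact hm e.symm
            · simp [lev] at e
          rw [this, zero_mul]
        · by_cases hmr : m.val = r
          · have : (c : Matrix D.Idx D.Idx F) (Sum.inl ⟨k, hk⟩) (Sum.inr m) = 0 := by
              by_contra hne'
              rcases hct.1 _ _ hne' with e | e
              · exact absurd e (by simp)
              · have a1 := (triOK_pos D htri r hr).1
                unfold lev at e
                simp only at e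
                rw [hmr] at e
                split_ifs at e <;> omega
            rw [this, zero_mul]
          · have : (D.xMat F ⟨r, hr.1⟩ (1 : F) - 1) (Sum.inr m) (Sum.inr ⟨D.neg r, hnr⟩) = 0 := by
              rw [Matrix.sub_apply, Cfsg.Agent.S1023.xMat_inr_inr,
                if_neg (fun e => hnr' (congrArg Fin.val e)), if_pos e2]
              by_cases e : m = ⟨D.neg r, hnr⟩
              · rw [if_pos e, e, Matrix.one_apply_eq, sub_self]
              · rw [if_neg e, if_neg (fun e' => hmr (congrArg Fin.val e')),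
                  Matrix.one_apply_ne (fun e' => e (Sum.inr.inj e')), sub_zero]
            rw [this, mul_zero]
      · intro hm
        exact absurd (Finset.mem_univ _) hm
    have hR : ∑ m, (D.xMat F ⟨r, hr.1⟩ (1 : F) - 1) (Sum.inl ⟨k, hk⟩) m *
        (c : Matrix D.Idx D.Idx F) m (Sum.inr ⟨D.neg r, hnr⟩) =
        (D.xMat F ⟨r, hr.1⟩ (1 : F) - 1) (Sum.inl ⟨k, hk⟩) (Sum.inr ⟨D.neg r, hnr⟩) *
          (c : Matrix D.Idx D.Idx F) (Sum.inr ⟨D.neg r, hnr⟩) (Sum.inr ⟨D.neg r, hnr⟩) := by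
      apply Finset.sum_eq_single
      · intro m _ hm
        have : (D.xMat F ⟨r, hr.1⟩ (1 : F) - 1) (Sum.inl ⟨k, hk⟩) m = 0 := by
          rcases m with m | m
          · rw [Matrix.sub_apply, Cfsg.Agent.S1023.xMat_inl_inl, Matrix.one_apply]
            by_cases e : (⟨k, hk⟩ : Fin D.rank) = m
            · simp [e]
            · have : (Sum.inl ⟨k, hk⟩ : D.Idx) ≠ Sum.inl m := fun h' => e (Sum.inl.inj h')
              simp [e, this]
          · rw [Matrix.sub_apply, Matrix.one_apply_ne (by simp), sub_zero,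
              Cfsg.Agent.S1023.xMat_inl_inr]
            split_ifs with a1 a2
            · rfl
            · exfalso
              apply hm
              congr 1
              exact Fin.ext a2
            · rfl
        rw [this, zero_mul]
      · intro hm
        exact absurd (Finset.mem_univ _) hm
    rw [hL, hR, hY, hd1, hd2, one_mul] at h3
    have h4 : ((χ (D.neg r) : Fˣ) : F) = 1 := by
      have h5 : ((cor D r k : ℤ) : F) * ((χ (D.neg r) : Fˣ) : F) = ((cor D r k : ℤ) : F) * 1 := by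
        rw [mul_one]
        exact h3.symm
      exact mul_left_cancel₀ hne h5
    have h5 : χ (D.neg r) = 1 := Units.ext h4
    rw [hχ.1 r hr.1, inv_eq_one] at h5
    exact h5
  have hsimple : ∀ i < D.rank, χ (D.simple i) = 1 := by
    intro i hi
    have hp := (hc.2 i hi).2
    by_cases hiJ : i ∈ J
    · obtain ⟨j, hj, hjJ⟩ := hJ
      obtain ⟨r, r', hr, hcor, hch, hr', hcor'⟩ :=
        rad2_spec D (rad2_of_mem D hD) i j hi hj (fun e => hjJ (e ▸ hiJ))
      have e1 := key r hr ((not_sub_iff D J r hr.1).mpr ⟨j, hj, hjJ, hcor⟩)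
      have e2 := key r' hr' ((not_sub_iff D J r' hr'.1).mpr ⟨j, hj, hjJ, hcor'⟩)
      have e3 := hχ.2 (D.simple i) r r' hp.1 hr.1 hch
      rw [e1, e2, mul_one] at e3
      exact e3.symm
    · exact key _ hp ((not_sub_iff D J _ hp.1).mpr ⟨i, hi, hiJ, (simp_spec D hsimp i hi).1⟩)
  have hall := char_trivial D hD (gen_of_mem D hD) χ hχ hsimple
  have hh1 : (h : Matrix D.Idx D.Idx F) = 1 := by rw [hhχ, charDiag_eq_one D χ hall]
  have hBmul : ((D.posUnipotent F ⊔ D.diagonalSubgroup F : Subgroup (GL D.Idx F)) :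
      Set (GL D.Idx F)) = (D.posUnipotent F : Set (GL D.Idx F)) * (D.diagonalSubgroup F : Set (GL D.Idx F)) :=
    Subgroup.coe_mul_of_right_le_normalizer_left _ _ (diag_le_normalizer_pos D hD hnx hc)
  have hcB' : c ∈ ((D.posUnipotent F ⊔ D.diagonalSubgroup F : Subgroup (GL D.Idx F)) :
      Set (GL D.Idx F)) := hcB
  rw [hBmul] at hcB'
  obtain ⟨u, hu, h', hh', rfl⟩ := Set.mem_mul.mp hcB'
  have hut := (pos_le_lev D hD htri hu).1.ut
  have hh't := diag_le_tri D hD hnx hc (lev D) hh'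
  have hd : ∀ i, (h' : Matrix D.Idx D.Idx F) i i = 1 := by
    intro i
    have e1 := Tri.diag_mul hut.1 hh't.1 i
    rw [hut.2 i, one_mul] at e1
    rw [← e1, ← Units.val_mul, hdiag, hh1, Matrix.one_apply_eq]
  have hh'1 : h' = 1 := eq_one_of_UT_diag D h' hd
    (fun row col hrc => diag_apply_ne D hD hnx hc h' hh' row col hrc)
  rw [hh'1, mul_one]
  exact hu

/-- the centraliser in the group of `U_J`, `J` proper, lies in `U` -/
theorem cent_rad_le_pos {F : Type*} [Field F] (D : ChevalleyDatum)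
    (hD : D ∈ [chevG2, chevB2, chevD4, chevF4, chevE6, chevE7, chevE8]) (J : Set ℕ)
    (hJ : ∃ j, j < D.rank ∧ j ∉ J) (c : GL D.Idx F) (hcG : c ∈ D.group F)
    (hcc : ∀ u ∈ D.unipotentRadical F J, c * u = u * c) : c ∈ D.posUnipotent F :=
  cent_borel_unip D hD J hJ c (cent_le_borel D hD J hJ (rad_of_mem D hD) c hcG hcc) hcc

end Cfsg.Agent.Lib.helper11
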