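import Cfsg.Agent.Lib.helper11d.Rad3

/-! Kernel-checked certificates for the centraliser of a unipotent radical. -/

set_option autoImplicit false

namespace Cfsg.Agent.Lib.helper11

open Cfsg Cfsg.Lie

theorem radOK_G2 : radOK chevG2 (rootLen chevG2) = true := by decide +kernel

theorem rad2OK_G2 : rad2OK chevG2 = true := by decide +kernel

theorem genOK_G2 : genOK chevG2 = true := by decide +kernel

theorem radOK_B2 : radOK chevB2 (rootLen chevB2) = true := by decide +kernel

theorem rad2OK_B2 : rad2OK chevB2 = true := by decide +kernel

theorem genOK_B2 : genOK chevB2 = true := by decide +kernel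

theorem radOK_D4 : radOK chevD4 (rootLen chevD4) = true := by decide +kernel

theorem rad2OK_D4 : rad2OK chevD4 = true := by decide +kernel

theorem genOK_D4 : genOK chevD4 = true := by decide +kernel

theorem radOK_F4 : radOK chevF4 (rootLen chevF4) = true := by decide +kernel

theorem rad2OK_F4 : rad2OK chevF4 = true := by decide +kernel

theorem genOK_F4 : genOK chevF4 = true := by decide +kernel

theorem radOK_E6 : radOK chevE6 (rootLen chevE6) = true := by decide +kernel

theorem rad2OK_E6 : rad2OK chevE6 = true := by decide +kernel

theorem genOK_E6 : genOK chevE6 = true := by decide +kernel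

theorem radOK_E7 : radOK chevE7 (rootLen chevE7) = true := by decide +kernel

theorem rad2OK_E7 : rad2OK chevE7 = true := by decide +kernel

theorem genOK_E7 : genOK chevE7 = true := by decide +kernel

theorem radOK_E8 : radOK chevE8 (rootLen chevE8) = true := by decide +kernel

theorem rad2OK_E8 : rad2OK chevE8 = true := by decide +kernel

theorem genOK_E8 : genOK chevE8 = true := by decide +kernel

theorem rad_of_mem (D : ChevalleyDatum)
    (hD : D ∈ [chevG2, chevB2, chevD4, chevF4, chevE6, chevE7, chevE8]) : radOK D (rootLen D) = true := by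
  simp only [List.mem_cons, List.not_mem_nil, or_false] at hD
  rcases hD with rfl | rfl | rfl | rfl | rfl | rfl | rfl
  · exact radOK_G2
  · exact radOK_B2
  · exact radOK_D4
  · exact radOK_F4
  · exact radOK_E6
  · exact radOK_E7
  · exact radOK_E8

theorem rad2_of_mem (D : ChevalleyDatum)
    (hD : D ∈ [chevG2, chevB2, chevD4, chevF4, chevE6, chevE7, chevE8]) : rad2OK D = true := by
  simp only [List.mem_cons, List.not_mem_nil, or_false] at hD
  rcases hD with rfl | rfl | rfl | rfl | rfl | rfl | rfl
  · exact rad2OK_G2
  · exact rad2OK_B2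
  · exact rad2OK_D4
  · exact rad2OK_F4
  · exact rad2OK_E6
  · exact rad2OK_E7
  · exact rad2OK_E8

theorem gen_of_mem (D : ChevalleyDatum)
    (hD : D ∈ [chevG2, chevB2, chevD4, chevF4, chevE6, chevE7, chevE8]) : genOK D = true := by
  simp only [List.mem_cons, List.not_mem_nil, or_false] at hD
  rcases hD with rfl | rfl | rfl | rfl | rfl | rfl | rfl
  · exact genOK_G2
  · exact genOK_B2
  · exact genOK_D4
  · exact genOK_F4
  · exact genOK_E6
  · exact genOK_E7
  · exact genOK_E8

end Cfsg.Agent.Lib.helper11
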