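import Mathlib

/-! A homomorphism from `SL₂(F)` defined by rank-one relations. -/

set_option autoImplicit false

namespace Cfsg.Agent.Lib.helper11

open Matrix

section

variable {F : Type*} [Field F] {Γ : Type*} [Group Γ]

/-- the rank-one relations -/
structure Rk1 (X Y N H : F → Γ) : Prop where
  xadd : ∀ s t, X s * X t = X (s + t)
  ndef : ∀ t, N t = X t * Y (-t⁻¹) * X t
  hdef : ∀ t, H t = N t * N (-1)
  hmul : ∀ s t, s ≠ 0 → t ≠ 0 → H s * H t = H (s * t)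
  ninv : ∀ t, (N t)⁻¹ = N (-t)
  nconj : ∀ s, N 1 * X s * (N 1)⁻¹ = Y (-s)
  hconj : ∀ a s, a ≠ 0 → H a * X s * (H a)⁻¹ = X (a ^ 2 * s)

def sl2x (u : F) : Matrix.SpecialLinearGroup (Fin 2) F :=
  ⟨!![1, u; 0, 1], by simp [Matrix.det_fin_two_of]⟩

def sl2y (u : F) : Matrix.SpecialLinearGroup (Fin 2) F :=
  ⟨!![1, 0; u, 1], by simp [Matrix.det_fin_two_of]⟩

def sl2w : Matrix.SpecialLinearGroup (Fin 2) F :=
  ⟨!![0, 1; -1, 0], by simp [Matrix.det_fin_two_of]⟩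

theorem sl2_det (g : Matrix.SpecialLinearGroup (Fin 2) F) :
    g.1 0 0 * g.1 1 1 - g.1 0 1 * g.1 1 0 = 1 := by
  have := g.2
  rwa [Matrix.det_fin_two] at this

theorem sl2_mul_x_entries (g : Matrix.SpecialLinearGroup (Fin 2) F) (u : F) :
    (g * sl2x u).1 0 0 = g.1 0 0 ∧ (g * sl2x u).1 0 1 = g.1 0 0 * u + g.1 0 1 ∧
    (g * sl2x u).1 1 0 = g.1 1 0 ∧ (g * sl2x u).1 1 1 = g.1 1 0 * u + g.1 1 1 := by
  refine ⟨?_, ?_, ?_, ?_⟩
  · show (g.1 * (sl2x u).1) 0 0 = _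
    simp [sl2x, Matrix.mul_apply, Fin.sum_univ_two]
  · show (g.1 * (sl2x u).1) 0 1 = _
    simp [sl2x, Matrix.mul_apply, Fin.sum_univ_two]
  · show (g.1 * (sl2x u).1) 1 0 = _
    simp [sl2x, Matrix.mul_apply, Fin.sum_univ_two]
  · show (g.1 * (sl2x u).1) 1 1 = _
    simp [sl2x, Matrix.mul_apply, Fin.sum_univ_two]

theorem sl2_mul_w_entries (g : Matrix.SpecialLinearGroup (Fin 2) F) :
    (g * sl2w).1 0 0 = - g.1 0 1 ∧ (g * sl2w).1 0 1 = g.1 0 0 ∧
    (g * sl2w).1 1 0 = - g.1 1 1 ∧ (g * sl2w).1 1 1 = g.1 1 0 := by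
  refine ⟨?_, ?_, ?_, ?_⟩
  · show (g.1 * (sl2w : Matrix.SpecialLinearGroup (Fin 2) F).1) 0 0 = _
    simp [sl2w, Matrix.mul_apply, Fin.sum_univ_two]
  · show (g.1 * (sl2w : Matrix.SpecialLinearGroup (Fin 2) F).1) 0 1 = _
    simp [sl2w, Matrix.mul_apply, Fin.sum_univ_two]
  · show (g.1 * (sl2w : Matrix.SpecialLinearGroup (Fin 2) F).1) 1 0 = _
    simp [sl2w, Matrix.mul_apply, Fin.sum_univ_two]
  · show (g.1 * (sl2w : Matrix.SpecialLinearGroup (Fin 2) F).1) 1 1 = _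
    simp [sl2w, Matrix.mul_apply, Fin.sum_univ_two]

open scoped Classical in
/-- the map on `SL₂(F)` read off from the Bruhat form -/
noncomputable def rk1Fun (X N H : F → Γ) (g : Matrix.SpecialLinearGroup (Fin 2) F) : Γ :=
  if g.1 1 0 = 0 then H (g.1 0 0) * X (g.1 0 1 / g.1 0 0)
  else X (g.1 0 0 / g.1 1 0) * N (-1 / g.1 1 0) * X (g.1 1 1 / g.1 1 0)

variable {X Y N H : F → Γ}

theorem Rk1.x_zero (h : Rk1 X Y N H) : X 0 = 1 := by
  have := h.xadd 0 0
  rw [add_zero] at this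
  exact mul_eq_left.mp this

theorem Rk1.n_mul_neg (h : Rk1 X Y N H) (t : F) : N t * N (-t) = 1 := by
  rw [← h.ninv, mul_inv_cancel]

theorem Rk1.n_neg_mul (h : Rk1 X Y N H) (t : F) : N (-t) * N t = 1 := by
  rw [← h.ninv, inv_mul_cancel]

theorem Rk1.h_one (h : Rk1 X Y N H) : H 1 = 1 := by
  rw [h.hdef, h.n_mul_neg]

theorem Rk1.n_eq (h : Rk1 X Y N H) (t : F) : N t = H t * N 1 := by
  rw [h.hdef, mul_assoc, h.n_neg_mul, mul_one]

theorem Rk1.h_neg_one_sq (h : Rk1 X Y N H) : H (-1) * H (-1) = 1 := by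
  rw [h.hmul _ _ (neg_ne_zero.mpr one_ne_zero) (neg_ne_zero.mpr one_ne_zero)]
  simp [h.h_one]

theorem Rk1.n_one_sq (h : Rk1 X Y N H) : N 1 * N 1 = H (-1) := by
  have h1 : H (-1) = N (-1) * N (-1) := h.hdef (-1)
  have h2 : N 1 * N 1 * (N (-1) * N (-1)) = 1 := by
    calc N 1 * N 1 * (N (-1) * N (-1)) = N 1 * (N 1 * N (-1)) * N (-1) := by group
      _ = 1 := by rw [h.n_mul_neg, mul_one, h.n_mul_neg]
  rw [← h1] at h2
  calc N 1 * N 1 = N 1 * N 1 * (H (-1) * H (-1)) := by rw [h.h_neg_one_sq, mul_one]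
    _ = (N 1 * N 1 * H (-1)) * H (-1) := by group
    _ = H (-1) := by rw [h2, one_mul]

theorem Rk1.hx (h : Rk1 X Y N H) (a s : F) (ha : a ≠ 0) : H a * X s = X (a ^ 2 * s) * H a := by
  rw [← h.hconj a s ha]
  group

theorem Rk1.h_neg_one_x (h : Rk1 X Y N H) (s : F) : X s * H (-1) = H (-1) * X s := by
  rw [h.hx (-1) s (neg_ne_zero.mpr one_ne_zero)]
  congr 2
  ring

theorem Rk1.y_eq (h : Rk1 X Y N H) (s : F) :
    Y (-s) = X (-s⁻¹) * N s⁻¹ * X (-s⁻¹) := by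
  rw [h.ndef s⁻¹, inv_inv]
  have e1 : X (-s⁻¹) * X s⁻¹ = 1 := by rw [h.xadd, neg_add_cancel, h.x_zero]
  have e2 : X s⁻¹ * X (-s⁻¹) = 1 := by rw [h.xadd, add_neg_cancel, h.x_zero]
  calc Y (-s) = (X (-s⁻¹) * X s⁻¹) * Y (-s) * (X s⁻¹ * X (-s⁻¹)) := by rw [e1, e2]; group
    _ = _ := by group

theorem Rk1.n_neg_mul_one (h : Rk1 X Y N H) (t : F) (ht : t ≠ 0) : N (-t) * N 1 = H t := by
  rw [h.n_eq (-t), mul_assoc, h.n_one_sq, h.hmul _ _ (neg_ne_zero.mpr ht)
    (neg_ne_zero.mpr one_ne_zero)]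
  congr 1
  ring

/-- the key rank-one identity -/
theorem Rk1.key (h : Rk1 X Y N H) (s t : F) (hs : s ≠ 0) (ht : t ≠ 0) :
    N t * X s * N 1 = X (-t ^ 2 / s) * N (-t / s) * X (-1 / s) := by
  have e1 : N 1 * X s = Y (-s) * N 1 := by
    rw [← h.nconj s]; group
  have e2 : H t * N s⁻¹ * H (-1) = N (-t / s) := by
    rw [h.n_eq s⁻¹, h.n_eq (-t / s)]
    have e3 : N 1 * H (-1) = H (-1) * N 1 := by
      rw [← h.n_one_sq]; group
    calc H t * (H s⁻¹ * N 1) * H (-1) = H t * H s⁻¹ * (N 1 * H (-1)) := by group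
      _ = H t * H s⁻¹ * H (-1) * N 1 := by rw [e3]; group
      _ = H (-t / s) * N 1 := by
        rw [h.hmul _ _ ht (inv_ne_zero hs), h.hmul _ _ (mul_ne_zero ht (inv_ne_zero hs))
          (neg_ne_zero.mpr one_ne_zero)]
        congr 2
        field_simp
  calc N t * X s * N 1 = H t * (N 1 * X s) * N 1 := by rw [h.n_eq t]; group
    _ = H t * Y (-s) * (N 1 * N 1) := by rw [e1]; group
    _ = H t * (X (-s⁻¹) * N s⁻¹ * X (-s⁻¹)) * H (-1) := by rw [h.n_one_sq, h.y_eq s]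
    _ = (H t * X (-s⁻¹)) * N s⁻¹ * (X (-s⁻¹) * H (-1)) := by group
    _ = X (t ^ 2 * (-s⁻¹)) * (H t * N s⁻¹ * H (-1)) * X (-s⁻¹) := by
        rw [h.hx t _ ht, h.h_neg_one_x]; group
    _ = _ := by
        rw [e2]
        congr 2
        · congr 1
          field_simp
        · field_simp

theorem rk1Fun_mul_x (h : Rk1 X Y N H) (g : Matrix.SpecialLinearGroup (Fin 2) F) (u : F) :
    rk1Fun X N H (g * sl2x u) = rk1Fun X N H g * X u := by
  obtain ⟨e00, e01, e10, e11⟩ := sl2_mul_x_entries g u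
  have hdet := sl2_det g
  unfold rk1Fun
  rw [e00, e01, e10, e11]
  by_cases hc : g.1 1 0 = 0
  · rw [if_pos hc, if_pos hc]
    have ha : g.1 0 0 ≠ 0 := by
      intro ha
      rw [ha, hc] at hdet
      simp at hdet
    have e : (g.1 0 0 * u + g.1 0 1) / g.1 0 0 = g.1 0 1 / g.1 0 0 + u := by
      field_simp
      ring
    rw [e, ← h.xadd, ← mul_assoc]
  · rw [if_neg hc, if_neg hc]
    have e : (g.1 1 0 * u + g.1 1 1) / g.1 1 0 = g.1 1 1 / g.1 1 0 + u := by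
      field_simp
      ring
    rw [e, ← h.xadd, ← mul_assoc]

theorem rk1Fun_mul_w (h : Rk1 X Y N H) (g : Matrix.SpecialLinearGroup (Fin 2) F) :
    rk1Fun X N H (g * sl2w) = rk1Fun X N H g * N 1 := by
  obtain ⟨e00, e01, e10, e11⟩ := sl2_mul_w_entries g
  have hdet := sl2_det g
  unfold rk1Fun
  rw [e00, e01, e10, e11]
  by_cases hc : g.1 1 0 = 0
  · have ha : g.1 0 0 ≠ 0 := by
      intro ha
      rw [ha, hc] at hdet
      simp at hdet
    have hd : g.1 1 1 ≠ 0 := by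
      intro hd
      rw [hd, hc] at hdet
      simp at hdet
    have had : g.1 0 0 * g.1 1 1 = 1 := by
      rw [hc] at hdet
      simpa using hdet
    rw [if_pos hc, if_neg (neg_ne_zero.mpr hd), hc, zero_div, h.x_zero, mul_one]
    rw [h.hx _ _ ha, mul_assoc, ← h.n_eq]
    have e1 : -g.1 0 1 / -g.1 1 1 = g.1 0 0 ^ 2 * (g.1 0 1 / g.1 0 0) := by
      have : g.1 1 1 = (g.1 0 0)⁻¹ := eq_inv_of_mul_eq_one_right had
      rw [this]
      field_simp
    have e2 : -1 / -g.1 1 1 = g.1 0 0 := by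
      have : g.1 1 1 = (g.1 0 0)⁻¹ := eq_inv_of_mul_eq_one_right had
      rw [this]
      field_simp
    rw [e1, e2]
  · rw [if_neg hc]
    by_cases hd : g.1 1 1 = 0
    · have hbc : - (g.1 0 1 * g.1 1 0) = 1 := by
        rw [hd] at hdet
        simpa using hdet
      rw [if_pos (by rw [hd, neg_zero]), hd, zero_div, h.x_zero, mul_one]
      have hb : - g.1 0 1 = (g.1 1 0)⁻¹ := by
        apply eq_inv_of_mul_eq_one_left
        rw [neg_mul]
        exact hbc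
      rw [hb, h.hx _ _ (inv_ne_zero hc)]
      have e1 : N (-1 / g.1 1 0) * N 1 = H (g.1 1 0)⁻¹ := by
        have := h.n_neg_mul_one (g.1 1 0)⁻¹ (inv_ne_zero hc)
        rw [← this]
        congr 2
        field_simp
      rw [mul_assoc, e1]
      congr 2
      field_simp
    · rw [if_neg (neg_ne_zero.mpr hd)]
      have hk := h.key (g.1 1 1 / g.1 1 0) (-1 / g.1 1 0) (div_ne_zero hd hc)
        (div_ne_zero (neg_ne_zero.mpr one_ne_zero) hc)
      have e1 : g.1 0 0 / g.1 1 0 + -(-1 / g.1 1 0) ^ 2 / (g.1 1 1 / g.1 1 0) =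
          -g.1 0 1 / -g.1 1 1 := by
        field_simp
        linear_combination hdet
      have e2 : -(-1 / g.1 1 0) / (g.1 1 1 / g.1 1 0) = -1 / -g.1 1 1 := by
        field_simp
      have e3 : -1 / (g.1 1 1 / g.1 1 0) = g.1 1 0 / -g.1 1 1 := by
        field_simp
      symm
      calc X (g.1 0 0 / g.1 1 0) * N (-1 / g.1 1 0) * X (g.1 1 1 / g.1 1 0) * N 1
            = X (g.1 0 0 / g.1 1 0) * (N (-1 / g.1 1 0) * X (g.1 1 1 / g.1 1 0) * N 1) := by
            group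
        _ = X (g.1 0 0 / g.1 1 0) * (X (-(-1 / g.1 1 0) ^ 2 / (g.1 1 1 / g.1 1 0)) *
              N (-(-1 / g.1 1 0) / (g.1 1 1 / g.1 1 0)) * X (-1 / (g.1 1 1 / g.1 1 0))) := by
            rw [hk]
        _ = X (g.1 0 0 / g.1 1 0 + -(-1 / g.1 1 0) ^ 2 / (g.1 1 1 / g.1 1 0)) *
              N (-(-1 / g.1 1 0) / (g.1 1 1 / g.1 1 0)) * X (-1 / (g.1 1 1 / g.1 1 0)) := by
            rw [← h.xadd]; group
        _ = _ := by rw [e1, e2, e3]

theorem rk1Fun_one (h : Rk1 X Y N H) :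
    rk1Fun X N H (1 : Matrix.SpecialLinearGroup (Fin 2) F) = 1 := by
  unfold rk1Fun
  simp [h.h_one, h.x_zero]

theorem sl2y_eq (u : F) :
    (sl2y u : Matrix.SpecialLinearGroup (Fin 2) F) = sl2w * sl2x (-u) * sl2w * sl2w * sl2w := by
  apply Subtype.ext
  show (!![1, 0; u, 1] : Matrix (Fin 2) (Fin 2) F) = !![0, 1; -1, 0] * !![1, -u; 0, 1] *
    !![0, 1; -1, 0] * !![0, 1; -1, 0] * !![0, 1; -1, 0]
  simp

/-- the homomorphism `SL₂(F) → Γ` attached to rank-one relations -/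
theorem rk1_hom (h : Rk1 X Y N H) : ∃ φ : Matrix.SpecialLinearGroup (Fin 2) F →* Γ,
    (∀ t, φ (sl2x t) = X t) ∧ (∀ t, φ (sl2y t) = Y t) ∧
      φ.range ≤ Subgroup.closure (Set.range X ∪ Set.range Y) := by
  have hx : ∀ u, rk1Fun X N H (sl2x u) = X u := by
    intro u
    have := rk1Fun_mul_x h 1 u
    rwa [one_mul, rk1Fun_one h, one_mul] at this
  have hw : rk1Fun X N H (sl2w : Matrix.SpecialLinearGroup (Fin 2) F) = N 1 := by
    have := rk1Fun_mul_w h 1
    rwa [one_mul, rk1Fun_one h, one_mul] at this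
  let P : Matrix.SpecialLinearGroup (Fin 2) F → Prop := fun g' =>
    ∀ g, rk1Fun X N H (g * g') = rk1Fun X N H g * rk1Fun X N H g'
  have Px : ∀ u, P (sl2x u) := by
    intro u g
    rw [rk1Fun_mul_x h, hx]
  have Pw : P sl2w := by
    intro g
    rw [rk1Fun_mul_w h, hw]
  have Pmul : ∀ A B, P A → P B → P (A * B) := by
    intro A B hA hB g
    rw [← mul_assoc, hB (g * A), hA g, hB A, mul_assoc]
  have Py : ∀ u, P (sl2y u) := by
    intro u
    rw [sl2y_eq]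
    exact Pmul _ _ (Pmul _ _ (Pmul _ _ (Pmul _ _ Pw (Px _)) Pw) Pw) Pw
  have Pall : ∀ A, P A := by
    intro A
    refine SL2.transvection_induction P (fun i j hij c => ?_) Pmul A
    have e0 : ∀ c : F, Matrix.SpecialLinearGroup.transvection (zero_ne_one (α := Fin 2)) c =
        sl2x c := by
      intro c
      ext i j
      fin_cases i <;> fin_cases j <;>
        simp [sl2x, Matrix.SpecialLinearGroup.transvection_coe]
    have e1 : ∀ c : F, Matrix.SpecialLinearGroup.transvection (one_ne_zero (α := Fin 2)) c =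
        sl2y c := by
      intro c
      ext i j
      fin_cases i <;> fin_cases j <;>
        simp [sl2y, Matrix.SpecialLinearGroup.transvection_coe]
    fin_cases i <;> fin_cases j
    · exact absurd rfl hij
    · exact (e0 c) ▸ Px c
    · exact (e1 c) ▸ Py c
    · exact absurd rfl hij
  let φ : Matrix.SpecialLinearGroup (Fin 2) F →* Γ :=
    { toFun := rk1Fun X N H
      map_one' := rk1Fun_one h
      map_mul' := fun a b => Pall b a }
  refine ⟨φ, hx, fun t => ?_, ?_⟩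
  · show φ (sl2y t) = Y t
    rw [sl2y_eq, map_mul, map_mul, map_mul, map_mul]
    show rk1Fun X N H sl2w * rk1Fun X N H (sl2x (-t)) * rk1Fun X N H sl2w *
      rk1Fun X N H sl2w * rk1Fun X N H sl2w = Y t
    rw [hw, hx]
    have e1 : N 1 * X (-t) = Y t * N 1 := by
      have := h.nconj (-t)
      rw [neg_neg] at this
      rw [← this]
      group
    calc N 1 * X (-t) * N 1 * N 1 * N 1 = (N 1 * X (-t)) * (N 1 * N 1) * N 1 := by group
      _ = Y t * (N 1 * N 1) * (N 1 * N 1) := by rw [e1]; group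
      _ = Y t := by rw [h.n_one_sq, mul_assoc, h.h_neg_one_sq, mul_one]
  · rintro _ ⟨g, rfl⟩
    have hX : ∀ t, X t ∈ Subgroup.closure (Set.range X ∪ Set.range Y) :=
      fun t => Subgroup.subset_closure (Or.inl ⟨t, rfl⟩)
    have hY : ∀ t, Y t ∈ Subgroup.closure (Set.range X ∪ Set.range Y) :=
      fun t => Subgroup.subset_closure (Or.inr ⟨t, rfl⟩)
    have hN : ∀ t, N t ∈ Subgroup.closure (Set.range X ∪ Set.range Y) := by
      intro t
      rw [h.ndef]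
      exact Subgroup.mul_mem _ (Subgroup.mul_mem _ (hX _) (hY _)) (hX _)
    have hH : ∀ t, H t ∈ Subgroup.closure (Set.range X ∪ Set.range Y) := by
      intro t
      rw [h.hdef]
      exact Subgroup.mul_mem _ (hN _) (hN _)
    show rk1Fun X N H g ∈ _
    unfold rk1Fun
    split_ifs
    · exact Subgroup.mul_mem _ (hH _) (hX _)
    · exact Subgroup.mul_mem _ (Subgroup.mul_mem _ (hX _) (hN _)) (hX _)

end

end Cfsg.Agent.Lib.helper11
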