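import Mathlib

/-! Generation of `SL_{n+1}(K)`, `|K| ≤ 3`, by a transvection and a cyclic monomial matrix. -/

set_option autoImplicit false

namespace Cfsg.Agent.Lib.helper11

open Matrix

/-- a field with at most three elements consists of `0, 1, -1` -/
theorem el3 {K : Type*} [Field K] [Fintype K] (hK : Fintype.card K ≤ 3) (a : K) :
    a = 0 ∨ a = 1 ∨ a = -1 := by
  classical
  by_contra hcon
  rw [not_or, not_or] at hcon
  obtain ⟨h0, h1, h2⟩ := hcon
  by_cases h : (1 : K) = -1
  · have d1 : (0 : K) ∉ ({1, a, a + 1} : Finset K) := by
      intro hmem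
      simp only [Finset.mem_insert, Finset.mem_singleton] at hmem
      rcases hmem with h' | h' | h'
      · exact zero_ne_one h'
      · exact h0 h'.symm
      · apply h2
        rw [eq_neg_iff_add_eq_zero]
        exact h'.symm
    have d2 : (1 : K) ∉ ({a, a + 1} : Finset K) := by
      intro hmem
      simp only [Finset.mem_insert, Finset.mem_singleton] at hmem
      rcases hmem with h' | h'
      · exact h1 h'.symm
      · exact h0 (by simpa using h'.symm)
    have d3 : a ∉ ({a + 1} : Finset K) := by
      intro hmem
      simp only [Finset.mem_singleton] at hmem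
      simp at hmem
    have hc : ({0, 1, a, a + 1} : Finset K).card = 4 := by
      rw [Finset.card_insert_of_notMem d1, Finset.card_insert_of_notMem d2,
        Finset.card_insert_of_notMem d3, Finset.card_singleton]
    have := Finset.card_le_univ ({0, 1, a, a + 1} : Finset K)
    omega
  · have d1 : (0 : K) ∉ ({1, -1, a} : Finset K) := by
      intro hmem
      simp only [Finset.mem_insert, Finset.mem_singleton] at hmem
      rcases hmem with h' | h' | h'
      · exact zero_ne_one h'
      · simp at h'
      · exact h0 h'.symm
    have d2 : (1 : K) ∉ ({-1, a} : Finset K) := by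
      intro hmem
      simp only [Finset.mem_insert, Finset.mem_singleton] at hmem
      rcases hmem with h' | h'
      · exact h h'
      · exact h1 h'.symm
    have d3 : (-1 : K) ∉ ({a} : Finset K) := by
      intro hmem
      simp only [Finset.mem_singleton] at hmem
      exact h2 hmem.symm
    have hc : ({0, 1, -1, a} : Finset K).card = 4 := by
      rw [Finset.card_insert_of_notMem d1, Finset.card_insert_of_notMem d2,
        Finset.card_insert_of_notMem d3, Finset.card_singleton]
    have := Finset.card_le_univ ({0, 1, -1, a} : Finset K)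
    omega

theorem tv_comm {ι K : Type*} [DecidableEq ι] [Fintype ι] [CommRing K] (i j k : ι)
    (hjk : j ≠ k) (hik : i ≠ k) (a b : K) :
    Matrix.transvection i j a * Matrix.transvection j k b =
      Matrix.transvection i k (a * b) * Matrix.transvection j k b * Matrix.transvection i j a := by
  simp [Matrix.transvection, Matrix.mul_add, Matrix.add_mul, Matrix.single_mul_single_of_ne,
    hjk.symm, hik.symm]
  abel

/-- the cyclic monomial matrix -/
def cycW (K : Type*) [Field K] (n : ℕ) : Matrix (Fin (n + 1)) (Fin (n + 1)) K :=
  Matrix.of (fun i j => if j.val = i.val + 1 then 1 else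
    if i.val = n ∧ j.val = 0 then (-1) ^ n else 0)

theorem cycW_apply (K : Type*) [Field K] (n : ℕ) (i j : Fin (n + 1)) :
    cycW K n i j = if j.val = i.val + 1 then 1 else
      if i.val = n ∧ j.val = 0 then (-1) ^ n else 0 := rfl

theorem cycW_conj1 {K : Type*} [Field K] (n : ℕ) (a b c : Fin (n + 1))
    (hab : a.val + 1 = b.val) (hbc : b.val + 1 = c.val) (t : K) :
    cycW K n * Matrix.transvection b c t = Matrix.transvection a b t * cycW K n := by
  have hc := c.2
  ext i j
  by_cases hj : j = c
  · subst hj
    rw [Matrix.mul_transvection_apply_same]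
    by_cases hi : i = a
    · subst hi
      rw [Matrix.transvection_mul_apply_same]
      congr 1
      rw [cycW_apply, cycW_apply, if_pos hab.symm, if_pos hbc.symm]
    · rw [Matrix.transvection_mul_apply_of_ne _ _ _ _ hi]
      have : cycW K n i b = 0 := by
        rw [cycW_apply, if_neg, if_neg]
        · omega
        · intro h
          apply hi
          apply Fin.ext
          omega
      rw [this, mul_zero, add_zero]
  · rw [Matrix.mul_transvection_apply_of_ne _ _ _ _ hj]
    by_cases hi : i = a
    · subst hi
      rw [Matrix.transvection_mul_apply_same]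
      have : cycW K n b j = 0 := by
        rw [cycW_apply, if_neg, if_neg]
        · omega
        · intro h
          apply hj
          apply Fin.ext
          omega
      rw [this, mul_zero, add_zero]
    · rw [Matrix.transvection_mul_apply_of_ne _ _ _ _ hi]

theorem cycW_conj2 {K : Type*} [Field K] (n : ℕ) (hn : 1 ≤ n) (a z o : Fin (n + 1))
    (ha : a.val = n) (hz : z.val = 0) (ho : o.val = 1) (t : K) :
    cycW K n * Matrix.transvection z o t =
      Matrix.transvection a z ((-1) ^ n * t) * cycW K n := by
  ext i j
  by_cases hj : j = o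
  · subst hj
    rw [Matrix.mul_transvection_apply_same]
    by_cases hi : i = a
    · subst hi
      rw [Matrix.transvection_mul_apply_same]
      congr 1
      rw [cycW_apply, cycW_apply, if_neg (by omega), if_pos ⟨ha, hz⟩, if_pos (by omega)]
      ring
    · rw [Matrix.transvection_mul_apply_of_ne _ _ _ _ hi]
      have : cycW K n i z = 0 := by
        rw [cycW_apply, if_neg (by omega), if_neg]
        intro h
        apply hi
        apply Fin.ext
        omega
      rw [this, mul_zero, add_zero]
  · rw [Matrix.mul_transvection_apply_of_ne _ _ _ _ hj]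
    by_cases hi : i = a
    · subst hi
      rw [Matrix.transvection_mul_apply_same]
      have : cycW K n z j = 0 := by
        rw [cycW_apply, if_neg, if_neg]
        · omega
        · intro h
          apply hj
          apply Fin.ext
          omega
      rw [this, mul_zero, add_zero]
    · rw [Matrix.transvection_mul_apply_of_ne _ _ _ _ hi]

theorem nrow {ι K : Type*} [DecidableEq ι] [Fintype ι] [CommRing K] (i j : ι) (hij : i ≠ j)
    (M : Matrix ι ι K) (a b : ι) :
    ((Matrix.transvection i j (1 : K) * (Matrix.transvection j i (-1) *
      (Matrix.transvection i j 1 * M)) : Matrix ι ι K)) a b =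
      if a = i then M j b else if a = j then - M i b else M a b := by
  by_cases ha : a = i
  · subst ha
    rw [if_pos rfl]
    simp only [Matrix.transvection_mul_apply_same,
      Matrix.transvection_mul_apply_of_ne _ _ _ _ hij,
      Matrix.transvection_mul_apply_of_ne _ _ _ _ hij.symm]
    ring
  · rw [if_neg ha, Matrix.transvection_mul_apply_of_ne _ _ _ _ ha]
    by_cases ha' : a = j
    · subst ha'
      rw [if_pos rfl]
      simp only [Matrix.transvection_mul_apply_same,
        Matrix.transvection_mul_apply_of_ne _ _ _ _ hij.symm]
      ring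
    · rw [if_neg ha', Matrix.transvection_mul_apply_of_ne _ _ _ _ ha',
        Matrix.transvection_mul_apply_of_ne _ _ _ _ ha]

theorem diag_neg {ι K : Type*} [DecidableEq ι] [Fintype ι] [Field K] (i j : ι) (hij : i ≠ j) :
    Matrix.diagonal (fun k => if k = i then (-1 : K) else if k = j then (-1 : K)⁻¹ else 1) =
      (Matrix.transvection i j (1 : K) * Matrix.transvection j i (-1) *
        Matrix.transvection i j 1) * (Matrix.transvection i j (1 : K) *
        Matrix.transvection j i (-1) * Matrix.transvection i j 1) := by
  have hN : ∀ a b, ((Matrix.transvection i j (1 : K) * Matrix.transvection j i (-1) *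
      Matrix.transvection i j 1 : Matrix ι ι K)) a b =
      if a = i then (1 : Matrix ι ι K) j b else if a = j then - (1 : Matrix ι ι K) i b
        else (1 : Matrix ι ι K) a b := by
    intro a b
    have := nrow i j hij (1 : Matrix ι ι K) a b
    rw [Matrix.mul_one, ← Matrix.mul_assoc] at this
    exact this
  ext a b
  have h2 := nrow i j hij (Matrix.transvection i j (1 : K) * Matrix.transvection j i (-1) *
      Matrix.transvection i j 1) a b
  rw [← Matrix.mul_assoc, ← Matrix.mul_assoc] at h2
  rw [h2, hN, hN, if_pos rfl, if_neg hij.symm, if_pos rfl, Matrix.diagonal_apply]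
  by_cases ha : a = i
  · subst ha
    simp only [if_true, Matrix.one_apply]
    split_ifs <;> simp
  · by_cases ha' : a = j
    · subst ha'
      simp only [if_neg ha, if_true, Matrix.one_apply, inv_neg, inv_one]
      split_ifs <;> simp
    · simp only [if_neg ha, if_neg ha']
      rw [hN, if_neg ha, if_neg ha', Matrix.one_apply]

/-- `SL_{n+1}(K)`, `|K| ≤ 3`, is generated by the transvection `1 + E₁₂` and the cyclic
monomial matrix -/
theorem sl_gen {K : Type*} [Field K] [Fintype K] (hK : Fintype.card K ≤ 3) (n : ℕ) (hn : 1 ≤ n)
    (x w : Matrix.SpecialLinearGroup (Fin (n + 1)) K)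
    (hx : (x : Matrix (Fin (n + 1)) (Fin (n + 1)) K) =
      Matrix.transvection (0 : Fin (n + 1)) (1 : Fin (n + 1)) 1)
    (hw : (w : Matrix (Fin (n + 1)) (Fin (n + 1)) K) = cycW K n) :
    Subgroup.closure ({x, w} : Set (Matrix.SpecialLinearGroup (Fin (n + 1)) K)) = ⊤ := by
  obtain ⟨m, rfl⟩ : ∃ m, n = m + 1 := ⟨n - 1, by omega⟩
  set Hs := Subgroup.closure ({x, w} : Set (Matrix.SpecialLinearGroup (Fin (m + 1 + 1)) K))
    with hHs
  have hxH : x ∈ Hs := Subgroup.subset_closure (by simp)
  have hwH : w ∈ Hs := Subgroup.subset_closure (by simp)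
  have hc1 : ∀ (a b c : Fin (m + 1 + 1)) (hab : a ≠ b) (hbc : b ≠ c), a.val + 1 = b.val →
      b.val + 1 = c.val → ∀ t : K,
      w * SpecialLinearGroup.transvection hbc t = SpecialLinearGroup.transvection hab t * w := by
    intro a b c hab hbc h1 h2 t
    apply Subtype.ext
    show w.1 * Matrix.transvection b c t = Matrix.transvection a b t * w.1
    rw [hw]
    exact cycW_conj1 (m + 1) a b c h1 h2 t
  have hc2 : ∀ (a z o : Fin (m + 1 + 1)) (haz : a ≠ z) (hzo : z ≠ o), a.val = m + 1 →
      z.val = 0 → o.val = 1 → ∀ t : K,
      w * SpecialLinearGroup.transvection hzo t =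
        SpecialLinearGroup.transvection haz ((-1) ^ (m + 1) * t) * w := by
    intro a z o haz hzo h1 h2 h3 t
    apply Subtype.ext
    show w.1 * Matrix.transvection z o t = Matrix.transvection a z ((-1) ^ (m + 1) * t) * w.1
    rw [hw]
    exact cycW_conj2 (m + 1) (by omega) a z o h1 h2 h3 t
  have hE : ∀ k, ∀ (i j : Fin (m + 1 + 1)) (hij : i ≠ j), i.val = k → j.val = k + 1 →
      SpecialLinearGroup.transvection hij (1 : K) ∈ Hs := by
    intro k
    induction k with
    | zero =>
      intro i j hij hi hj
      have e : SpecialLinearGroup.transvection hij (1 : K) = x := by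
        apply Subtype.ext
        show Matrix.transvection i j 1 = x.1
        rw [hx]
        have hi0 : i = 0 := Fin.ext (by simpa using hi)
        have hj1 : j = 1 := Fin.ext (by simpa using hj)
        rw [hi0, hj1]
      rw [e]
      exact hxH
    | succ k ih =>
      intro i j hij hi hj
      have hk : k < m + 1 + 1 := by omega
      have hne : (⟨k, hk⟩ : Fin (m + 1 + 1)) ≠ i := by
        intro h
        have := congrArg Fin.val h
        simp at this
        omega
      have h1 := ih ⟨k, hk⟩ i hne rfl hi
      have h2 := hc1 ⟨k, hk⟩ i j hne hij (by simp [hi]) (by omega) 1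
      have e : SpecialLinearGroup.transvection hij (1 : K) =
          w⁻¹ * (SpecialLinearGroup.transvection hne 1 * w) := by
        rw [← h2, inv_mul_cancel_left]
      rw [e]
      exact Hs.mul_mem (Hs.inv_mem hwH) (Hs.mul_mem h1 hwH)
  have hL : ∀ (a z : Fin (m + 1 + 1)) (haz : a ≠ z), a.val = m + 1 → z.val = 0 →
      SpecialLinearGroup.transvection haz (1 : K) ∈ Hs := by
    intro a z haz ha hz
    have ho : ((1 : Fin (m + 1 + 1)) : ℕ) = 1 := by simp
    have hzo : z ≠ (1 : Fin (m + 1 + 1)) := by
      intro h
      have := congrArg Fin.val h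
      rw [ho, hz] at this
      omega
    have h2 := hc2 a z 1 haz hzo ha hz ho 1
    have hx' : SpecialLinearGroup.transvection hzo (1 : K) ∈ Hs := hE 0 z 1 hzo hz ho
    have e : SpecialLinearGroup.transvection haz ((-1) ^ (m + 1) * (1 : K)) =
        w * SpecialLinearGroup.transvection hzo 1 * w⁻¹ := by
      rw [h2, mul_inv_cancel_right]
    have h3 : SpecialLinearGroup.transvection haz ((-1) ^ (m + 1) * (1 : K)) ∈ Hs := by
      rw [e]
      exact Hs.mul_mem (Hs.mul_mem hwH hx') (Hs.inv_mem hwH)
    rcases neg_one_pow_eq_or K (m + 1) with h | h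
    · rw [h, one_mul] at h3
      exact h3
    · rw [h, neg_one_mul] at h3
      have := Hs.inv_mem h3
      rwa [SpecialLinearGroup.transvection_inv, neg_neg] at this
  have hcomm : ∀ (i j k : Fin (m + 1 + 1)) (hij : i ≠ j) (hjk : j ≠ k) (hik : i ≠ k),
      SpecialLinearGroup.transvection hij (1 : K) ∈ Hs →
      SpecialLinearGroup.transvection hjk (1 : K) ∈ Hs →
      SpecialLinearGroup.transvection hik (1 : K) ∈ Hs := by
    intro i j k hij hjk hik h1 h2
    have e : SpecialLinearGroup.transvection hij (1 : K) * SpecialLinearGroup.transvection hjk 1 =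
        SpecialLinearGroup.transvection hik 1 * SpecialLinearGroup.transvection hjk 1 *
          SpecialLinearGroup.transvection hij 1 := by
      apply Subtype.ext
      show Matrix.transvection i j (1 : K) * Matrix.transvection j k 1 =
        Matrix.transvection i k 1 * Matrix.transvection j k 1 * Matrix.transvection i j 1
      have := tv_comm i j k hjk hik (1 : K) 1
      rwa [mul_one] at this
    have e2 : SpecialLinearGroup.transvection hik (1 : K) =
        SpecialLinearGroup.transvection hij (1 : K) * SpecialLinearGroup.transvection hjk 1 *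
          (SpecialLinearGroup.transvection hij 1)⁻¹ *
          (SpecialLinearGroup.transvection hjk 1)⁻¹ := by
      rw [e]
      group
    rw [e2]
    exact Hs.mul_mem (Hs.mul_mem (Hs.mul_mem h1 h2) (Hs.inv_mem h1)) (Hs.inv_mem h2)
  have hU : ∀ d, ∀ (i j : Fin (m + 1 + 1)) (hij : i ≠ j), i.val + (d + 1) = j.val →
      SpecialLinearGroup.transvection hij (1 : K) ∈ Hs := by
    intro d
    induction d with
    | zero =>
      intro i j hij h
      exact hE i.val i j hij rfl (by omega)
    | succ d ih =>
      intro i j hij h
      have hk : j.val - 1 < m + 1 + 1 := by omega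
      have h1 : i ≠ (⟨j.val - 1, hk⟩ : Fin (m + 1 + 1)) := by
        intro h'
        have := congrArg Fin.val h'
        simp at this
        omega
      have h2 : (⟨j.val - 1, hk⟩ : Fin (m + 1 + 1)) ≠ j := by
        intro h'
        have := congrArg Fin.val h'
        simp at this
        omega
      exact hcomm i ⟨j.val - 1, hk⟩ j h1 h2 hij (ih i _ h1 (by simp; omega))
        (hE (j.val - 1) _ j h2 rfl (by omega))
  have hU' : ∀ (i j : Fin (m + 1 + 1)) (hij : i ≠ j), i.val < j.val →
      SpecialLinearGroup.transvection hij (1 : K) ∈ Hs := by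
    intro i j hij h
    exact hU (j.val - i.val - 1) i j hij (by omega)
  have hlastv : ((Fin.last (m + 1) : Fin (m + 1 + 1)) : ℕ) = m + 1 := rfl
  have hzerov : ((0 : Fin (m + 1 + 1)) : ℕ) = 0 := rfl
  have key : ∀ (j : Fin (m + 1 + 1)) (hlj : Fin.last (m + 1) ≠ j),
      SpecialLinearGroup.transvection hlj (1 : K) ∈ Hs := by
    intro j hlj
    by_cases hj0 : j.val = 0
    · exact hL _ j hlj hlastv hj0
    · have h0j : (0 : Fin (m + 1 + 1)) ≠ j := by
        intro h'
        exact hj0 (by rw [← h']; rfl)
      have hl0 : Fin.last (m + 1) ≠ (0 : Fin (m + 1 + 1)) := by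
        intro h'
        have := congrArg Fin.val h'
        rw [hlastv, hzerov] at this
        omega
      exact hcomm _ 0 j hl0 h0j hlj (hL _ 0 hl0 hlastv hzerov) (hU' 0 j h0j (by
        rw [hzerov]; omega))
  have hall : ∀ (i j : Fin (m + 1 + 1)) (hij : i ≠ j),
      SpecialLinearGroup.transvection hij (1 : K) ∈ Hs := by
    intro i j hij
    rcases Nat.lt_or_gt_of_ne (fun h => hij (Fin.ext h)) with h | h
    · exact hU' i j hij h
    · by_cases hi : i.val = m + 1
      · have : i = Fin.last (m + 1) := Fin.ext hi
        subst this
        exact key j hij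
      · have hil : i ≠ Fin.last (m + 1) := fun h' => hi (by rw [h']; rfl)
        have hlj : Fin.last (m + 1) ≠ j := by
          intro h'
          have := congrArg Fin.val h'
          rw [hlastv] at this
          have := i.2
          omega
        exact hcomm i (Fin.last (m + 1)) j hil hlj hij (hU' i _ hil (by
          rw [hlastv]; have := i.2; omega)) (key j hlj)
  have hT : ∀ (i j : Fin (m + 1 + 1)) (hij : i ≠ j) (a : K),
      SpecialLinearGroup.transvection hij a ∈ Hs := by
    intro i j hij a
    rcases el3 hK a with rfl | rfl | rfl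
    · rw [SpecialLinearGroup.transvection_coeff_zero]
      exact Hs.one_mem
    · exact hall i j hij
    · rw [← SpecialLinearGroup.transvection_inv]
      exact Hs.inv_mem (hall i j hij)
  have hD : ∀ (i j : Fin (m + 1 + 1)) (hij : i ≠ j) {c : K} (hc : c ≠ 0),
      SpecialLinearGroup.diag2n hij c hc ∈ Hs := by
    intro i j hij c hc
    rcases el3 hK c with rfl | rfl | rfl
    · exact absurd rfl hc
    · have : SpecialLinearGroup.diag2n hij (1 : K) hc = 1 := by
        apply Subtype.ext
        rw [SpecialLinearGroup.diag2n_coe]
        simp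
      rw [this]
      exact Hs.one_mem
    · have : SpecialLinearGroup.diag2n hij (-1 : K) hc =
          (SpecialLinearGroup.transvection hij (1 : K) *
            SpecialLinearGroup.transvection hij.symm (-1) *
            SpecialLinearGroup.transvection hij 1) *
          (SpecialLinearGroup.transvection hij (1 : K) *
            SpecialLinearGroup.transvection hij.symm (-1) *
            SpecialLinearGroup.transvection hij 1) := by
        apply Subtype.ext
        rw [SpecialLinearGroup.diag2n_coe]
        exact diag_neg i j hij
      rw [this]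
      have hn : SpecialLinearGroup.transvection hij (1 : K) *
            SpecialLinearGroup.transvection hij.symm (-1) *
            SpecialLinearGroup.transvection hij 1 ∈ Hs :=
        Hs.mul_mem (Hs.mul_mem (hT i j hij 1) (hT j i hij.symm (-1))) (hT i j hij 1)
      exact Hs.mul_mem hn hn
  rw [eq_top_iff]
  intro M _
  exact SpecialLinearGroup.diagonal_transvection_induction' (fun M => M ∈ Hs) M hD hT
    (fun A B hA hB => Hs.mul_mem hA hB)

end Cfsg.Agent.Lib.helper11
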