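import Mathlib
import Cfsg.Agent.Lib.helper11d.SlGen

/-! Generation of `SL_{n+1}(K)` by `diag(k, k⁻¹, 1, …)` and `x * w`, for `|K| > 3`. -/

set_option autoImplicit false

namespace Cfsg.Agent.Lib.helper11

open Matrix

/-- every element of a finite field is a sum of two squares -/
theorem sum_two_sq {K : Type*} [Field K] [Fintype K] (t : K) :
    ∃ u v : K, t = u ^ 2 + v ^ 2 := by
  classical
  by_cases h2 : Fintype.card K % 2 = 1
  · obtain ⟨a, b, hab⟩ := FiniteField.exists_root_sum_quadratic (R := K)
      (f := (Polynomial.X : Polynomial K) ^ 2) (g := Polynomial.X ^ 2 - Polynomial.C t)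
      (Polynomial.degree_X_pow 2) (Polynomial.degree_X_pow_sub_C (by decide) _) h2
    refine ⟨a, b, ?_⟩
    simp only [Polynomial.eval_pow, Polynomial.eval_X, Polynomial.eval_sub,
      Polynomial.eval_C] at hab
    linear_combination -hab
  · have h0 : Fintype.card K % 2 = 0 := by omega
    have hc : ringChar K = 2 := FiniteField.even_card_iff_char_two.mpr h0
    obtain ⟨u, hu⟩ := FiniteField.isSquare_of_char_two hc t
    exact ⟨u, 0, by rw [hu]; ring⟩

theorem dt_comm {ι K : Type*} [DecidableEq ι] [Fintype ι] [Field K] (D : ι → K) (i j : ι)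
    (c : K) (hj : D j ≠ 0) :
    Matrix.diagonal D * Matrix.transvection i j c =
      Matrix.transvection i j (D i * c * (D j)⁻¹) * Matrix.diagonal D := by
  ext a b
  rw [Matrix.diagonal_mul, Matrix.mul_diagonal]
  simp only [Matrix.transvection, Matrix.add_apply, Matrix.one_apply, Matrix.single_apply]
  by_cases ha : i = a
  · subst ha
    by_cases hb : j = b
    · subst hb
      simp only [true_and, if_true]
      field_simp
      split_ifs with h1
      · rw [← h1]; ring
      · ring
    · simp [hb]
      split_ifs with h1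
      · subst h1; ring
      · ring
  · simp [ha]
    split_ifs with h1
    · subst h1; ring
    · ring

theorem nrow' {ι K : Type*} [DecidableEq ι] [Fintype ι] [Field K] (i j : ι) (hij : i ≠ j)
    (t : K) (ht : t ≠ 0) (M : Matrix ι ι K) (a b : ι) :
    ((Matrix.transvection i j t * (Matrix.transvection j i (-t⁻¹) *
      (Matrix.transvection i j t * M)) : Matrix ι ι K)) a b =
      if a = i then t * M j b else if a = j then - t⁻¹ * M i b else M a b := by
  by_cases ha : a = i
  · subst ha
    rw [if_pos rfl]
    simp only [Matrix.transvection_mul_apply_same,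
      Matrix.transvection_mul_apply_of_ne _ _ _ _ hij,
      Matrix.transvection_mul_apply_of_ne _ _ _ _ hij.symm]
    field_simp
    ring
  · rw [if_neg ha, Matrix.transvection_mul_apply_of_ne _ _ _ _ ha]
    by_cases ha' : a = j
    · subst ha'
      rw [if_pos rfl]
      simp only [Matrix.transvection_mul_apply_same,
        Matrix.transvection_mul_apply_of_ne _ _ _ _ hij.symm]
      field_simp
      ring
    · rw [if_neg ha', Matrix.transvection_mul_apply_of_ne _ _ _ _ ha',
        Matrix.transvection_mul_apply_of_ne _ _ _ _ ha]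

theorem diag_gen {ι K : Type*} [DecidableEq ι] [Fintype ι] [Field K] (i j : ι) (hij : i ≠ j)
    (c : K) (hc : c ≠ 0) :
    Matrix.diagonal (fun k => if k = i then c else if k = j then c⁻¹ else 1) =
      (Matrix.transvection i j c * Matrix.transvection j i (-c⁻¹) *
        Matrix.transvection i j c) * (Matrix.transvection i j (-1 : K) *
        Matrix.transvection j i (-(-1 : K)⁻¹) * Matrix.transvection i j (-1)) := by
  have hN : ∀ a b, ((Matrix.transvection i j (-1 : K) * Matrix.transvection j i (-(-1 : K)⁻¹) *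
      Matrix.transvection i j (-1) : Matrix ι ι K)) a b =
      if a = i then (-1 : K) * (1 : Matrix ι ι K) j b else
        if a = j then - (-1 : K)⁻¹ * (1 : Matrix ι ι K) i b
        else (1 : Matrix ι ι K) a b := by
    intro a b
    have := nrow' i j hij (-1 : K) (by simp) (1 : Matrix ι ι K) a b
    rw [Matrix.mul_one, ← Matrix.mul_assoc] at this
    exact this
  ext a b
  have h2 := nrow' i j hij c hc (Matrix.transvection i j (-1 : K) *
      Matrix.transvection j i (-(-1 : K)⁻¹) * Matrix.transvection i j (-1)) a b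
  rw [← Matrix.mul_assoc, ← Matrix.mul_assoc] at h2
  rw [h2, hN, hN, if_pos rfl, if_neg hij.symm, if_pos rfl, Matrix.diagonal_apply]
  by_cases ha : a = i
  · subst ha
    simp only [if_true, Matrix.one_apply]
    split_ifs <;> simp
  · by_cases ha' : a = j
    · subst ha'
      simp only [if_neg ha, if_true, Matrix.one_apply]
      split_ifs <;> simp
    · simp only [if_neg ha, if_neg ha']
      rw [hN, if_neg ha, if_neg ha', Matrix.one_apply]

/-- a subgroup of `SL_{n+1}(K)` containing the cyclic monomial matrix and the root subgroup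
`1 + t E₁₂` is everything -/
theorem sl_gen' {K : Type*} [Field K] (n : ℕ) (hn : 1 ≤ n)
    (Hs : Subgroup (Matrix.SpecialLinearGroup (Fin (n + 1)) K))
    (w : Matrix.SpecialLinearGroup (Fin (n + 1)) K)
    (hw : (w : Matrix (Fin (n + 1)) (Fin (n + 1)) K) = cycW K n) (hwH : w ∈ Hs)
    (hxH : ∀ (i j : Fin (n + 1)) (hij : i ≠ j), i.val = 0 → j.val = 1 → ∀ t : K,
      SpecialLinearGroup.transvection hij t ∈ Hs) : Hs = ⊤ := by
  obtain ⟨m, rfl⟩ : ∃ m, n = m + 1 := ⟨n - 1, by omega⟩
  have hc1 : ∀ (a b c : Fin (m + 1 + 1)) (hab : a ≠ b) (hbc : b ≠ c), a.val + 1 = b.val →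
      b.val + 1 = c.val → ∀ t : K,
      w * SpecialLinearGroup.transvection hbc t = SpecialLinearGroup.transvection hab t * w := by
    intro a b c hab hbc h1 h2 t
    apply Subtype.ext
    show w.1 * Matrix.transvection b c t = Matrix.transvection a b t * w.1
    rw [hw]
    exact cycW_conj1 (m + 1) a b c h1 h2 t
  have hc2 : ∀ (a z o : Fin (m + 1 + 1)) (haz : a ≠ z) (hzo : z ≠ o), a.val = m + 1 →
      z.val = 0 → o.val = 1 → ∀ t : K,
      w * SpecialLinearGroup.transvection hzo t =
        SpecialLinearGroup.transvection haz ((-1) ^ (m + 1) * t) * w := by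
    intro a z o haz hzo h1 h2 h3 t
    apply Subtype.ext
    show w.1 * Matrix.transvection z o t = Matrix.transvection a z ((-1) ^ (m + 1) * t) * w.1
    rw [hw]
    exact cycW_conj2 (m + 1) (by omega) a z o h1 h2 h3 t
  have hE : ∀ k, ∀ (i j : Fin (m + 1 + 1)) (hij : i ≠ j), i.val = k → j.val = k + 1 →
      ∀ t : K, SpecialLinearGroup.transvection hij t ∈ Hs := by
    intro k
    induction k with
    | zero =>
      intro i j hij hi hj t
      exact hxH i j hij hi hj t
    | succ k ih =>
      intro i j hij hi hj t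
      have hk : k < m + 1 + 1 := by omega
      have hne : (⟨k, hk⟩ : Fin (m + 1 + 1)) ≠ i := by
        intro h
        have := congrArg Fin.val h
        simp at this
        omega
      have h1 := ih ⟨k, hk⟩ i hne rfl hi t
      have h2 := hc1 ⟨k, hk⟩ i j hne hij (by simp [hi]) (by omega) t
      have e : SpecialLinearGroup.transvection hij t =
          w⁻¹ * (SpecialLinearGroup.transvection hne t * w) := by
        rw [← h2, inv_mul_cancel_left]
      rw [e]
      exact Hs.mul_mem (Hs.inv_mem hwH) (Hs.mul_mem h1 hwH)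
  have hL : ∀ (a z : Fin (m + 1 + 1)) (haz : a ≠ z), a.val = m + 1 → z.val = 0 →
      ∀ t : K, SpecialLinearGroup.transvection haz t ∈ Hs := by
    intro a z haz ha hz t
    have ho : ((1 : Fin (m + 1 + 1)) : ℕ) = 1 := by simp
    have hzo : z ≠ (1 : Fin (m + 1 + 1)) := by
      intro h
      have := congrArg Fin.val h
      rw [ho, hz] at this
      omega
    have h2 := hc2 a z 1 haz hzo ha hz ho ((-1) ^ (m + 1) * t)
    have hx' : SpecialLinearGroup.transvection hzo ((-1) ^ (m + 1) * t) ∈ Hs :=
      hE 0 z 1 hzo hz ho _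
    have hs : (-1 : K) ^ (m + 1) * ((-1) ^ (m + 1) * t) = t := by
      rw [← mul_assoc, ← pow_add, ← two_mul, pow_mul]
      simp
    rw [hs] at h2
    have e : SpecialLinearGroup.transvection haz t =
        w * SpecialLinearGroup.transvection hzo ((-1) ^ (m + 1) * t) * w⁻¹ := by
      rw [h2, mul_inv_cancel_right]
    rw [e]
    exact Hs.mul_mem (Hs.mul_mem hwH hx') (Hs.inv_mem hwH)
  have hcomm : ∀ (i j k : Fin (m + 1 + 1)) (hij : i ≠ j) (hjk : j ≠ k) (hik : i ≠ k),
      (∀ t : K, SpecialLinearGroup.transvection hij t ∈ Hs) →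
      (∀ t : K, SpecialLinearGroup.transvection hjk t ∈ Hs) →
      ∀ t : K, SpecialLinearGroup.transvection hik t ∈ Hs := by
    intro i j k hij hjk hik h1 h2 t
    have e : SpecialLinearGroup.transvection hij t * SpecialLinearGroup.transvection hjk 1 =
        SpecialLinearGroup.transvection hik t * SpecialLinearGroup.transvection hjk 1 *
          SpecialLinearGroup.transvection hij t := by
      apply Subtype.ext
      show Matrix.transvection i j t * Matrix.transvection j k 1 =
        Matrix.transvection i k t * Matrix.transvection j k 1 * Matrix.transvection i j t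
      have := tv_comm i j k hjk hik t 1
      rwa [mul_one] at this
    have e2 : SpecialLinearGroup.transvection hik t =
        SpecialLinearGroup.transvection hij t * SpecialLinearGroup.transvection hjk 1 *
          (SpecialLinearGroup.transvection hij t)⁻¹ *
          (SpecialLinearGroup.transvection hjk 1)⁻¹ := by
      rw [e]
      group
    rw [e2]
    exact Hs.mul_mem (Hs.mul_mem (Hs.mul_mem (h1 t) (h2 1)) (Hs.inv_mem (h1 t)))
      (Hs.inv_mem (h2 1))
  have hU : ∀ d, ∀ (i j : Fin (m + 1 + 1)) (hij : i ≠ j), i.val + (d + 1) = j.val →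
      ∀ t : K, SpecialLinearGroup.transvection hij t ∈ Hs := by
    intro d
    induction d with
    | zero =>
      intro i j hij h
      exact hE i.val i j hij rfl (by omega)
    | succ d ih =>
      intro i j hij h
      have hk : j.val - 1 < m + 1 + 1 := by omega
      have h1 : i ≠ (⟨j.val - 1, hk⟩ : Fin (m + 1 + 1)) := by
        intro h'
        have := congrArg Fin.val h'
        simp at this
        omega
      have h2 : (⟨j.val - 1, hk⟩ : Fin (m + 1 + 1)) ≠ j := by
        intro h'
        have := congrArg Fin.val h'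
        simp at this
        omega
      exact hcomm i ⟨j.val - 1, hk⟩ j h1 h2 hij (ih i _ h1 (by simp; omega))
        (hE (j.val - 1) _ j h2 rfl (by omega))
  have hU' : ∀ (i j : Fin (m + 1 + 1)) (hij : i ≠ j), i.val < j.val →
      ∀ t : K, SpecialLinearGroup.transvection hij t ∈ Hs := by
    intro i j hij h
    exact hU (j.val - i.val - 1) i j hij (by omega)
  have hlastv : ((Fin.last (m + 1) : Fin (m + 1 + 1)) : ℕ) = m + 1 := rfl
  have hzerov : ((0 : Fin (m + 1 + 1)) : ℕ) = 0 := rfl
  have key : ∀ (j : Fin (m + 1 + 1)) (hlj : Fin.last (m + 1) ≠ j),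
      ∀ t : K, SpecialLinearGroup.transvection hlj t ∈ Hs := by
    intro j hlj
    by_cases hj0 : j.val = 0
    · exact hL _ j hlj hlastv hj0
    · have h0j : (0 : Fin (m + 1 + 1)) ≠ j := by
        intro h'
        exact hj0 (by rw [← h']; rfl)
      have hl0 : Fin.last (m + 1) ≠ (0 : Fin (m + 1 + 1)) := by
        intro h'
        have := congrArg Fin.val h'
        rw [hlastv, hzerov] at this
        omega
      exact hcomm _ 0 j hl0 h0j hlj (hL _ 0 hl0 hlastv hzerov) (hU' 0 j h0j (by
        rw [hzerov]; omega))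
  have hT : ∀ (i j : Fin (m + 1 + 1)) (hij : i ≠ j) (t : K),
      SpecialLinearGroup.transvection hij t ∈ Hs := by
    intro i j hij
    rcases Nat.lt_or_gt_of_ne (fun h => hij (Fin.ext h)) with h | h
    · exact hU' i j hij h
    · by_cases hi : i.val = m + 1
      · have : i = Fin.last (m + 1) := Fin.ext hi
        subst this
        exact key j hij
      · have hil : i ≠ Fin.last (m + 1) := fun h' => hi (by rw [h']; rfl)
        have hlj : Fin.last (m + 1) ≠ j := by
          intro h'
          have := congrArg Fin.val h'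
          rw [hlastv] at this
          have := i.2
          omega
        exact hcomm i (Fin.last (m + 1)) j hil hlj hij (hU' i _ hil (by
          rw [hlastv]; have := i.2; omega)) (key j hlj)
  have hD : ∀ (i j : Fin (m + 1 + 1)) (hij : i ≠ j) {c : K} (hc : c ≠ 0),
      SpecialLinearGroup.diag2n hij c hc ∈ Hs := by
    intro i j hij c hc
    have : SpecialLinearGroup.diag2n hij c hc =
        (SpecialLinearGroup.transvection hij c *
          SpecialLinearGroup.transvection hij.symm (-c⁻¹) *
          SpecialLinearGroup.transvection hij c) *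
        (SpecialLinearGroup.transvection hij (-1 : K) *
          SpecialLinearGroup.transvection hij.symm (-(-1 : K)⁻¹) *
          SpecialLinearGroup.transvection hij (-1)) := by
      apply Subtype.ext
      rw [SpecialLinearGroup.diag2n_coe]
      exact diag_gen i j hij c hc
    rw [this]
    exact Hs.mul_mem (Hs.mul_mem (Hs.mul_mem (hT i j hij _) (hT j i hij.symm _)) (hT i j hij _))
      (Hs.mul_mem (Hs.mul_mem (hT i j hij _) (hT j i hij.symm _)) (hT i j hij _))
  rw [eq_top_iff]
  intro M _
  exact SpecialLinearGroup.diagonal_transvection_induction' (fun M => M ∈ Hs) M hD hT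
    (fun A B hA hB => Hs.mul_mem hA hB)

theorem cycW_diag {K : Type*} [Field K] (n : ℕ) (k kinv : K) :
    cycW K n * Matrix.diagonal (fun i : Fin (n + 1) =>
        if i.val = 0 then k else if i.val = 1 then kinv else 1) =
      Matrix.diagonal (fun i : Fin (n + 1) =>
        if i.val = n then k else if i.val = 0 then kinv else 1) * cycW K n := by
  ext a b
  rw [Matrix.mul_diagonal, Matrix.diagonal_mul, cycW_apply]
  have hb := b.2
  have ha := a.2
  by_cases h1 : b.val = a.val + 1
  · have e1 : (if b.val = 0 then k else if b.val = 1 then kinv else 1) =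
        (if a.val = n then k else if a.val = 0 then kinv else 1) := by
      by_cases h2 : a.val = 0
      · rw [if_neg (show ¬ b.val = 0 by omega), if_pos (show b.val = 1 by omega),
          if_neg (show ¬ a.val = n by omega), if_pos h2]
      · rw [if_neg (show ¬ b.val = 0 by omega), if_neg (show ¬ b.val = 1 by omega),
          if_neg (show ¬ a.val = n by omega), if_neg h2]
    rw [if_pos h1, one_mul, mul_one]
    exact e1
  · rw [if_neg h1]
    by_cases h2 : a.val = n ∧ b.val = 0
    · rw [if_pos h2, if_pos h2.2, if_pos h2.1]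
      ring
    · rw [if_neg h2, zero_mul, mul_zero]

/-- `SL_{n+1}(K)`, `|K| > 3`, is generated by `diag(k, k⁻¹, 1, …)` and `x * w` -/
theorem sl_gen2 {K : Type*} [Field K] [Fintype K] (hK : 3 < Fintype.card K) (n : ℕ)
    (hn : 1 ≤ n) (k : Kˣ) (hk : ∀ u : Kˣ, u ∈ Subgroup.zpowers k)
    (h x w : Matrix.SpecialLinearGroup (Fin (n + 1)) K)
    (hh : (h : Matrix (Fin (n + 1)) (Fin (n + 1)) K) =
      Matrix.diagonal (fun i => if i.val = 0 then (k : K) else
        if i.val = 1 then ((k⁻¹ : Kˣ) : K) else 1))
    (hx : (x : Matrix (Fin (n + 1)) (Fin (n + 1)) K) =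
      Matrix.transvection (0 : Fin (n + 1)) (1 : Fin (n + 1)) 1)
    (hw : (w : Matrix (Fin (n + 1)) (Fin (n + 1)) K) = cycW K n) :
    Subgroup.closure ({h, x * w} : Set (Matrix.SpecialLinearGroup (Fin (n + 1)) K)) = ⊤ := by
  classical
  set G₁ := Subgroup.closure ({h, x * w} : Set (Matrix.SpecialLinearGroup (Fin (n + 1)) K))
    with hG₁
  have hhG : h ∈ G₁ := Subgroup.subset_closure (by simp)
  have hyG : x * w ∈ G₁ := Subgroup.subset_closure (by simp)
  have v0 : ((0 : Fin (n + 1)) : ℕ) = 0 := rfl
  have v1 : ((1 : Fin (n + 1)) : ℕ) = 1 := by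
    rw [Fin.val_one']
    exact Nat.mod_eq_of_lt (by omega)
  have h01 : (0 : Fin (n + 1)) ≠ 1 := by
    intro h'
    have := congrArg Fin.val h'
    rw [v0, v1] at this
    omega
  have hord : orderOf k = Fintype.card K - 1 := by
    rw [orderOf_eq_card_of_forall_mem_zpowers hk, Nat.card_eq_fintype_card, Fintype.card_units]
  have hk1 : (k : K) ≠ 1 := by
    intro h'
    have : k = 1 := Units.ext h'
    rw [this, orderOf_one] at hord
    omega
  have hk2 : (k : K) ^ 2 ≠ 1 := by
    intro h'
    have h2 : k ^ 2 = 1 := Units.ext (by simpa using h')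
    have h3 := orderOf_dvd_of_pow_eq_one h2
    have h4 := Nat.le_of_dvd (by norm_num) h3
    omega
  have hk0 : (k : K) ≠ 0 := k.ne_zero
  set Dh : Fin (n + 1) → K := fun i => if i.val = 0 then (k : K) else
        if i.val = 1 then ((k⁻¹ : Kˣ) : K) else 1 with hDh
  set D' : Fin (n + 1) → K := fun i => if i.val = n then (k : K) else
        if i.val = 0 then ((k⁻¹ : Kˣ) : K) else 1 with hD'
  have hDh0 : Dh 0 = k := by
    simp only [hDh]
    rw [if_pos v0]
  have hDh1 : Dh 1 = (k : K)⁻¹ := by
    simp only [hDh]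
    rw [if_neg (by rw [v1]; omega), if_pos v1, Units.val_inv_eq_inv_val]
  have hD'0 : D' 0 = (k : K)⁻¹ := by
    simp only [hD']
    rw [if_neg (by rw [v0]; omega), if_pos v0, Units.val_inv_eq_inv_val]
  have hd1 : D' 1 ≠ 0 ∧ (k : K) * D' 1 ≠ 1 := by
    simp only [hD']
    by_cases h1n : n = 1
    · rw [if_pos (by rw [v1]; omega)]
      refine ⟨hk0, ?_⟩
      rw [← pow_two]
      exact hk2
    · rw [if_neg (by rw [v1]; omega), if_neg (by rw [v1]; omega)]
      refine ⟨one_ne_zero, ?_⟩
      rw [mul_one]
      exact hk1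
  obtain ⟨hd1z, hd1e⟩ := hd1
  have hDh1z : Dh 1 ≠ 0 := by rw [hDh1]; exact inv_ne_zero hk0
  set e : K := k * D' 1 with he
  have hwh : cycW K n * Matrix.diagonal Dh = Matrix.diagonal D' * cycW K n :=
    cycW_diag n _ _
  set Z : Matrix (Fin (n + 1)) (Fin (n + 1)) K :=
    Matrix.diagonal D' * Matrix.transvection 0 1 (e - 1) with hZ
  have hZy : Z * (x.1 * w.1) = (x.1 * w.1) * h.1 := by
    have hs : D' 0 * e * (D' 1)⁻¹ = 1 := by
      rw [hD'0, he]
      field_simp
    have c0 : Matrix.diagonal D' * Matrix.transvection 0 1 e =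
        Matrix.transvection 0 1 1 * Matrix.diagonal D' := by
      rw [dt_comm D' 0 1 e hd1z, hs]
    calc Z * (x.1 * w.1)
        = Matrix.diagonal D' * (Matrix.transvection 0 1 (e - 1) * Matrix.transvection 0 1 1) *
            cycW K n := by
          rw [hx, hw, hZ, Matrix.mul_assoc, Matrix.mul_assoc, Matrix.mul_assoc]
      _ = Matrix.diagonal D' * Matrix.transvection 0 1 e * cycW K n := by
          rw [Matrix.transvection_mul_transvection_same _ _ h01, sub_add_cancel]
      _ = Matrix.transvection 0 1 1 * (Matrix.diagonal D' * cycW K n) := by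
          rw [c0, Matrix.mul_assoc]
      _ = (x.1 * w.1) * h.1 := by
          rw [hx, hw, hh, Matrix.mul_assoc, hwh]
  set z := (x * w) * h * (x * w)⁻¹ with hz
  have hzG : z ∈ G₁ := G₁.mul_mem (G₁.mul_mem hyG hhG) (G₁.inv_mem hyG)
  have hzZ : z.1 = Z := by
    have h3 : (x.1 * w.1) * ((x * w)⁻¹).1 = 1 := by
      have := congrArg Subtype.val (mul_inv_cancel (x * w))
      exact this
    have h2 : z.1 = (x.1 * w.1) * h.1 * ((x * w)⁻¹).1 := rfl
    rw [h2, ← hZy, Matrix.mul_assoc, h3, Matrix.mul_one]
  set a : K := D' 0 * (D' 1)⁻¹ * ((k : K) ^ 2 - 1) * (e - 1) with ha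
  have ha0 : a ≠ 0 := by
    rw [ha, hD'0]
    have h1 : (k : K) ^ 2 - 1 ≠ 0 := sub_ne_zero.mpr hk2
    have h2 : e - 1 ≠ 0 := sub_ne_zero.mpr hd1e
    exact mul_ne_zero (mul_ne_zero (mul_ne_zero (inv_ne_zero hk0) (inv_ne_zero hd1z)) h1) h2
  have hTa : SpecialLinearGroup.transvection h01 a ∈ G₁ := by
    have e1 : SpecialLinearGroup.transvection h01 a * z * h = h * z := by
      apply Subtype.ext
      show Matrix.transvection 0 1 a * z.1 * h.1 = h.1 * z.1
      rw [hzZ, hh, hZ]
      have s1 : D' 0 * ((D' 0)⁻¹ * a * D' 1) * (D' 1)⁻¹ = a := by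
        have : D' 0 ≠ 0 := by rw [hD'0]; exact inv_ne_zero hk0
        field_simp
      have c1 : Matrix.transvection 0 1 a * Matrix.diagonal D' =
          Matrix.diagonal D' * Matrix.transvection 0 1 ((D' 0)⁻¹ * a * D' 1) := by
        rw [dt_comm D' 0 1 _ hd1z, s1]
      have c2 : Matrix.diagonal Dh * Matrix.diagonal D' =
          Matrix.diagonal D' * Matrix.diagonal Dh := by
        rw [Matrix.diagonal_mul_diagonal, Matrix.diagonal_mul_diagonal]
        congr 1
        funext i
        exact mul_comm _ _
      have s2 : (D' 0)⁻¹ * a * D' 1 + (e - 1) = Dh 0 * (e - 1) * (Dh 1)⁻¹ := by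
        rw [hDh0, hDh1, ha, hD'0]
        field_simp
        ring
      calc Matrix.transvection 0 1 a * (Matrix.diagonal D' * Matrix.transvection 0 1 (e - 1)) *
            Matrix.diagonal Dh
          = Matrix.diagonal D' * (Matrix.transvection 0 1 ((D' 0)⁻¹ * a * D' 1) *
              Matrix.transvection 0 1 (e - 1)) * Matrix.diagonal Dh := by
            rw [← Matrix.mul_assoc, c1, Matrix.mul_assoc (Matrix.diagonal D')]
        _ = Matrix.diagonal D' * (Matrix.transvection 0 1 (Dh 0 * (e - 1) * (Dh 1)⁻¹) *
              Matrix.diagonal Dh) := by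
            rw [Matrix.transvection_mul_transvection_same _ _ h01, s2, Matrix.mul_assoc]
        _ = Matrix.diagonal Dh * (Matrix.diagonal D' * Matrix.transvection 0 1 (e - 1)) := by
            rw [← dt_comm Dh 0 1 _ hDh1z, ← Matrix.mul_assoc, ← c2, Matrix.mul_assoc]
    have e2 : SpecialLinearGroup.transvection h01 a = h * z * h⁻¹ * z⁻¹ := by
      rw [eq_mul_inv_iff_mul_eq, eq_mul_inv_iff_mul_eq]
      exact e1
    rw [e2]
    exact G₁.mul_mem (G₁.mul_mem (G₁.mul_mem hhG hzG) (G₁.inv_mem hhG)) (G₁.inv_mem hzG)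
  have hconj : ∀ t : K, SpecialLinearGroup.transvection h01 t ∈ G₁ →
      SpecialLinearGroup.transvection h01 ((k : K) ^ 2 * t) ∈ G₁ := by
    intro t ht
    have e1 : h * SpecialLinearGroup.transvection h01 t =
        SpecialLinearGroup.transvection h01 ((k : K) ^ 2 * t) * h := by
      apply Subtype.ext
      show h.1 * Matrix.transvection 0 1 t = Matrix.transvection 0 1 ((k : K) ^ 2 * t) * h.1
      have s3 : Dh 0 * t * (Dh 1)⁻¹ = (k : K) ^ 2 * t := by
        rw [hDh0, hDh1]
        field_simp
      rw [hh, dt_comm Dh 0 1 _ hDh1z, s3]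
    have e2 : SpecialLinearGroup.transvection h01 ((k : K) ^ 2 * t) =
        h * SpecialLinearGroup.transvection h01 t * h⁻¹ := by
      rw [e1, mul_inv_cancel_right]
    rw [e2]
    exact G₁.mul_mem (G₁.mul_mem hhG ht) (G₁.inv_mem hhG)
  have hpow : ∀ (j : ℕ) (t : K), SpecialLinearGroup.transvection h01 t ∈ G₁ →
      SpecialLinearGroup.transvection h01 (((k : K) ^ 2) ^ j * t) ∈ G₁ := by
    intro j
    induction j with
    | zero =>
      intro t ht
      rw [pow_zero, one_mul]
      exact ht
    | succ j ih =>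
      intro t ht
      rw [pow_succ', mul_assoc]
      exact hconj _ (ih t ht)
  have hsq : ∀ u : K, SpecialLinearGroup.transvection h01 (a * u ^ 2) ∈ G₁ := by
    intro u
    by_cases hu : u = 0
    · rw [hu]
      have : a * (0 : K) ^ 2 = 0 := by ring
      rw [this, SpecialLinearGroup.transvection_coeff_zero]
      exact G₁.one_mem
    · have h1 := hk (Units.mk0 u hu)
      rw [← mem_powers_iff_mem_zpowers] at h1
      obtain ⟨j, hj⟩ := h1
      have h2 : (k : K) ^ j = u := by
        have := congrArg Units.val hj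
        simpa using this
      have h3 : a * u ^ 2 = ((k : K) ^ 2) ^ j * a := by
        rw [← h2]
        ring
      rw [h3]
      exact hpow j a hTa
  have hT : ∀ t : K, SpecialLinearGroup.transvection h01 t ∈ G₁ := by
    intro t
    obtain ⟨u, v, huv⟩ := sum_two_sq (t / a)
    have h1 : t = a * u ^ 2 + a * v ^ 2 := by
      rw [← mul_add, ← huv]
      field_simp
    rw [h1, SpecialLinearGroup.transvection_add]
    exact G₁.mul_mem (hsq u) (hsq v)
  have hxG : x ∈ G₁ := by
    have : x = SpecialLinearGroup.transvection h01 1 := Subtype.ext hx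
    rw [this]
    exact hT 1
  have hwG : w ∈ G₁ := by
    have : w = x⁻¹ * (x * w) := by rw [inv_mul_cancel_left]
    rw [this]
    exact G₁.mul_mem (G₁.inv_mem hxG) hyG
  apply sl_gen' n hn G₁ w hw hwG
  intro i j hij hi hj t
  obtain rfl : i = 0 := Fin.ext (by rw [hi, v0])
  obtain rfl : j = 1 := Fin.ext (by rw [hj, v1])
  exact hT t

end Cfsg.Agent.Lib.helper11
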