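import Cfsg.Agent.Lib.helper2.BN

/-! Minimal coset representatives in the Weyl group of a (B,N)-pair, and the `B`-orbits on `G/P_J`. -/

set_option autoImplicit false

namespace Cfsg.Agent.Lib.helper11

open Cfsg
open Cfsg.Agent.Lib.helper2

section

variable {G : Type*} [Group G] (P : Cfsg.BNPair G)

theorem stb_wp_reverse (l : List P.S) : BN.wp P l.reverse = (BN.wp P l)⁻¹ := by
  induction l with
  | nil => simp
  | cons x l ih =>
    rw [List.reverse_cons, BN.wp_append, ih, BN.wp_cons, BN.wp_cons, BN.wp_nil, mul_one,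
      mul_inv_rev, BN.σ_inv]

theorem stb_len_inv (w : BN.W P) : BN.len P w⁻¹ = BN.len P w := by
  have key : ∀ w : BN.W P, BN.len P w⁻¹ ≤ BN.len P w := by
    intro w
    obtain ⟨l, hl, hlen⟩ := BN.exists_reduced P w
    have h := BN.len_le_of_eq P (l := l.reverse) (w := w⁻¹) (by rw [stb_wp_reverse, hl])
    rw [List.length_reverse] at h
    omega
  have h1 := key w
  have h2 := key w⁻¹
  rw [inv_inv] at h2
  omega

theorem stb_len_wp_mul_le (l : List P.S) (w : BN.W P) :
    BN.len P (BN.wp P l * w) ≤ l.length + BN.len P w := by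
  induction l with
  | nil => simp
  | cons x l ih =>
    rw [BN.wp_cons, mul_assoc]
    have := BN.len_mul_le P x (BN.wp P l * w)
    simp only [List.length_cons]
    omega

/-- `d` has minimal length in `W_J d` -/
def StbMin (J : Set G) (d : BN.W P) : Prop :=
  ∀ l : List P.S, (∀ x ∈ l, (x : G) ∈ J) → BN.len P d ≤ BN.len P (BN.wp P l * d)

/-- lengths add on a minimal coset representative -/
theorem stb_len_add (J : Set G) (d : BN.W P) (hd : StbMin P J d) :
    ∀ l : List P.S, (∀ x ∈ l, (x : G) ∈ J) → BN.Red P l →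
      BN.len P (BN.wp P l * d) = l.length + BN.len P d := by
  intro l
  induction l with
  | nil => intro _ _; simp
  | cons s l ih =>
    intro hl hred
    have hl' : ∀ x ∈ l, (x : G) ∈ J := fun x hx => hl x (List.mem_cons_of_mem _ hx)
    have hs : (s : G) ∈ J := hl s List.mem_cons_self
    have hred' := hred.tail
    have ih' := ih hl' hred'
    rw [BN.wp_cons, mul_assoc]
    by_cases hq : BN.Q P s (BN.wp P l * d)
    · exfalso
      obtain ⟨a, ha, halen⟩ := BN.exists_reduced P d
      have caseA : ∀ (a' : List P.S) (x : P.S) (l2 : List P.S), a = a' ++ x :: l2 →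
          BN.σ P s * BN.wp P (l ++ a) = BN.wp P (l ++ a' ++ l2) → False := by
        intro a' x l2 e he
        have he' : BN.σ P s * (BN.wp P l * d) = BN.wp P l * BN.wp P (a' ++ l2) := by
          rw [← ha, ← BN.wp_append, he, List.append_assoc, BN.wp_append]
        have h1 : BN.wp P (a' ++ l2) = BN.wp P (l.reverse ++ s :: l) * d := by
          calc BN.wp P (a' ++ l2) = (BN.wp P l)⁻¹ * (BN.wp P l * BN.wp P (a' ++ l2)) := by
                rw [inv_mul_cancel_left]
            _ = (BN.wp P l)⁻¹ * (BN.σ P s * (BN.wp P l * d)) := by rw [he']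
            _ = BN.wp P (l.reverse ++ s :: l) * d := by
                rw [BN.wp_append, BN.wp_cons, stb_wp_reverse]
                simp only [mul_assoc]
        have h2 := hd (l.reverse ++ s :: l) (by
          intro y hy
          rcases List.mem_append.mp hy with hy | hy
          · exact hl' y (List.mem_reverse.mp hy)
          · rcases List.mem_cons.mp hy with rfl | hy
            · exact hs
            · exact hl' y hy)
        rw [← h1] at h2
        have h3 := BN.len_le P (a' ++ l2)
        have h4 : a.length = (a' ++ l2).length + 1 := by rw [e]; simp; omega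
        omega
      have e1 : BN.wp P (l ++ a) = BN.wp P l * d := by rw [BN.wp_append, ha]
      rw [← e1] at hq
      obtain ⟨l1, x, l2, e, he⟩ := BN.exchange' P s (l ++ a) hq
      rw [List.append_eq_append_iff] at e
      rcases e with ⟨a', rfl, e2⟩ | ⟨c', e2, e3⟩
      · exact caseA a' x l2 e2 he
      · cases c' with
        | nil =>
          rw [List.append_nil] at e2
          rw [List.nil_append] at e3
          subst e2
          exact caseA [] x l2 e3.symm (by simpa using he)
        | cons y c'' =>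
          rw [List.cons_append, List.cons.injEq] at e3
          obtain ⟨rfl, rfl⟩ := e3
          have h1 : BN.wp P (s :: l) = BN.wp P (l1 ++ c'') := by
            rw [BN.wp_cons]
            rw [← List.append_assoc, BN.wp_append, BN.wp_append, ha, ← mul_assoc] at he
            exact mul_right_cancel he
          have h2 : BN.len P (BN.wp P (s :: l)) = (s :: l).length := hred
          rw [h1] at h2
          have h3 := BN.len_le P (l1 ++ c'')
          have h4 : (s :: l).length = (l1 ++ c'').length + 2 := by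
            rw [e2]; simp; omega
          omega
    · have := BN.len_lt_of_not_Q P hq
      have h2 := BN.len_mul_le P s (BN.wp P l * d)
      simp only [List.length_cons]
      omega

/-- the product lemma -/
theorem stb_C_mul (l : List P.S) : ∀ (d : BN.W P) (g : G), g ∈ BN.C P d →
    BN.len P (BN.wp P l * d) = l.length + BN.len P d →
    BN.gp P l * g ∈ BN.C P (BN.wp P l * d) := by
  induction l with
  | nil => intro d g hg _; simpa using hg
  | cons s l ih =>
    intro d g hg hlen
    rw [BN.wp_cons, mul_assoc] at hlen ⊢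
    have h1 := BN.len_mul_le P s (BN.wp P l * d)
    have h2 := stb_len_wp_mul_le P l d
    simp only [List.length_cons] at hlen
    have h3 : BN.len P (BN.wp P l * d) = l.length + BN.len P d := by omega
    have h4 := ih d g hg h3
    rw [BN.gp_cons, mul_assoc]
    apply BN.of_not_Q P _ h4
    intro hq
    have := BN.len_lt_of_Q P hq
    omega

/-- every coset `x P_J` contains an element whose inverse lies in a minimal cell -/
theorem stb_exists_min (J : Set G) (x : G) :
    ∃ p ∈ P.B ⊔ Subgroup.closure J, ∃ d, StbMin P J d ∧ (x * p)⁻¹ ∈ BN.C P d := by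
  let A : Set ℕ := {k | ∃ p ∈ P.B ⊔ Subgroup.closure J, ∃ d, (x * p)⁻¹ ∈ BN.C P d ∧
    BN.len P d = k}
  have hne : A.Nonempty := by
    obtain ⟨d, hd⟩ := BN.exists_mem_C P (x * 1)⁻¹
    exact ⟨BN.len P d, 1, Subgroup.one_mem _, d, hd, rfl⟩
  obtain ⟨p, hp, d, hd, hk⟩ := Nat.sInf_mem hne
  refine ⟨p, hp, d, ?_, hd⟩
  intro l hl
  rw [hk]
  apply Nat.sInf_le
  obtain ⟨n, hn, b, hb, b', hb', e⟩ := hd
  have hm : BN.gp P l ∈ Subgroup.closure J := BN.gp_mem_closure P l hl
  have h1 : ((⟨BN.gp P l, BN.gp_mem_N P l⟩ * n : P.N) : G) ∈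
      BN.C P (BN.π P (⟨BN.gp P l, BN.gp_mem_N P l⟩ * n)) := BN.coe_mem_C P _
  rw [map_mul, BN.π_gp, hn] at h1
  refine ⟨p * b * (BN.gp P l)⁻¹, ?_, BN.wp P l * d, ?_, rfl⟩
  · exact Subgroup.mul_mem _ (Subgroup.mul_mem _ hp (le_sup_left (a := P.B) hb))
      (Subgroup.inv_mem _ (le_sup_right (a := P.B) hm))
  · have e2 : (x * (p * b * (BN.gp P l)⁻¹))⁻¹ = BN.gp P l * (n : G) * b' := by
      have : (x * (p * b * (BN.gp P l)⁻¹))⁻¹ = BN.gp P l * b⁻¹ * (x * p)⁻¹ := by group
      rw [this, e]; group
    rw [e2]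
    exact BN.C_mul_right P hb' h1

/-- two elements of the same coset `x P_J` whose inverses lie in minimal cells differ by `B` -/
theorem stb_unique (J : Set G) (hJ : J ⊆ P.S) (x p : G) (hp : p ∈ P.B ⊔ Subgroup.closure J)
    (d d' : BN.W P) (hd : StbMin P J d) (hd' : StbMin P J d')
    (hx : x⁻¹ ∈ BN.C P d) (hy : (x * p)⁻¹ ∈ BN.C P d') : p ∈ P.B := by
  obtain ⟨l, hl, hred, hg⟩ := BN.exists_word_of_mem_parabolic P hJ (Subgroup.inv_mem _ hp)
  obtain ⟨b, hb, b', hb', e⟩ := BN.dc_of_mem_C P hg (BN.gp_mem_C P l)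
  have hlen := stb_len_add P J d hd l hl hred
  have h1 := stb_C_mul P l d (b' * x⁻¹) (BN.C_mul_left P hb' hx) hlen
  have h2 : (x * p)⁻¹ ∈ BN.C P (BN.wp P l * d) := by
    have : (x * p)⁻¹ = b * (BN.gp P l * (b' * x⁻¹)) := by
      rw [mul_inv_rev, e]; group
    rw [this]
    exact BN.C_mul_left P hb h1
  have h3 := BN.C_unique P hy h2
  have h4 := hd' l.reverse (fun y hy => hl y (List.mem_reverse.mp hy))
  rw [h3, stb_wp_reverse, inv_mul_cancel_left, hlen] at h4
  have h5 : l = [] := List.length_eq_zero_iff.mp (by omega)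
  rw [h5, BN.wp_nil, BN.mem_C_one] at hg
  have := P.B.inv_mem hg
  rwa [inv_inv] at this

/-- minimality in the coset is the absence of descents in `J` -/
theorem stb_min_iff (J : Set G) (d : BN.W P) :
    StbMin P J d ↔ ∀ s : P.S, (s : G) ∈ J → ¬ BN.Q P s d := by
  constructor
  · intro hd s hs hq
    have h1 := hd [s] (by simpa using hs)
    have h2 := BN.len_lt_of_Q P hq
    rw [BN.wp_cons, BN.wp_nil, mul_one] at h1
    omega
  · intro h
    let A : Set ℕ := {k | ∃ l : List P.S, (∀ x ∈ l, (x : G) ∈ J) ∧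
      BN.len P (BN.wp P l * d) = k}
    have hne : A.Nonempty := ⟨_, [], by simp, rfl⟩
    obtain ⟨l₁, hl₁, hk⟩ := Nat.sInf_mem hne
    have hu : StbMin P J (BN.wp P l₁ * d) := by
      intro l hl
      rw [hk]
      apply Nat.sInf_le
      refine ⟨l ++ l₁, ?_, by rw [BN.wp_append, mul_assoc]⟩
      intro y hy
      rcases List.mem_append.mp hy with hy | hy
      · exact hl y hy
      · exact hl₁ y hy
    obtain ⟨l₂, hsub, hw, hred⟩ := BN.exists_reduced_sublist P l₁.reverse
    have hl₂ : ∀ x ∈ l₂, (x : G) ∈ J := fun x hx =>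
      hl₁ x (List.mem_reverse.mp (hsub.subset hx))
    have hlen := stb_len_add P J _ hu l₂ hl₂ hred
    have hd : BN.wp P l₂ * (BN.wp P l₁ * d) = d := by
      rw [hw, stb_wp_reverse, inv_mul_cancel_left]
    rw [hd] at hlen
    cases l₂ with
    | nil =>
      rw [BN.wp_nil, one_mul] at hd
      rw [← hd]
      exact hu
    | cons s l₃ =>
      exfalso
      apply h s (hl₂ s List.mem_cons_self)
      rw [BN.Q_iff]
      have e : BN.σ P s * d = BN.wp P l₃ * (BN.wp P l₁ * d) := by
        conv_lhs => rw [← hd]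
        rw [BN.wp_cons, mul_assoc, BN.σ_mul_cancel]
      rw [e]
      have := stb_len_wp_mul_le P l₃ (BN.wp P l₁ * d)
      simp only [List.length_cons] at hlen
      omega

end

end Cfsg.Agent.Lib.helper11
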