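import Cfsg.Agent.Lib.helper11d.Stb9
import Cfsg.Agent.Lib.helper11c.Syl1
import Cfsg.Agent.S0165

/-! The Steinberg character of a Chevalley group vanishes on the `p`-singular elements. -/

set_option autoImplicit false

namespace Cfsg.Agent.Lib.helper11

open Cfsg Cfsg.Lie

theorem stb_vanish {F : Type*} [Field F] [Fintype F] (p : ℕ) [Fact p.Prime] [CharP F p]
    (D : ChevalleyDatum)
    (hD : D ∈ [chevG2, chevB2, chevD4, chevF4, chevE6, chevE7, chevE8])
    (g : ↥(D.group F)) (hg : p ∣ orderOf g) :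
    D.steinbergCharacter F g = 0 := by
  classical
  have hp : p.Prime := Fact.out
  obtain ⟨n, ρ, hirr, hchar⟩ := stb_irr (F := F) D hD
  haveI := hirr
  obtain ⟨m, hm, hcard⟩ := card_group_coprime (F := F) p D hD
  obtain ⟨f, -, hq⟩ := FiniteField.card F p
  have hqN : Nat.card F ^ (D.nroots / 2) = p ^ ((f : ℕ) * (D.nroots / 2)) := by
    rw [Nat.card_eq_fintype_card, hq, ← pow_mul]
  have hn : n = p ^ ((f : ℕ) * (D.nroots / 2)) := by
    have h1 : ρ.character 1 = (n : ℂ) := by
      rw [Representation.char_one, Module.finrank_fin_fun]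
    have h2 := Cfsg.Agent.S2327.result (F := F) D hD
    rw [← hchar, h1] at h2
    have h3 : (n : ℂ) = ((Fintype.card F ^ (D.nroots / 2) : ℕ) : ℂ) := by
      rw [h2]
      push_cast
      rfl
    have h4 := Nat.cast_injective h3
    rw [h4, ← Nat.card_eq_fintype_card, hqN]
  rw [← hchar]
  apply Cfsg.Agent.S0165.result ρ p ((f : ℕ) * (D.nroots / 2)) hp
  · rw [hcard, hqN]
    exact Dvd.intro _ rfl
  · rw [hcard, hqN, pow_succ]
    intro hdvd
    exact hm ((Nat.mul_dvd_mul_iff_left (pow_pos hp.pos _)).mp hdvd)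
  · rw [Module.finrank_fin_fun, hn]
  · exact hg

end Cfsg.Agent.Lib.helper11
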