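import Cfsg.Agent.Lib.helper11d.Stb1

/-! Fixed points of an element of `B` on `G/P_J`, counted on `G/B`. -/

set_option autoImplicit false

namespace Cfsg.Agent.Lib.helper11

open Cfsg
open Cfsg.Agent.Lib.helper2

section

variable {G : Type*} [Group G] (P : Cfsg.BNPair G)

/-- the cell of the inverse of a coset of `B` -/
noncomputable def stbCell (t : G ⧸ P.B) : BN.W P :=
  Classical.choose (BN.exists_mem_C P (Quotient.out t)⁻¹)

theorem stbCell_spec (x : G) : x⁻¹ ∈ BN.C P (stbCell P (x : G ⧸ P.B)) := by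
  have h := Classical.choose_spec (BN.exists_mem_C P (Quotient.out (x : G ⧸ P.B))⁻¹)
  have h2 : (Quotient.out (x : G ⧸ P.B))⁻¹ * x ∈ P.B := by
    rw [← QuotientGroup.eq]
    exact QuotientGroup.out_eq' _
  have e : x⁻¹ = ((Quotient.out (x : G ⧸ P.B))⁻¹ * x)⁻¹ * (Quotient.out (x : G ⧸ P.B))⁻¹ := by
    group
  rw [e]
  exact BN.C_mul_left P (P.B.inv_mem h2) h

theorem stbCell_eq (x : G) (d : BN.W P) (h : x⁻¹ ∈ BN.C P d) : stbCell P (x : G ⧸ P.B) = d :=
  BN.C_unique P (stbCell_spec P x) h

/-- the fixed points of `b ∈ B` on `G/P_J` correspond to its fixed points on `G/B` lying in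
the cells of the minimal coset representatives -/
theorem stb_card_fix (J : Set G) (hJ : J ⊆ P.S) (b : G) (hb : b ∈ P.B) :
    Nat.card (MulAction.fixedBy (G ⧸ (P.B ⊔ Subgroup.closure J)) b) =
    Nat.card {t : G ⧸ P.B // b • t = t ∧ StbMin P J (stbCell P t)} := by
  symm
  have hle : P.B ≤ P.B ⊔ Subgroup.closure J := le_sup_left
  have hΦ : ∀ (t : G ⧸ P.B), Subgroup.quotientMapOfLE hle (b • t) =
      b • Subgroup.quotientMapOfLE hle t := by
    intro t
    induction t using QuotientGroup.induction_on with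
    | H x => rfl
  have hinj : ∀ t t' : G ⧸ P.B, StbMin P J (stbCell P t) → StbMin P J (stbCell P t') →
      Subgroup.quotientMapOfLE hle t = Subgroup.quotientMapOfLE hle t' → t = t' := by
    intro t t'
    induction t using QuotientGroup.induction_on with | H x => ?_
    induction t' using QuotientGroup.induction_on with | H y => ?_
    intro h1 h2 h3
    rw [Subgroup.quotientMapOfLE_apply_mk, Subgroup.quotientMapOfLE_apply_mk,
      QuotientGroup.eq] at h3
    rw [QuotientGroup.eq]
    have hy : (x * (x⁻¹ * y))⁻¹ ∈ BN.C P (stbCell P (y : G ⧸ P.B)) := by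
      rw [mul_inv_cancel_left]; exact stbCell_spec P y
    exact stb_unique P J hJ x (x⁻¹ * y) h3 _ _ h1 h2 (stbCell_spec P x) hy
  apply Nat.card_eq_of_bijective (fun t => (⟨Subgroup.quotientMapOfLE hle t.1, by
      rw [MulAction.mem_fixedBy, ← hΦ, t.2.1]⟩ :
      MulAction.fixedBy (G ⧸ (P.B ⊔ Subgroup.closure J)) b))
  constructor
  · rintro ⟨t, ht1, ht2⟩ ⟨t', ht1', ht2'⟩ e
    have := hinj t t' ht2 ht2' (congrArg Subtype.val e)
    subst this; rfl
  · rintro ⟨u, hu⟩
    induction u using QuotientGroup.induction_on with | H y => ?_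
    obtain ⟨p, hp, d, hd, hc⟩ := stb_exists_min P J y
    have hcell : stbCell P ((y * p : G) : G ⧸ P.B) = d := stbCell_eq P _ d hc
    have himg : Subgroup.quotientMapOfLE hle ((y * p : G) : G ⧸ P.B) =
        (y : G ⧸ (P.B ⊔ Subgroup.closure J)) := by
      rw [Subgroup.quotientMapOfLE_apply_mk, QuotientGroup.eq]
      have : (y * p)⁻¹ * y = p⁻¹ := by group
      rw [this]
      exact Subgroup.inv_mem _ hp
    have hcell2 : stbCell P (b • ((y * p : G) : G ⧸ P.B)) = d := by
      have : b • ((y * p : G) : G ⧸ P.B) = ((b * (y * p) : G) : G ⧸ P.B) := rfl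
      rw [this]
      apply stbCell_eq
      have e : (b * (y * p))⁻¹ = (y * p)⁻¹ * b⁻¹ := by group
      rw [e]
      exact BN.C_mul_right P (P.B.inv_mem hb) hc
    have hfix : b • ((y * p : G) : G ⧸ P.B) = ((y * p : G) : G ⧸ P.B) := by
      apply hinj _ _ (by rw [hcell2]; exact hd) (by rw [hcell]; exact hd)
      rw [hΦ, himg]
      exact hu
    exact ⟨⟨((y * p : G) : G ⧸ P.B), hfix, by rw [hcell]; exact hd⟩, Subtype.ext himg⟩

end

end Cfsg.Agent.Lib.helper11
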