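import Cfsg.Agent.Lib.helper11d.Stb2

/-! The element with all descents, and the alternating sum over the parabolic subgroups. -/

set_option autoImplicit false

namespace Cfsg.Agent.Lib.helper11

open Cfsg
open Cfsg.Agent.Lib.helper2

section

variable {G : Type*} [Group G] (P : Cfsg.BNPair G)

/-- an element `ω` with `l(ω x) + l(x) = N` for all `x` is the only element all of whose
fundamental reflections are descents, and is an involution -/
theorem stb_longest (ω : BN.W P) (N : ℕ)
    (h : ∀ x : BN.W P, BN.len P (ω * x) + BN.len P x = N) :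
    ω⁻¹ = ω ∧ ∀ w : BN.W P, (∀ s : P.S, BN.Q P s w) ↔ w = ω := by
  have hi' : ∀ y : BN.W P, BN.len P y + BN.len P (ω⁻¹ * y) = N := by
    intro y
    have := h (ω⁻¹ * y)
    rwa [mul_inv_cancel_left] at this
  have hii : ∀ x : BN.W P, BN.len P (x * ω) + BN.len P x = N := by
    intro x
    have h1 := hi' x⁻¹
    rw [stb_len_inv] at h1
    have h2 : BN.len P (ω⁻¹ * x⁻¹) = BN.len P (x * ω) := by
      rw [← stb_len_inv P (x * ω), mul_inv_rev]
    omega
  have hii' : ∀ y : BN.W P, BN.len P (y * ω⁻¹) + BN.len P y = N := by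
    intro y
    have h1 := h y⁻¹
    rw [stb_len_inv] at h1
    have h2 : BN.len P (ω * y⁻¹) = BN.len P (y * ω⁻¹) := by
      rw [← stb_len_inv P (y * ω⁻¹), mul_inv_rev, inv_inv]
    omega
  have hone : BN.len P (1 : BN.W P) = 0 := (BN.len_eq_zero_iff P).mpr rfl
  have hω : BN.len P ω = N := by
    have := h 1
    rw [mul_one, hone] at this
    omega
  have hω' : BN.len P ω⁻¹ = N := by rw [stb_len_inv, hω]
  have hE1 : ∀ s : P.S, BN.Q P s ω := by
    intro s
    rw [BN.Q_iff]
    have := hii (BN.σ P s)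
    rw [BN.len_σ] at this
    omega
  have hE2 : ∀ s : P.S, BN.Q P s ω⁻¹ := by
    intro s
    rw [BN.Q_iff]
    have := hii' (BN.σ P s)
    rw [BN.len_σ] at this
    omega
  have hE3 : ∀ w : BN.W P, (∀ s : P.S, BN.Q P s w) → w = ω⁻¹ := by
    intro w hw
    have hu : ω * w = 1 := by
      by_contra hne
      have hpos : BN.len P (ω * w) ≠ 0 := fun h0 => hne ((BN.len_eq_zero_iff P).mp h0)
      obtain ⟨l, hl, hlen⟩ := BN.exists_reduced P (ω * w)
      cases l with
      | nil => exact hpos (by rw [← hlen]; rfl)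
      | cons s l' =>
        have hQ : BN.len P (BN.σ P s * (ω * w)) < BN.len P (ω * w) := by
          have e : BN.σ P s * (ω * w) = BN.wp P l' := by
            rw [← hl, BN.wp_cons, BN.σ_mul_cancel]
          rw [e]
          have := BN.len_le P l'
          simp only [List.length_cons] at hlen
          omega
        -- the conjugate reflection
        have ht : BN.len P (ω⁻¹ * (BN.σ P s * ω)) = 1 := by
          have h1 := hi' (BN.σ P s * ω)
          have h2 := hii (BN.σ P s)
          rw [BN.len_σ] at h2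
          omega
        obtain ⟨lt, hlt, hltlen⟩ := BN.exists_reduced P (ω⁻¹ * (BN.σ P s * ω))
        rw [ht] at hltlen
        match lt, hlt, hltlen with
        | [s'], hlt, _ =>
          rw [BN.wp_cons, BN.wp_nil, mul_one] at hlt
          have h3 := BN.len_lt_of_Q P (hw s')
          have h4 := h (BN.σ P s' * w)
          have e2 : ω * (BN.σ P s' * w) = BN.σ P s * (ω * w) := by
            rw [hlt]; group
          rw [e2] at h4
          have h5 := h w
          omega
    exact eq_inv_of_mul_eq_one_right hu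
  have hinv : ω⁻¹ = ω := (hE3 ω hE1).symm
  refine ⟨hinv, fun w => ⟨fun hw => ?_, ?_⟩⟩
  · rw [hE3 w hw, hinv]
  · rintro rfl
    exact hE1

/-- the alternating sum of the fixed-point counts on the `G/P_J` -/
theorem stb_sum [Finite G] (rank : ℕ) (sOf : ℕ → G) (hS : ∀ j < rank, sOf j ∈ P.S)
    (b : G) (hb : b ∈ P.B) :
    ∑ J ∈ (Finset.range rank).powerset, (-1 : ℂ) ^ J.card *
      (Nat.card (MulAction.fixedBy
        (G ⧸ (P.B ⊔ Subgroup.closure {s | ∃ j ∈ J, j < rank ∧ s = sOf j})) b) : ℂ) =
    (Nat.card {t : G ⧸ P.B // b • t = t ∧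
      ∀ j (hj : j < rank), BN.Q P ⟨sOf j, hS j hj⟩ (stbCell P t)} : ℂ) := by
  classical
  haveI : Fintype (G ⧸ P.B) := Fintype.ofFinite _
  let A : BN.W P → Finset ℕ := fun w =>
    (Finset.range rank).filter (fun j => ∀ hj : j < rank, ¬ BN.Q P ⟨sOf j, hS j hj⟩ w)
  let Xf : Finset (G ⧸ P.B) := Finset.univ.filter (fun t => b • t = t)
  have h1 : ∀ J ∈ (Finset.range rank).powerset,
      (Nat.card (MulAction.fixedBy
        (G ⧸ (P.B ⊔ Subgroup.closure {s | ∃ j ∈ J, j < rank ∧ s = sOf j})) b) : ℂ) =
      ∑ t ∈ Xf, (if J ⊆ A (stbCell P t) then (1 : ℂ) else 0) := by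
    intro J hJ
    rw [Finset.mem_powerset] at hJ
    have hsub : {s | ∃ j ∈ J, j < rank ∧ s = sOf j} ⊆ P.S := by
      rintro s ⟨j, hj, hjr, rfl⟩
      exact hS j hjr
    rw [stb_card_fix P _ hsub b hb]
    have hiff : ∀ t : G ⧸ P.B, (b • t = t ∧
        StbMin P {s | ∃ j ∈ J, j < rank ∧ s = sOf j} (stbCell P t)) ↔
        (b • t = t ∧ J ⊆ A (stbCell P t)) := by
      intro t
      apply and_congr_right
      intro _
      rw [stb_min_iff]
      constructor
      · intro h j hj
        have hjr : j < rank := Finset.mem_range.mp (hJ hj)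
        simp only [A, Finset.mem_filter, Finset.mem_range]
        exact ⟨hjr, fun hj' => h ⟨sOf j, hS j hj'⟩ ⟨j, hj, hjr, rfl⟩⟩
      · rintro h ⟨s, hs⟩ ⟨j, hj, hjr, e⟩
        have := h hj
        simp only [A, Finset.mem_filter, Finset.mem_range] at this
        have h2 := this.2 hjr
        have e2 : (⟨s, hs⟩ : P.S) = ⟨sOf j, hS j hjr⟩ := Subtype.ext e
        rw [e2]
        exact h2
    rw [Nat.card_congr (Equiv.subtypeEquivRight hiff), Nat.card_eq_fintype_card,
      Fintype.card_subtype, ← Finset.filter_filter, Finset.natCast_card_filter]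
  have h2 : ∀ w : BN.W P, ∑ J ∈ (Finset.range rank).powerset,
      (-1 : ℂ) ^ J.card * (if J ⊆ A w then (1 : ℂ) else 0) =
      if A w = ∅ then (1 : ℂ) else 0 := by
    intro w
    have e1 : ∑ J ∈ (Finset.range rank).powerset,
        (-1 : ℂ) ^ J.card * (if J ⊆ A w then (1 : ℂ) else 0) =
        ∑ J ∈ (A w).powerset, (-1 : ℂ) ^ J.card := by
      have e0 : (A w).powerset = (Finset.range rank).powerset.filter (fun J => J ⊆ A w) := by
        ext J
        rw [Finset.mem_filter, Finset.mem_powerset, Finset.mem_powerset]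
        exact ⟨fun h => ⟨h.trans (Finset.filter_subset _ _), h⟩, fun h => h.2⟩
      rw [e0, Finset.sum_filter]
      apply Finset.sum_congr rfl
      intro J _
      split_ifs <;> simp
    rw [e1]
    have e2 := Finset.sum_powerset_neg_one_pow_card (x := A w)
    have e3 : ∑ J ∈ (A w).powerset, (-1 : ℂ) ^ J.card =
        ((∑ J ∈ (A w).powerset, (-1 : ℤ) ^ J.card : ℤ) : ℂ) := by
      push_cast
      rfl
    rw [e3, e2]
    split_ifs <;> simp
  rw [Finset.sum_congr rfl (fun J hJ => by rw [h1 J hJ, Finset.mul_sum]), Finset.sum_comm]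
  rw [Finset.sum_congr rfl (fun t _ => h2 (stbCell P t))]
  rw [← Finset.natCast_card_filter, Finset.filter_filter]
  have hiff2 : ∀ t : G ⧸ P.B, (b • t = t ∧ A (stbCell P t) = ∅) ↔
      (b • t = t ∧ ∀ j (hj : j < rank), BN.Q P ⟨sOf j, hS j hj⟩ (stbCell P t)) := by
    intro t
    apply and_congr_right
    intro _
    simp only [A, Finset.filter_eq_empty_iff, Finset.mem_range]
    constructor
    · intro h j hj
      have := h hj
      by_contra hq
      exact this (fun _ => hq)
    · intro h j hj hcon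
      exact hcon hj (h j hj)
  rw [Nat.card_congr (Equiv.subtypeEquivRight hiff2).symm, Nat.card_eq_fintype_card,
    Fintype.card_subtype]

end

end Cfsg.Agent.Lib.helper11
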