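import Cfsg.Agent.Lib.helper11d.Stb3
import Cfsg.Agent.Lib.helper11b.Count3
import Cfsg.Prelude.Def_ParabolicCharacters

/-! The restriction of the Steinberg character of a Chevalley group to `B`. -/

set_option autoImplicit false

namespace Cfsg.Agent.Lib.helper11

open Cfsg Cfsg.Lie
open Cfsg.Agent.Lib.helper2

section

variable {F : Type*} [Field F] (D : ChevalleyDatum)
  (hD : D ∈ [chevG2, chevB2, chevD4, chevF4, chevE6, chevE7, chevE8])
  (P : Cfsg.BNPair ↥(D.group F))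

/-- the parabolic subgroups in terms of the (B,N)-pair -/
theorem stb_parabolicIn (hP : IsStdBN D P) (J : Finset ℕ) :
    D.parabolicIn F J =
      P.B ⊔ Subgroup.closure {s | ∃ j ∈ J, j < D.rank ∧ s = sG (F := F) D hD j} := by
  obtain ⟨hBG, -, -⟩ := Cfsg.Agent.S1043.main0 (F := F) D hD (nxAll_of_mem D hD)
    (hcert_of_mem D hD)
  unfold ChevalleyDatum.parabolicIn ChevalleyDatum.parabolicSubgroup
  have hT : Subgroup.closure {g : GL D.Idx F | ∃ j ∈ (↑J : Set ℕ), j < D.rank ∧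
      (g : Matrix D.Idx D.Idx F) = D.nMat F (D.simple j) 1} =
      (Subgroup.closure {s | ∃ j ∈ J, j < D.rank ∧ s = sG (F := F) D hD j}).map
        (D.group F).subtype := by
    rw [MonoidHom.map_closure]
    congr 1
    ext g
    constructor
    · rintro ⟨j, hj, hjr, hg⟩
      exact ⟨sG D hD j, ⟨j, hj, hjr, rfl⟩, (eq_nU D hD _ _ _ hg).symm⟩
    · rintro ⟨s, ⟨j, hj, hjr, rfl⟩, rfl⟩
      exact ⟨j, hj, hjr, nU_val D hD _ _⟩
  rw [hT, Subgroup.subgroupOf_sup hBG (Subgroup.map_subtype_le _), hP.1]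
  congr 1
  exact Subgroup.comap_map_eq_self_of_injective (Subgroup.subtype_injective _) _

/-- left multiplication by the longest element reverses the length -/
theorem stb_len_w0 (hP : IsStdBN D P) (ce : Certs F D) (l₀ : List ℕ) (hl₀ : ∀ i ∈ l₀, i < D.rank)
    (h1 : ∀ r, D.IsPosRoot r → D.IsNegRoot (wAct D l₀ r))
    (h2 : ∀ s, D.IsNegRoot s → ∃ r, D.IsPosRoot r ∧ wAct D l₀ r = s) (x : BN.W P) :
    BN.len P (wOf D hD P hP l₀ * x) + BN.len P x = D.nroots / 2 := by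
  have hpos := posOK_of_mem D hD
  obtain ⟨l, hl, rfl⟩ := exists_wOf D hD P hP x
  have hll : ∀ i ∈ l₀ ++ l, i < D.rank := by
    intro i hi
    rcases List.mem_append.mp hi with hi | hi
    · exact hl₀ i hi
    · exact hl i hi
  rw [← wOf_append, len_wOf D hD P hP ce _ hll, len_wOf D hD P hP ce l hl, wPerm_append]
  have hswap : ∀ r : Fin D.nroots,
      (2 * (wPerm D ce.hnx l₀ r).val < D.nroots ↔ D.nroots ≤ 2 * r.val) := by
    intro r
    constructor
    · intro hneg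
      have hn : D.IsNegRoot (wPerm D ce.hnx l₀ r).val :=
        (posOK_spec D hpos _ (wPerm D ce.hnx l₀ r).2).2.1.mpr hneg
      obtain ⟨r', hr', e⟩ := h2 _ hn
      have e2 : wPerm D ce.hnx l₀ ⟨r', hr'.1⟩ = wPerm D ce.hnx l₀ r :=
        Fin.ext (by rw [wPerm_apply D ce.hnx l₀ hl₀]; exact e)
      have e3 := (wPerm D ce.hnx l₀).injective e2
      rw [← e3]
      exact (posOK_spec D hpos r' hr'.1).1.mp hr'
    · intro hp
      have hp' := (posOK_spec D hpos r r.2).1.mpr hp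
      have hn := h1 r hp'
      rw [wPerm_apply D ce.hnx l₀ hl₀]
      exact (posOK_spec D hpos _ hn.1).2.1.mp hn
  unfold NcntP
  have e1 : invSet (wPerm D ce.hnx l₀ * wPerm D ce.hnx l) =
      (Finset.univ.filter (fun r : Fin D.nroots => D.nroots ≤ 2 * r.val)).filter
        (fun r => ¬ 2 * (wPerm D ce.hnx l r).val < D.nroots) := by
    ext r
    rw [mem_invSet, Finset.mem_filter, Finset.mem_filter]
    simp only [Finset.mem_univ, true_and, Equiv.Perm.mul_apply]
    rw [hswap]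
    omega
  have e2 : invSet (wPerm D ce.hnx l) =
      (Finset.univ.filter (fun r : Fin D.nroots => D.nroots ≤ 2 * r.val)).filter
        (fun r => 2 * (wPerm D ce.hnx l r).val < D.nroots) := by
    ext r
    rw [mem_invSet, Finset.mem_filter, Finset.mem_filter]
    simp only [Finset.mem_univ, true_and]
  rw [e1, e2, add_comm, Finset.card_filter_add_card_filter_not,
    card_pos_half _ (triOK_even D ce.htri)]

/-- the longest element is the only one with all descents -/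
theorem stb_w0 (hP : IsStdBN D P) (ce : Certs F D) (l₀ : List ℕ) (hl₀ : ∀ i ∈ l₀, i < D.rank)
    (h1 : ∀ r, D.IsPosRoot r → D.IsNegRoot (wAct D l₀ r))
    (h2 : ∀ s, D.IsNegRoot s → ∃ r, D.IsPosRoot r ∧ wAct D l₀ r = s) :
    ∀ w : BN.W P, (∀ s : P.S, BN.Q P s w) ↔ w = wOf D hD P hP l₀ :=
  (stb_longest P _ _ (stb_len_w0 D hD P hP ce l₀ hl₀ h1 h2)).2

/-- `B ∩ n₀⁻¹ B n₀ = H` -/
theorem stb_inter (ce : Certs F D) (l₀ : List ℕ) (hl₀ : ∀ i ∈ l₀, i < D.rank)
    (h1 : ∀ r, D.IsPosRoot r → D.IsNegRoot (wAct D l₀ r))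
    (h2 : ∀ s, D.IsNegRoot s → ∃ r, D.IsPosRoot r ∧ wAct D l₀ r = s)
    (β : GL D.Idx F) (hβ : β ∈ D.borelSubgroup F)
    (hβ' : nWordU D hD l₀ * β * (nWordU D hD l₀)⁻¹ ∈ D.borelSubgroup F) :
    β ∈ D.diagonalSubgroup F := by
  obtain ⟨hnx, hc, htri, hup, hcomm⟩ := ce
  have hconj := w0_conj (F := F) D hD hnx l₀ hl₀ h1 h2
  have hnmono : nWordU (F := F) D hD l₀ ∈ D.monomialSubgroup F := nWordU_mem D hD hc l₀ hl₀
  obtain ⟨v, hv, t, h, hh, e⟩ := borel_decomp D hD hnx hc htri hup hcomm 0 (rank_pos D hD) β hβ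
  have hu1 : v * xU D hD (D.simple 0) t ∈ D.posUnipotent F :=
    Subgroup.mul_mem _ (Up_le_pos D hD 0 hv) (xU_mem_pos D hD _ (hc.2 0 (rank_pos D hD)).2 t)
  have hV : nWordU D hD l₀ * (v * xU D hD (D.simple 0) t) * (nWordU D hD l₀)⁻¹ ∈
      D.negUnipotent F := by
    rw [← hconj]
    exact ⟨_, hu1, rfl⟩
  have hH : nWordU D hD l₀ * h * (nWordU D hD l₀)⁻¹ ∈ D.diagonalSubgroup F :=
    mono_conj_diag' D hD hnx hc _ _ hnmono hh
  have hB : nWordU D hD l₀ * (v * xU D hD (D.simple 0) t) * (nWordU D hD l₀)⁻¹ ∈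
      D.borelSubgroup F := by
    have e2 : nWordU D hD l₀ * (v * xU D hD (D.simple 0) t) * (nWordU D hD l₀)⁻¹ =
        (nWordU D hD l₀ * β * (nWordU D hD l₀)⁻¹) *
          (nWordU D hD l₀ * h * (nWordU D hD l₀)⁻¹)⁻¹ := by
      rw [e]; group
    rw [e2]
    exact Subgroup.mul_mem _ hβ'
      (Subgroup.inv_mem _ (le_sup_right (α := Subgroup (GL D.Idx F)) hH))
  have h5 := borel_neg_eq_one D hD hnx hc htri _ hB hV
  have h6 : v * xU D hD (D.simple 0) t = 1 := by
    have : v * xU D hD (D.simple 0) t = (nWordU D hD l₀)⁻¹ *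
        (nWordU D hD l₀ * (v * xU D hD (D.simple 0) t) * (nWordU D hD l₀)⁻¹) *
          nWordU D hD l₀ := by group
    rw [this, h5]; group
  rw [e, h6, one_mul]
  exact hh

end

end Cfsg.Agent.Lib.helper11
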