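import Cfsg.Agent.Lib.helper11d.Stb4

/-! The restriction of the Steinberg character of a Chevalley group to `B` is the permutation
character of `B` on `B/H`. -/

set_option autoImplicit false

namespace Cfsg.Agent.Lib.helper11

open Cfsg Cfsg.Lie
open Cfsg.Agent.Lib.helper2

theorem stb_restrict {F : Type*} [Field F] [Finite F] (D : ChevalleyDatum)
    (hD : D ∈ [chevG2, chevB2, chevD4, chevF4, chevE6, chevE7, chevE8])
    (b : ↥((D.borelSubgroup F).subgroupOf (D.group F))) :
    D.steinbergCharacter F ((((D.borelSubgroup F).subgroupOf (D.group F)).subtype) b) =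
      Cfsg.fixedPointCharacter (((D.diagonalSubgroup F).subgroupOf (D.group F)).subgroupOf
        ((D.borelSubgroup F).subgroupOf (D.group F))) b := by
  classical
  have ce := certs_of_mem F D hD
  have hnx := ce.hnx
  have hc := ce.hc
  obtain ⟨P, hP⟩ := exists_stdBN (F := F) D hD ce
  obtain ⟨l₀, hl0, hrow⟩ := w0_of_mem D hD
  have hl₀ : ∀ i ∈ l₀, i < D.rank := by
    intro i hi
    rw [List.all_eq_true] at hl0
    simpa using hl0 i hi
  have h1 : ∀ r, D.IsPosRoot r → D.IsNegRoot (wAct D l₀ r) := by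
    intro r hr
    have := hrow r hr.1
    unfold w0Row at this
    simp only [Bool.and_eq_true, Bool.or_eq_true, Bool.not_eq_true', decide_eq_false_iff_not,
      decide_eq_true_eq] at this
    rcases this.1 with h | h
    · exact absurd hr h
    · exact h
  have h2 : ∀ s, D.IsNegRoot s → ∃ r, D.IsPosRoot r ∧ wAct D l₀ r = s := by
    intro s hs
    have := hrow s hs.1
    unfold w0Row at this
    simp only [Bool.and_eq_true, Bool.or_eq_true, Bool.not_eq_true', decide_eq_false_iff_not,
      decide_eq_true_eq, nbeq_iff] at this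
    rcases this.2 with h | h
    · exact absurd hs h
    · exact ⟨_, h.1, h.2⟩
  have hnmono : nWordU (F := F) D hD l₀ ∈ D.monomialSubgroup F := nWordU_mem D hD hc l₀ hl₀
  have hbB : (((D.borelSubgroup F).subgroupOf (D.group F)).subtype) b ∈ P.B := by
    rw [hP.1]; exact b.2
  unfold ChevalleyDatum.steinbergCharacter Cfsg.fixedPointCharacter
  rw [Finset.sum_congr rfl (fun J _ => by rw [stb_parabolicIn D hD P hP J])]
  rw [stb_sum P D.rank (sG D hD) (fun j hj => sG_mem_S hD hP j hj) _ hbB]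
  congr 1
  symm
  obtain ⟨nN, hn1, hn2⟩ := exists_rep D hD P hP l₀ hl₀
  have hE := stb_w0 D hD P hP ce l₀ hl₀ h1 h2
  -- the map `uH ↦ u n₀⁻¹ B`
  have hconjval : ∀ u u' : ↥((D.borelSubgroup F).subgroupOf (D.group F)),
      (((((u : ↥(D.group F)) * (nN : ↥(D.group F))⁻¹)⁻¹ *
        ((u' : ↥(D.group F)) * (nN : ↥(D.group F))⁻¹) : ↥(D.group F)) : GL D.Idx F)) =
      nWordU D hD l₀ * (((u⁻¹ * u' : ↥((D.borelSubgroup F).subgroupOf (D.group F))) :
        ↥(D.group F)) : GL D.Idx F) * (nWordU D hD l₀)⁻¹ := by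
    intro u u'
    rw [← hn1]
    simp only [Subgroup.coe_mul, Subgroup.coe_inv, mul_inv_rev, inv_inv]
    group
  have hwd : ∀ u u' : ↥((D.borelSubgroup F).subgroupOf (D.group F)),
      QuotientGroup.leftRel (((D.diagonalSubgroup F).subgroupOf (D.group F)).subgroupOf
        ((D.borelSubgroup F).subgroupOf (D.group F))) u u' →
      QuotientGroup.leftRel P.B ((u : ↥(D.group F)) * (nN : ↥(D.group F))⁻¹)
        ((u' : ↥(D.group F)) * (nN : ↥(D.group F))⁻¹) := by
    intro u u' h
    rw [QuotientGroup.leftRel_apply] at h ⊢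
    rw [hP.memB, hconjval]
    rw [Subgroup.mem_subgroupOf, Subgroup.mem_subgroupOf] at h
    exact le_sup_right (α := Subgroup (GL D.Idx F)) (mono_conj_diag' D hD hnx hc _ _ hnmono h)
  let g : (↥((D.borelSubgroup F).subgroupOf (D.group F)) ⧸
      (((D.diagonalSubgroup F).subgroupOf (D.group F)).subgroupOf
        ((D.borelSubgroup F).subgroupOf (D.group F)))) → ↥(D.group F) ⧸ P.B :=
    Quotient.map' (fun u => (u : ↥(D.group F)) * (nN : ↥(D.group F))⁻¹) hwd
  have hequiv : ∀ c, g (b • c) =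
      ((((D.borelSubgroup F).subgroupOf (D.group F)).subtype) b) • g c := by
    intro c
    induction c using QuotientGroup.induction_on with
    | H u =>
      show ((((b * u : ↥((D.borelSubgroup F).subgroupOf (D.group F))) : ↥(D.group F)) *
        (nN : ↥(D.group F))⁻¹ : ↥(D.group F)) : ↥(D.group F) ⧸ P.B) =
        (((b : ↥(D.group F)) * ((u : ↥(D.group F)) * (nN : ↥(D.group F))⁻¹) : ↥(D.group F)) :
          ↥(D.group F) ⧸ P.B)
      rw [Subgroup.coe_mul, mul_assoc]
  have hcellg : ∀ c, stbCell P (g c) = wOf D hD P hP l₀ := by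
    intro c
    induction c using QuotientGroup.induction_on with
    | H u =>
      show stbCell P ((((u : ↥(D.group F)) * (nN : ↥(D.group F))⁻¹ : ↥(D.group F)) :
        ↥(D.group F) ⧸ P.B)) = _
      apply stbCell_eq
      have e : ((u : ↥(D.group F)) * (nN : ↥(D.group F))⁻¹)⁻¹ =
          (nN : ↥(D.group F)) * (u : ↥(D.group F))⁻¹ := by group
      rw [e, ← hn2]
      apply BN.C_mul_right P _ (BN.coe_mem_C P nN)
      apply P.B.inv_mem
      rw [hP.1]
      exact u.2
  have hginj : ∀ c c', g c = g c' → c = c' := by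
    intro c c'
    induction c using QuotientGroup.induction_on with | H u => ?_
    induction c' using QuotientGroup.induction_on with | H u' => ?_
    intro h
    have h' : (((u : ↥(D.group F)) * (nN : ↥(D.group F))⁻¹ : ↥(D.group F)) :
        ↥(D.group F) ⧸ P.B) = (((u' : ↥(D.group F)) * (nN : ↥(D.group F))⁻¹ : ↥(D.group F)) :
        ↥(D.group F) ⧸ P.B) := h
    rw [QuotientGroup.eq, hP.memB, hconjval] at h'
    rw [QuotientGroup.eq, Subgroup.mem_subgroupOf, Subgroup.mem_subgroupOf]
    exact stb_inter D hD ce l₀ hl₀ h1 h2 _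
      (Subgroup.mem_subgroupOf.mp (u⁻¹ * u').2) h'
  have hgsurj : ∀ t : ↥(D.group F) ⧸ P.B, stbCell P t = wOf D hD P hP l₀ → ∃ c, g c = t := by
    intro t
    induction t using QuotientGroup.induction_on with | H x => ?_
    intro ht
    have h3 := stbCell_spec P x
    rw [ht] at h3
    have h4 := BN.C_inv P h3
    rw [inv_inv, ← hn2, ← map_inv, BN.mem_C_π] at h4
    obtain ⟨b₁, hb₁, b₂, hb₂, e⟩ := h4
    have hb₁' : b₁ ∈ (D.borelSubgroup F).subgroupOf (D.group F) := by
      rw [← hP.1]; exact hb₁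
    refine ⟨((⟨b₁, hb₁'⟩ : ↥((D.borelSubgroup F).subgroupOf (D.group F))) :
      ↥((D.borelSubgroup F).subgroupOf (D.group F)) ⧸ _), ?_⟩
    show (((b₁ * (nN : ↥(D.group F))⁻¹ : ↥(D.group F))) : ↥(D.group F) ⧸ P.B) = _
    rw [QuotientGroup.eq, e]
    have e2 : (b₁ * (nN : ↥(D.group F))⁻¹)⁻¹ * (b₁ * ((nN⁻¹ : P.N) : ↥(D.group F)) * b₂) = b₂ := by
      rw [Subgroup.coe_inv]; group
    rw [e2]
    exact hb₂
  apply Nat.card_eq_of_bijective (fun c => (⟨g c.1, by
      rw [← hequiv, MulAction.mem_fixedBy.mp c.2], by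
      intro j hj
      rw [hcellg]
      exact (hE _).mpr rfl _⟩ :
    {t : ↥(D.group F) ⧸ P.B // ((((D.borelSubgroup F).subgroupOf (D.group F)).subtype) b) • t = t ∧
      ∀ j (hj : j < D.rank), BN.Q P ⟨sG D hD j, sG_mem_S hD hP j hj⟩ (stbCell P t)}))
  constructor
  · rintro ⟨c, hc1⟩ ⟨c', hc1'⟩ e
    have := hginj c c' (congrArg Subtype.val e)
    subst this
    rfl
  · rintro ⟨t, ht1, ht2⟩
    have hcell : stbCell P t = wOf D hD P hP l₀ := by
      apply (hE _).mp
      intro s
      obtain ⟨i, hi, hs⟩ := exists_of_mem_S hD hP s s.2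
      have := ht2 i hi
      have e : s = ⟨sG D hD i, sG_mem_S hD hP i hi⟩ := Subtype.ext hs
      rw [e]
      exact this
    obtain ⟨c, hc⟩ := hgsurj t hcell
    have hfix : b • c = c := by
      apply hginj
      rw [hequiv, hc, ht1]
    exact ⟨⟨c, MulAction.mem_fixedBy.mpr hfix⟩, Subtype.ext hc⟩

end Cfsg.Agent.Lib.helper11
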