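import Cfsg.Agent.Lib.helper11d.Stb3

/-! Double cosets of two parabolic subgroups of a (B,N)-pair: the elements of the Weyl group
without descents on either side. -/

set_option autoImplicit false

namespace Cfsg.Agent.Lib.helper11

open Cfsg
open Cfsg.Agent.Lib.helper2

theorem stb_two_split {α : Type*} (la lb t1 t2 : List α) (x : α)
    (h : la ++ lb = t1 ++ x :: t2) :
    (∃ c, la = t1 ++ x :: c ∧ t2 = c ++ lb) ∨ (∃ a, lb = a ++ x :: t2 ∧ t1 = la ++ a) := by
  rw [List.append_eq_append_iff] at h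
  rcases h with ⟨a', e1, e2⟩ | ⟨c', e1, e2⟩
  · exact Or.inr ⟨a', e2, e1⟩
  · cases c' with
    | nil =>
      rw [List.nil_append] at e2
      rw [List.append_nil] at e1
      exact Or.inr ⟨[], by rw [List.nil_append, e2], by rw [List.append_nil, e1]⟩
    | cons y c'' =>
      rw [List.cons_append, List.cons.injEq] at e2
      obtain ⟨rfl, rfl⟩ := e2
      exact Or.inl ⟨c'', e1, rfl⟩

theorem stb_three_split {α : Type*} (la lb lc t1 t2 : List α) (x : α)
    (h : la ++ (lb ++ lc) = t1 ++ x :: t2) :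
    (∃ c, la = t1 ++ x :: c ∧ t2 = c ++ (lb ++ lc)) ∨
    (∃ a c, lb = a ++ x :: c ∧ t1 = la ++ a ∧ t2 = c ++ lc) ∨
    (∃ a, lc = a ++ x :: t2 ∧ t1 = la ++ (lb ++ a)) := by
  rcases stb_two_split la (lb ++ lc) t1 t2 x h with ⟨c, e1, e2⟩ | ⟨a, e1, e2⟩
  · exact Or.inl ⟨c, e1, e2⟩
  · rcases stb_two_split lb lc a t2 x e1 with ⟨c, e3, e4⟩ | ⟨a2, e3, e4⟩
    · exact Or.inr (Or.inl ⟨a, c, e3, e2, e4⟩)
    · exact Or.inr (Or.inr ⟨a2, e3, by rw [e2, e4]⟩)

section

variable {G : Type*} [Group G] (P : Cfsg.BNPair G)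

theorem stb_len_mul_wp_le (w : BN.W P) (l : List P.S) :
    BN.len P (w * BN.wp P l) ≤ BN.len P w + l.length := by
  have h := stb_len_wp_mul_le P l.reverse w⁻¹
  rw [stb_wp_reverse, ← mul_inv_rev, stb_len_inv, stb_len_inv, List.length_reverse] at h
  omega

theorem stb_len_mul_σ (w : BN.W P) (s : P.S) :
    BN.len P (w * BN.σ P s) = BN.len P (BN.σ P s * w⁻¹) := by
  rw [← stb_len_inv P (w * BN.σ P s), mul_inv_rev, BN.σ_inv]

/-- every element of `W_J w W_K` is a product with additive lengths -/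
theorem stb_dc_reduce (J K : Set G) (w : BN.W P) (hJ : StbMin P J w) (hK : StbMin P K w⁻¹) :
    ∀ l₂ : List P.S, (∀ x ∈ l₂, (x : G) ∈ K) → ∀ l₁ : List P.S, (∀ x ∈ l₁, (x : G) ∈ J) →
    ∃ l₁' l₂' : List P.S, (∀ x ∈ l₁', (x : G) ∈ J) ∧ (∀ x ∈ l₂', (x : G) ∈ K) ∧
      BN.wp P l₁ * w * BN.wp P l₂ = BN.wp P l₁' * w * BN.wp P l₂' ∧
      BN.len P (BN.wp P l₁' * w * BN.wp P l₂') = l₁'.length + BN.len P w + l₂'.length := by
  intro l₂
  induction l₂ using List.reverseRecOn with
  | nil =>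
    intro _ l₁ hl₁
    obtain ⟨l', hsub, hw, hred⟩ := BN.exists_reduced_sublist P l₁
    have hl' : ∀ x ∈ l', (x : G) ∈ J := fun x hx => hl₁ x (hsub.subset hx)
    refine ⟨l', [], hl', by simp, by rw [hw], ?_⟩
    rw [BN.wp_nil, mul_one, List.length_nil, add_zero]
    exact stb_len_add P J w hJ l' hl' hred
  | append_singleton l₂a r ih =>
    intro hl₂ l₁ hl₁
    have hl₂a : ∀ x ∈ l₂a, (x : G) ∈ K := fun x hx => hl₂ x (List.mem_append_left _ hx)
    have hr : (r : G) ∈ K := hl₂ r (by simp)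
    obtain ⟨l₁', l₂', h1, h2, he, hlen⟩ := ih hl₂a l₁ hl₁
    have hprod : BN.wp P l₁ * w * BN.wp P (l₂a ++ [r]) =
        BN.wp P l₁' * w * BN.wp P l₂' * BN.σ P r := by
      rw [BN.wp_append, ← mul_assoc, he, BN.wp_cons, BN.wp_nil, mul_one]
    rw [hprod]
    generalize hu : BN.wp P l₁' * w * BN.wp P l₂' = u at hlen
    by_cases hq : BN.Q P r u⁻¹
    · obtain ⟨m, hm, hmlen⟩ := BN.exists_reduced P w
      have hword : u⁻¹ = BN.wp P (l₂'.reverse ++ (m.reverse ++ l₁'.reverse)) := by
        rw [BN.wp_append, BN.wp_append, stb_wp_reverse, stb_wp_reverse, stb_wp_reverse, hm, ← hu]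
        group
      have hlt : BN.len P (u * BN.σ P r) + 1 = BN.len P u := by
        rw [stb_len_mul_σ]
        have h3 := BN.len_lt_of_Q P hq
        have h4 := BN.len_mul_le P r (BN.σ P r * u⁻¹)
        rw [BN.σ_mul_cancel] at h4
        rw [stb_len_inv] at h3 h4
        omega
      have hq' := hq
      rw [hword] at hq'
      obtain ⟨t1, x, t2, e, hex⟩ := BN.exchange' P r _ hq'
      rw [← hword] at hex
      have hur : u * BN.σ P r = (BN.wp P (t1 ++ t2))⁻¹ := by
        rw [← hex, mul_inv_rev, inv_inv, BN.σ_inv]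
      rcases stb_three_split _ _ _ _ _ _ e with ⟨c, e1, e2⟩ | ⟨a, c, e1, e2, e3⟩ | ⟨a, e1, e2⟩
      · -- the deleted letter lies in the right word
        have hK' : ∀ y ∈ (t1 ++ c).reverse, (y : G) ∈ K := by
          intro y hy
          apply h2 y
          rw [← List.mem_reverse, e1]
          rw [List.mem_reverse] at hy
          rcases List.mem_append.mp hy with hy | hy
          · exact List.mem_append_left _ hy
          · exact List.mem_append_right _ (List.mem_cons_of_mem _ hy)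
        have hl2len : l₂'.length = (t1 ++ c).reverse.length + 1 := by
          have := congrArg List.length e1
          simp only [List.length_reverse, List.length_append, List.length_cons] at this ⊢
          omega
        have hnew : u * BN.σ P r = BN.wp P l₁' * w * BN.wp P (t1 ++ c).reverse := by
          rw [hur, e2, stb_wp_reverse]
          simp only [BN.wp_append, stb_wp_reverse, hm]
          group
        refine ⟨l₁', (t1 ++ c).reverse, h1, hK', hnew, ?_⟩
        rw [← hnew]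
        omega
      · -- the deleted letter lies in `w`: impossible
        exfalso
        have hmlen' : m.length = (a ++ c).length + 1 := by
          have := congrArg List.length e1
          simp only [List.length_reverse, List.length_append, List.length_cons] at this ⊢
          omega
        have h5 : BN.wp P (a ++ c) = BN.wp P (l₂' ++ r :: l₂'.reverse) * w⁻¹ := by
          have h6 : BN.σ P r * u⁻¹ = (BN.wp P l₂')⁻¹ * BN.wp P (a ++ c) * (BN.wp P l₁')⁻¹ := by
            rw [hex, e2, e3]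
            simp only [BN.wp_append, stb_wp_reverse]
            group
          have h7 : u⁻¹ = (BN.wp P l₂')⁻¹ * w⁻¹ * (BN.wp P l₁')⁻¹ := by
            rw [← hu]; group
          rw [h7] at h6
          have h8 : BN.wp P (a ++ c) = BN.wp P l₂' * (BN.σ P r *
              ((BN.wp P l₂')⁻¹ * w⁻¹ * (BN.wp P l₁')⁻¹)) * BN.wp P l₁' := by
            rw [h6]; group
          rw [h8]
          simp only [BN.wp_append, BN.wp_cons, stb_wp_reverse]
          group
        have h9 := hK (l₂' ++ r :: l₂'.reverse) (by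
          intro y hy
          rcases List.mem_append.mp hy with hy | hy
          · exact h2 y hy
          · rcases List.mem_cons.mp hy with rfl | hy
            · exact hr
            · exact h2 y (List.mem_reverse.mp hy))
        rw [← h5, stb_len_inv] at h9
        have h10 := BN.len_le P (a ++ c)
        omega
      · -- the deleted letter lies in the left word
        have hJ' : ∀ y ∈ (a ++ t2).reverse, (y : G) ∈ J := by
          intro y hy
          apply h1 y
          rw [← List.mem_reverse, e1]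
          rw [List.mem_reverse] at hy
          rcases List.mem_append.mp hy with hy | hy
          · exact List.mem_append_left _ hy
          · exact List.mem_append_right _ (List.mem_cons_of_mem _ hy)
        have hl1len : l₁'.length = (a ++ t2).reverse.length + 1 := by
          have := congrArg List.length e1
          simp only [List.length_reverse, List.length_append, List.length_cons] at this ⊢
          omega
        have hnew : u * BN.σ P r = BN.wp P (a ++ t2).reverse * w * BN.wp P l₂' := by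
          rw [hur, e2, stb_wp_reverse]
          simp only [BN.wp_append, stb_wp_reverse, hm]
          group
        refine ⟨(a ++ t2).reverse, l₂', hJ', h2, hnew, ?_⟩
        rw [← hnew]
        omega
    · have h3 := BN.len_lt_of_not_Q P hq
      have h4 := BN.len_mul_le P r u⁻¹
      rw [stb_len_inv] at h3 h4
      refine ⟨l₁', l₂' ++ [r], h1, ?_, ?_, ?_⟩
      · intro y hy
        rcases List.mem_append.mp hy with hy | hy
        · exact h2 y hy
        · rw [List.mem_singleton] at hy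
          rw [hy]; exact hr
      · rw [BN.wp_append, BN.wp_cons, BN.wp_nil, mul_one, ← mul_assoc, hu]
      · rw [BN.wp_append, BN.wp_cons, BN.wp_nil, mul_one, ← mul_assoc, hu, stb_len_mul_σ,
          List.length_append, List.length_singleton]
        omega

/-- an element of `W_J w W_K` without descents on either side is `w` -/
theorem stb_dc_unique (J K : Set G) (w w' : BN.W P) (hJ : StbMin P J w) (hK : StbMin P K w⁻¹)
    (hJ' : StbMin P J w') (hK' : StbMin P K w'⁻¹) (l₁ l₂ : List P.S)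
    (hl₁ : ∀ x ∈ l₁, (x : G) ∈ J) (hl₂ : ∀ x ∈ l₂, (x : G) ∈ K)
    (e : w' = BN.wp P l₁ * w * BN.wp P l₂) : w' = w := by
  obtain ⟨l₁', l₂', h1, h2, he, hlen⟩ := stb_dc_reduce P J K w hJ hK l₂ hl₂ l₁ hl₁
  rw [he] at e
  rw [← e] at hlen
  cases l₁' with
  | cons s t =>
    exfalso
    have hs : (s : G) ∈ J := h1 s (by simp)
    apply (stb_min_iff P J w').mp hJ' s hs
    rw [BN.Q_iff]
    have e2 : BN.σ P s * w' = BN.wp P t * w * BN.wp P l₂' := by
      rw [e, BN.wp_cons, mul_assoc, mul_assoc, BN.σ_mul_cancel, mul_assoc]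
    rw [e2]
    have h3 := stb_len_mul_wp_le P (BN.wp P t * w) l₂'
    have h4 := stb_len_wp_mul_le P t w
    simp only [List.length_cons] at hlen
    omega
  | nil =>
    rw [BN.wp_nil, one_mul] at e
    rw [List.length_nil, zero_add] at hlen
    rcases List.eq_nil_or_concat l₂' with rfl | ⟨l₂a, r, rfl⟩
    · rw [e, BN.wp_nil, mul_one]
    · exfalso
      rw [List.concat_eq_append] at e h2 hlen
      have hr : (r : G) ∈ K := h2 r (by simp)
      apply (stb_min_iff P K w'⁻¹).mp hK' r hr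
      rw [BN.Q_iff, ← stb_len_mul_σ, stb_len_inv]
      have e2 : w' * BN.σ P r = w * BN.wp P l₂a := by
        rw [e, BN.wp_append, BN.wp_cons, BN.wp_nil, mul_one, mul_assoc, mul_assoc,
          BN.σ_mul_self, mul_one]
      rw [e2]
      have h3 := stb_len_mul_wp_le P w l₂a
      simp only [List.length_append, List.length_singleton] at hlen
      omega

theorem stb_gp_mul_mem (J : Set G) : ∀ l : List P.S, (∀ x ∈ l, (x : G) ∈ J) →
    ∀ (u : BN.W P) (h : G), h ∈ BN.C P u →
    ∃ l' : List P.S, (∀ x ∈ l', (x : G) ∈ J) ∧ BN.gp P l * h ∈ BN.C P (BN.wp P l' * u) := by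
  intro l
  induction l with
  | nil =>
    intro _ u h hh
    exact ⟨[], by simp, by simpa using hh⟩
  | cons s l ih =>
    intro hl u h hh
    obtain ⟨l', hl', hmem⟩ := ih (fun x hx => hl x (List.mem_cons_of_mem _ hx)) u h hh
    rw [BN.gp_cons, mul_assoc]
    rcases BN.t3W P s hmem with h1 | h1
    · refine ⟨s :: l', ?_, ?_⟩
      · intro x hx
        rcases List.mem_cons.mp hx with rfl | hx
        · exact hl _ List.mem_cons_self
        · exact hl' x hx
      · rw [BN.wp_cons, mul_assoc]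
        exact h1
    · exact ⟨l', hl', h1⟩

theorem stb_parab_mul_mem (J : Set G) (hJ : J ⊆ P.S) (p : G)
    (hp : p ∈ P.B ⊔ Subgroup.closure J) (u : BN.W P) (h : G) (hh : h ∈ BN.C P u) :
    ∃ l' : List P.S, (∀ x ∈ l', (x : G) ∈ J) ∧ p * h ∈ BN.C P (BN.wp P l' * u) := by
  obtain ⟨l, hl, -, hg⟩ := BN.exists_word_of_mem_parabolic P hJ hp
  obtain ⟨b, hb, b', hb', e⟩ := BN.dc_of_mem_C P hg (BN.gp_mem_C P l)
  obtain ⟨l', hl', hmem⟩ := stb_gp_mul_mem P J l hl u (b' * h) (BN.C_mul_left P hb' hh)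
  refine ⟨l', hl', ?_⟩
  have e2 : p * h = b * (BN.gp P l * (b' * h)) := by rw [e]; group
  rw [e2]
  exact BN.C_mul_left P hb hmem

theorem stb_mem_mul_parab (K : Set G) (hK : K ⊆ P.S) (p : G)
    (hp : p ∈ P.B ⊔ Subgroup.closure K) (u : BN.W P) (h : G) (hh : h ∈ BN.C P u) :
    ∃ l' : List P.S, (∀ x ∈ l', (x : G) ∈ K) ∧ h * p ∈ BN.C P (u * BN.wp P l') := by
  obtain ⟨l', hl', hmem⟩ := stb_parab_mul_mem P K hK p⁻¹ (Subgroup.inv_mem _ hp) u⁻¹ h⁻¹
    (BN.C_inv P hh)
  refine ⟨l'.reverse, fun x hx => hl' x (List.mem_reverse.mp hx), ?_⟩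
  have h2 := BN.C_inv P hmem
  have e1 : (p⁻¹ * h⁻¹)⁻¹ = h * p := by group
  have e2 : (BN.wp P l' * u⁻¹)⁻¹ = u * BN.wp P l'.reverse := by
    rw [stb_wp_reverse]; group
  rw [e1, e2] at h2
  exact h2

/-- uniqueness of the cell without descents in a double coset `P_J g P_K` -/
theorem stb_dc_unique_G (J K : Set G) (hJS : J ⊆ P.S) (hKS : K ⊆ P.S) (w w' : BN.W P)
    (hJ : StbMin P J w) (hK : StbMin P K w⁻¹) (hJ' : StbMin P J w') (hK' : StbMin P K w'⁻¹)
    (g p p' : G) (hg : g ∈ BN.C P w) (hp : p ∈ P.B ⊔ Subgroup.closure J)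
    (hp' : p' ∈ P.B ⊔ Subgroup.closure K) (h : p * g * p' ∈ BN.C P w') : w' = w := by
  obtain ⟨l₁, hl₁, h1⟩ := stb_parab_mul_mem P J hJS p hp w g hg
  obtain ⟨l₂, hl₂, h2⟩ := stb_mem_mul_parab P K hKS p' hp' _ _ h1
  have e := BN.C_unique P h h2
  exact stb_dc_unique P J K w w' hJ hK hJ' hK' l₁ l₂ hl₁ hl₂ e

/-- existence of a cell without descents in a double coset `P_J g P_K` -/
theorem stb_dc_exists (J K : Set G) (g : G) :
    ∃ p ∈ P.B ⊔ Subgroup.closure J, ∃ p' ∈ P.B ⊔ Subgroup.closure K, ∃ w : BN.W P,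
      StbMin P J w ∧ StbMin P K w⁻¹ ∧ p * g * p' ∈ BN.C P w := by
  let A : Set ℕ := {k | ∃ p ∈ P.B ⊔ Subgroup.closure J, ∃ p' ∈ P.B ⊔ Subgroup.closure K,
    ∃ w : BN.W P, p * g * p' ∈ BN.C P w ∧ BN.len P w = k}
  have hne : A.Nonempty := by
    obtain ⟨w, hw⟩ := BN.exists_mem_C P (1 * g * 1)
    exact ⟨BN.len P w, 1, Subgroup.one_mem _, 1, Subgroup.one_mem _, w, hw, rfl⟩
  obtain ⟨p, hp, p', hp', w, hw, hk⟩ := Nat.sInf_mem hne
  refine ⟨p, hp, p', hp', w, ?_, ?_, hw⟩
  · intro l hl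
    rw [hk]
    apply Nat.sInf_le
    obtain ⟨n, hn, b, hb, b', hb', e⟩ := hw
    have hm : BN.gp P l ∈ Subgroup.closure J := BN.gp_mem_closure P l hl
    have h1 : ((⟨BN.gp P l, BN.gp_mem_N P l⟩ * n : P.N) : G) ∈
        BN.C P (BN.π P (⟨BN.gp P l, BN.gp_mem_N P l⟩ * n)) := BN.coe_mem_C P _
    rw [map_mul, BN.π_gp, hn] at h1
    refine ⟨BN.gp P l * b⁻¹ * p, ?_, p', hp', BN.wp P l * w, ?_, rfl⟩
    · exact Subgroup.mul_mem _ (Subgroup.mul_mem _ (le_sup_right (a := P.B) hm)
        (Subgroup.inv_mem _ (le_sup_left (a := P.B) hb))) hp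
    · have e2 : BN.gp P l * b⁻¹ * p * g * p' = BN.gp P l * (n : G) * b' := by
        have : BN.gp P l * b⁻¹ * p * g * p' = BN.gp P l * b⁻¹ * (p * g * p') := by group
        rw [this, e]; group
      rw [e2]
      exact BN.C_mul_right P hb' h1
  · intro l hl
    have hk' : BN.len P w⁻¹ = sInf A := by rw [stb_len_inv, hk]
    rw [hk']
    apply Nat.sInf_le
    obtain ⟨n, hn, b, hb, b', hb', e⟩ := hw
    have hm : BN.gp P l ∈ Subgroup.closure K := BN.gp_mem_closure P l hl
    have h1 : ((n * (⟨BN.gp P l, BN.gp_mem_N P l⟩ : P.N)⁻¹ : P.N) : G) ∈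
        BN.C P (BN.π P (n * (⟨BN.gp P l, BN.gp_mem_N P l⟩ : P.N)⁻¹)) := BN.coe_mem_C P _
    rw [map_mul, map_inv, BN.π_gp, hn] at h1
    refine ⟨p, hp, p' * b'⁻¹ * (BN.gp P l)⁻¹, ?_, w * (BN.wp P l)⁻¹, ?_, ?_⟩
    · exact Subgroup.mul_mem _ (Subgroup.mul_mem _ hp'
        (Subgroup.inv_mem _ (le_sup_left (a := P.B) hb')))
        (Subgroup.inv_mem _ (le_sup_right (a := P.B) hm))
    · have e2 : p * g * (p' * b'⁻¹ * (BN.gp P l)⁻¹) = b * ((n : G) * (BN.gp P l)⁻¹) := by
        have : p * g * (p' * b'⁻¹ * (BN.gp P l)⁻¹) = (p * g * p') * b'⁻¹ * (BN.gp P l)⁻¹ := by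
          group
        rw [this, e]; group
      rw [e2]
      exact BN.C_mul_left P hb h1
    · rw [← stb_len_inv P (w * (BN.wp P l)⁻¹), mul_inv_rev, inv_inv]

end

end Cfsg.Agent.Lib.helper11
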