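import Cfsg.Agent.Lib.helper11d.Stb6

/-! The orbits of `G` on `G/P_J × G/P_K`, and the alternating double sum of their numbers. -/

set_option autoImplicit false

namespace Cfsg.Agent.Lib.helper11

open Cfsg
open Cfsg.Agent.Lib.helper2

theorem stb_alt_indicator (rank : ℕ) (A : Finset ℕ) (hA : A ⊆ Finset.range rank) :
    ∑ J ∈ (Finset.range rank).powerset, (-1 : ℂ) ^ J.card * (if J ⊆ A then (1 : ℂ) else 0) =
      if A = ∅ then (1 : ℂ) else 0 := by
  classical
  have e1 : ∑ J ∈ (Finset.range rank).powerset,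
      (-1 : ℂ) ^ J.card * (if J ⊆ A then (1 : ℂ) else 0) =
      ∑ J ∈ A.powerset, (-1 : ℂ) ^ J.card := by
    have e0 : A.powerset = (Finset.range rank).powerset.filter (fun J => J ⊆ A) := by
      ext J
      rw [Finset.mem_filter, Finset.mem_powerset, Finset.mem_powerset]
      exact ⟨fun h => ⟨h.trans hA, h⟩, fun h => h.2⟩
    rw [e0, Finset.sum_filter]
    apply Finset.sum_congr rfl
    intro J _
    split_ifs <;> simp
  rw [e1]
  have e2 := Finset.sum_powerset_neg_one_pow_card (x := A)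
  have e3 : ∑ J ∈ A.powerset, (-1 : ℂ) ^ J.card =
      ((∑ J ∈ A.powerset, (-1 : ℤ) ^ J.card : ℤ) : ℂ) := by
    push_cast
    rfl
  rw [e3, e2]
  split_ifs <;> simp

section

variable {G : Type*} [Group G] (P : Cfsg.BNPair G)

/-- the `G`-orbits on `G/P_J × G/P_K` correspond to the elements of `W` without descents
on either side -/
theorem stb_orbit_card (J K : Set G) (hJS : J ⊆ P.S) (hKS : K ⊆ P.S) :
    Nat.card (MulAction.orbitRel.Quotient G
      ((G ⧸ (P.B ⊔ Subgroup.closure J)) × (G ⧸ (P.B ⊔ Subgroup.closure K)))) =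
    Nat.card {w : BN.W P // StbMin P J w ∧ StbMin P K w⁻¹} := by
  symm
  have hrep : ∀ w : BN.W P, ∃ g : G, g ∈ BN.C P w := by
    intro w
    obtain ⟨n, rfl⟩ := BN.π_surj P w
    exact ⟨n, BN.coe_mem_C P n⟩
  choose rep hrepC using hrep
  apply Nat.card_eq_of_bijective (fun w : {w : BN.W P // StbMin P J w ∧ StbMin P K w⁻¹} =>
    (Quotient.mk'' ((((1 : G) : G ⧸ (P.B ⊔ Subgroup.closure J))),
      ((rep w.1 : G) : G ⧸ (P.B ⊔ Subgroup.closure K))) :
      MulAction.orbitRel.Quotient G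
        ((G ⧸ (P.B ⊔ Subgroup.closure J)) × (G ⧸ (P.B ⊔ Subgroup.closure K)))))
  constructor
  · rintro ⟨w, hw1, hw2⟩ ⟨w', hw1', hw2'⟩ e
    have e' := Quotient.eq''.mp e
    rw [MulAction.orbitRel_apply] at e'
    obtain ⟨g, hg⟩ := e'
    have hg1 : ((g * 1 : G) : G ⧸ (P.B ⊔ Subgroup.closure J)) = ((1 : G) : G ⧸ _) :=
      congrArg Prod.fst hg
    have hg2 : ((g * rep w' : G) : G ⧸ (P.B ⊔ Subgroup.closure K)) = ((rep w : G) : G ⧸ _) :=
      congrArg Prod.snd hg
    rw [QuotientGroup.eq] at hg1 hg2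
    have hgP : g ∈ P.B ⊔ Subgroup.closure J := by
      have := Subgroup.inv_mem _ hg1
      simpa using this
    have hmem : g * rep w' * ((g * rep w')⁻¹ * rep w) ∈ BN.C P w := by
      rw [mul_inv_cancel_left]
      exact hrepC w
    have := stb_dc_unique_G P J K hJS hKS w' w hw1' hw2' hw1 hw2 (rep w') g _ (hrepC w') hgP
      hg2 hmem
    subst this
    rfl
  · intro o
    induction o using Quotient.inductionOn' with | h xy => ?_
    obtain ⟨x, y⟩ := xy
    induction x using QuotientGroup.induction_on with | H x => ?_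
    induction y using QuotientGroup.induction_on with | H y => ?_
    obtain ⟨p, hp, p', hp', w, hw1, hw2, hmem⟩ := stb_dc_exists P J K (x⁻¹ * y)
    refine ⟨⟨w, hw1, hw2⟩, ?_⟩
    apply Quotient.sound'
    rw [MulAction.orbitRel_apply]
    obtain ⟨b, hb, b', hb', e⟩ := BN.dc_of_mem_C P (hrepC w) hmem
    refine ⟨b * p * x⁻¹, ?_⟩
    apply Prod.ext
    · show ((b * p * x⁻¹ * x : G) : G ⧸ (P.B ⊔ Subgroup.closure J)) = ((1 : G) : G ⧸ _)
      rw [QuotientGroup.eq]
      have e2 : (b * p * x⁻¹ * x)⁻¹ * 1 = p⁻¹ * b⁻¹ := by group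
      rw [e2]
      exact Subgroup.mul_mem _ (Subgroup.inv_mem _ hp)
        (Subgroup.inv_mem _ (le_sup_left (a := P.B) hb))
    · show ((b * p * x⁻¹ * y : G) : G ⧸ (P.B ⊔ Subgroup.closure K)) = ((rep w : G) : G ⧸ _)
      rw [QuotientGroup.eq, e]
      have e2 : (b * p * x⁻¹ * y)⁻¹ * (b * (p * (x⁻¹ * y) * p') * b') = p' * b' := by group
      rw [e2]
      exact Subgroup.mul_mem _ hp' (le_sup_left (a := P.B) hb')

/-- the alternating double sum of the numbers of elements without descents -/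
theorem stb_norm_sum [Finite G] (rank : ℕ) (sOf : ℕ → G) (hS : ∀ j < rank, sOf j ∈ P.S)
    (hsurj : ∀ s ∈ P.S, ∃ j < rank, s = sOf j) (ω : BN.W P)
    (hω : ∀ w : BN.W P, (∀ s : P.S, BN.Q P s w) ↔ w = ω) (hinv : ω⁻¹ = ω) :
    ∑ J ∈ (Finset.range rank).powerset, ∑ K ∈ (Finset.range rank).powerset,
      (-1 : ℂ) ^ J.card * (-1 : ℂ) ^ K.card *
      (Nat.card {w : BN.W P // StbMin P {s | ∃ j ∈ J, j < rank ∧ s = sOf j} w ∧
        StbMin P {s | ∃ j ∈ K, j < rank ∧ s = sOf j} w⁻¹} : ℂ) = 1 := by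
  classical
  haveI : Finite (BN.W P) := inferInstanceAs (Finite (P.N ⧸ BN.T P))
  haveI : Fintype (BN.W P) := Fintype.ofFinite _
  let A : BN.W P → Finset ℕ := fun w =>
    (Finset.range rank).filter (fun j => ∀ hj : j < rank, ¬ BN.Q P ⟨sOf j, hS j hj⟩ w)
  have hAsub : ∀ w, A w ⊆ Finset.range rank := fun w => Finset.filter_subset _ _
  have hmin : ∀ (J : Finset ℕ), J ⊆ Finset.range rank → ∀ w : BN.W P,
      StbMin P {s | ∃ j ∈ J, j < rank ∧ s = sOf j} w ↔ J ⊆ A w := by
    intro J hJ w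
    rw [stb_min_iff]
    constructor
    · intro h j hj
      have hjr : j < rank := Finset.mem_range.mp (hJ hj)
      simp only [A, Finset.mem_filter, Finset.mem_range]
      exact ⟨hjr, fun hj' => h ⟨sOf j, hS j hj'⟩ ⟨j, hj, hjr, rfl⟩⟩
    · rintro h ⟨s, hs⟩ ⟨j, hj, hjr, e⟩
      have := h hj
      simp only [A, Finset.mem_filter, Finset.mem_range] at this
      have h2 := this.2 hjr
      have e2 : (⟨s, hs⟩ : P.S) = ⟨sOf j, hS j hjr⟩ := Subtype.ext e
      rw [e2]
      exact h2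
  have hAempty : ∀ w : BN.W P, A w = ∅ ↔ w = ω := by
    intro w
    rw [← hω w]
    simp only [A, Finset.filter_eq_empty_iff, Finset.mem_range]
    constructor
    · intro h s
      obtain ⟨j, hj, hs⟩ := hsurj s s.2
      have := h hj
      by_contra hq
      apply this
      intro hj'
      have e2 : s = ⟨sOf j, hS j hj'⟩ := Subtype.ext hs
      rw [← e2]
      exact hq
    · intro h j hj hcon
      exact hcon hj (h _)
  have h1 : ∀ J ∈ (Finset.range rank).powerset, ∀ K ∈ (Finset.range rank).powerset,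
      (-1 : ℂ) ^ J.card * (-1 : ℂ) ^ K.card *
      (Nat.card {w : BN.W P // StbMin P {s | ∃ j ∈ J, j < rank ∧ s = sOf j} w ∧
        StbMin P {s | ∃ j ∈ K, j < rank ∧ s = sOf j} w⁻¹} : ℂ) =
      ∑ w : BN.W P, ((-1 : ℂ) ^ J.card * (if J ⊆ A w then (1 : ℂ) else 0)) *
        ((-1 : ℂ) ^ K.card * (if K ⊆ A w⁻¹ then (1 : ℂ) else 0)) := by
    intro J hJ K hK
    rw [Finset.mem_powerset] at hJ hK
    rw [Nat.card_congr (Equiv.subtypeEquivRight
      (fun w => and_congr (hmin J hJ w) (hmin K hK w⁻¹))), Nat.card_eq_fintype_card,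
      Fintype.card_subtype, Finset.natCast_card_filter, Finset.mul_sum]
    apply Finset.sum_congr rfl
    intro w _
    by_cases hj : J ⊆ A w <;> by_cases hk : K ⊆ A w⁻¹ <;> simp [hj, hk]
  rw [Finset.sum_congr rfl (fun J hJ => Finset.sum_congr rfl (fun K hK => h1 J hJ K hK))]
  rw [Finset.sum_congr rfl (fun J _ => Finset.sum_comm)]
  rw [Finset.sum_comm]
  have h2 : ∀ w : BN.W P, ∑ J ∈ (Finset.range rank).powerset,
      ∑ K ∈ (Finset.range rank).powerset,
        ((-1 : ℂ) ^ J.card * (if J ⊆ A w then (1 : ℂ) else 0)) *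
        ((-1 : ℂ) ^ K.card * (if K ⊆ A w⁻¹ then (1 : ℂ) else 0)) =
      if w = ω then (1 : ℂ) else 0 := by
    intro w
    rw [← Finset.sum_mul_sum, stb_alt_indicator rank (A w) (hAsub w),
      stb_alt_indicator rank (A w⁻¹) (hAsub w⁻¹)]
    by_cases hw : w = ω
    · have hw' : w⁻¹ = ω := by rw [hw, hinv]
      rw [if_pos ((hAempty w).mpr hw), if_pos ((hAempty w⁻¹).mpr hw'), if_pos hw, mul_one]
    · rw [if_neg (fun h => hw ((hAempty w).mp h)), if_neg hw, zero_mul]
  rw [Finset.sum_congr rfl (fun w _ => h2 w)]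
  simp

end

end Cfsg.Agent.Lib.helper11
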