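import Cfsg.Agent.Lib.helper11d.Stb7
import Cfsg.Agent.Lib.helper24.CharTwoTrans

/-! The norm of the alternating sum of the permutation characters on the parabolic subgroups
of a (B,N)-pair with a longest element. -/

set_option autoImplicit false

namespace Cfsg.Agent.Lib.helper11

open Cfsg
open Cfsg.Agent.Lib.helper2
open Cfsg.Agent.Lib.helper24
open scoped ComplexConjugate

universe u

/-- A generalized character of norm one and positive degree is irreducible. -/
theorem stb_genChar_irr {G : Type u} [Group G] [Fintype G] {χ : G → ℂ}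
    (hgen : IsGeneralizedCharacter G χ) (h1 : classInner χ χ = 1) (hpos : 0 < (χ 1).re) :
    IsIrrCharacter G χ := by
  classical
  have := Fintype.ofFinite (IrrCharacter G)
  obtain ⟨χ₁, ψ₁, hχ₁, hψ₁, rfl⟩ := hgen
  have hcl : IsClassFunction G (χ₁ - ψ₁) :=
    isClassFunction_sub (isCharacter_conj_class hχ₁) (isCharacter_conj_class hψ₁)
  have hc : ∀ φ : IrrCharacter G, ∃ z : ℤ, classInner (χ₁ - ψ₁) φ.1 = z := by
    intro φ
    obtain ⟨a, ha⟩ := isCharacter_inner_irr_nat hχ₁ φ
    obtain ⟨b, hb⟩ := isCharacter_inner_irr_nat hψ₁ φ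
    refine ⟨(a : ℤ) - b, ?_⟩
    rw [classInner_sub_left, ha, hb]
    push_cast
    rfl
  choose c hc using hc
  have hexp := classFunction_expansion hcl
  have hnorm : ∑ φ : IrrCharacter G, c φ ^ 2 = 1 := by
    have : classInner (χ₁ - ψ₁) (χ₁ - ψ₁) = ((∑ φ : IrrCharacter G, c φ ^ 2 : ℤ) : ℂ) := by
      conv_lhs => rhs; rw [hexp]
      rw [classInner_sum_right]
      push_cast
      apply Finset.sum_congr rfl
      intro φ _
      rw [classInner_smul_right, hc]
      simp
      ring
    rw [this] at h1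
    exact_mod_cast h1
  have hex : ∃ a, c a ≠ 0 := by
    by_contra hne
    push Not at hne
    rw [Finset.sum_eq_zero (fun i _ => by rw [hne i]; ring)] at hnorm
    exact zero_ne_one hnorm
  obtain ⟨a, ha⟩ := hex
  have hrest : ∀ i, i ≠ a → c i = 0 := by
    intro i hia
    by_contra h0
    have h2 : c a ^ 2 + c i ^ 2 ≤ ∑ φ, c φ ^ 2 := by
      have h5 : ∑ φ ∈ ({a, i} : Finset (IrrCharacter G)), c φ ^ 2 = c a ^ 2 + c i ^ 2 :=
        Finset.sum_pair hia.symm
      rw [← h5]
      apply Finset.sum_le_sum_of_subset_of_nonneg (Finset.subset_univ _)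
      intro j _ _
      positivity
    have h3 : 0 < c a ^ 2 := by positivity
    have h4 : 0 < c i ^ 2 := by positivity
    omega
  have hca : c a ^ 2 = 1 := by
    rw [← hnorm]
    symm
    apply Finset.sum_eq_single a
    · intro b _ hb
      rw [hrest b hb]
      ring
    · intro h
      exact absurd (Finset.mem_univ a) h
  have hτ : χ₁ - ψ₁ = (c a : ℂ) • a.1 := by
    conv_lhs => rw [hexp]
    rw [Finset.sum_eq_single a]
    · rw [hc]
    · intro b _ hb
      rw [hc, hrest b hb]
      simp
    · intro h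
      exact absurd (Finset.mem_univ a) h
  have hca' : c a = 1 ∨ c a = -1 := by
    have : (c a - 1) * (c a + 1) = 0 := by nlinarith
    rcases mul_eq_zero.mp this with h | h
    · left; omega
    · right; omega
  rcases hca' with h | h
  · rw [hτ, h]
    simp only [Int.cast_one, one_smul]
    exact a.2
  · exfalso
    obtain ⟨n, hn, hn1⟩ := isIrrCharacter_one a.2
    rw [hτ, h] at hpos
    simp only [Int.cast_neg, Int.cast_one, neg_smul, one_smul, Pi.neg_apply, hn1,
      Complex.neg_re, Complex.natCast_re] at hpos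
    have : (0 : ℝ) < n := by exact_mod_cast hn
    linarith


theorem stb_card_fixedBy_prod {G : Type*} [Group G] {X Y : Type*} [MulAction G X]
    [MulAction G Y] (g : G) :
    Nat.card (MulAction.fixedBy (X × Y) g) =
      Nat.card (MulAction.fixedBy X g) * Nat.card (MulAction.fixedBy Y g) := by
  rw [← Nat.card_prod]
  apply Nat.card_congr
  exact
    { toFun := fun p => (⟨p.1.1, congrArg Prod.fst p.2⟩, ⟨p.1.2, congrArg Prod.snd p.2⟩)
      invFun := fun q => ⟨(q.1.1, q.2.1), Prod.ext q.1.2 q.2.2⟩
      left_inv := fun p => rfl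
      right_inv := fun q => rfl }

/-- an alternating sum of permutation characters is a generalized character -/
theorem stb_alt_genChar {G : Type u} [Group G] [Finite G] {ι : Type*} (s : Finset ι)
    (c : ι → ℕ) (H : ι → Subgroup G) :
    IsGeneralizedCharacter G (fun g => ∑ J ∈ s, (-1 : ℂ) ^ (c J) *
      (Nat.card (MulAction.fixedBy (G ⧸ H J) g) : ℂ)) := by
  classical
  refine ⟨∑ J ∈ s.filter (fun J => Even (c J)),
      (fun g => (Nat.card (MulAction.fixedBy (G ⧸ H J) g) : ℂ)),
    ∑ J ∈ s.filter (fun J => ¬ Even (c J)),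
      (fun g => (Nat.card (MulAction.fixedBy (G ⧸ H J) g) : ℂ)), ?_, ?_, ?_⟩
  · exact isCharacter_finset_sum _ _ (fun J _ => permChar_isCharacter (G ⧸ H J))
  · exact isCharacter_finset_sum _ _ (fun J _ => permChar_isCharacter (G ⧸ H J))
  · funext g
    simp only [Pi.sub_apply, Finset.sum_apply]
    rw [← Finset.sum_filter_add_sum_filter_not s (fun J => Even (c J))]
    rw [sub_eq_add_neg, ← Finset.sum_neg_distrib]
    congr 1
    · apply Finset.sum_congr rfl
      intro J hJ
      rw [Even.neg_one_pow (Finset.mem_filter.mp hJ).2, one_mul]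
    · apply Finset.sum_congr rfl
      intro J hJ
      rw [Odd.neg_one_pow (Nat.not_even_iff_odd.mp (Finset.mem_filter.mp hJ).2), neg_one_mul]

/-- the permutation character on the cosets of the parabolic subgroup of a set of indices -/
noncomputable def stbF {G : Type u} [Group G] (P : Cfsg.BNPair G) (rank : ℕ) (sOf : ℕ → G)
    (J : Finset ℕ) (g : G) : ℂ :=
  (Nat.card (MulAction.fixedBy
    (G ⧸ (P.B ⊔ Subgroup.closure {s | ∃ j ∈ J, j < rank ∧ s = sOf j})) g) : ℂ)

/-- the alternating sum has norm one -/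
theorem stb_norm_one {G : Type u} [Group G] [Fintype G] (P : Cfsg.BNPair G) (rank : ℕ)
    (sOf : ℕ → G) (hS : ∀ j < rank, sOf j ∈ P.S) (hsurj : ∀ s ∈ P.S, ∃ j < rank, s = sOf j)
    (ω : BN.W P) (hω : ∀ w : BN.W P, (∀ s : P.S, BN.Q P s w) ↔ w = ω) (hinv : ω⁻¹ = ω)
    (φ : G → ℂ) (hφ : ∀ g, φ g = ∑ J ∈ (Finset.range rank).powerset,
      (-1 : ℂ) ^ J.card * stbF P rank sOf J g) :
    classInner φ φ = 1 := by
  classical
  unfold classInner
  have hconj : ∀ g, conj (φ g) = φ g := by
    intro g
    rw [hφ g, map_sum]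
    apply Finset.sum_congr rfl
    intro J _
    unfold stbF
    rw [map_mul, map_pow, map_neg, map_one, map_natCast]
  have hG : (Nat.card G : ℂ) ≠ 0 := by
    exact_mod_cast (Nat.card_pos (α := G)).ne'
  have hsub : ∀ J ∈ (Finset.range rank).powerset,
      {s | ∃ j ∈ J, j < rank ∧ s = sOf j} ⊆ P.S := by
    rintro J _ s ⟨j, hj, hjr, rfl⟩
    exact hS j hjr
  have hJK : ∀ J ∈ (Finset.range rank).powerset, ∀ K ∈ (Finset.range rank).powerset,
      ∑ g : G, stbF P rank sOf J g * stbF P rank sOf K g =
      (Nat.card {w : BN.W P // StbMin P {s | ∃ j ∈ J, j < rank ∧ s = sOf j} w ∧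
        StbMin P {s | ∃ j ∈ K, j < rank ∧ s = sOf j} w⁻¹} : ℂ) * (Nat.card G : ℂ) := by
    intro J hJ K hK
    rw [← stb_orbit_card P _ _ (hsub J hJ) (hsub K hK), ← sum_card_fixedBy]
    apply Finset.sum_congr rfl
    intro g _
    unfold stbF
    rw [stb_card_fixedBy_prod]
    push_cast
    rfl
  have hsum : ∑ g : G, φ g * conj (φ g) = (Nat.card G : ℂ) := by
    calc ∑ g : G, φ g * conj (φ g)
        = ∑ g : G, ∑ J ∈ (Finset.range rank).powerset, ∑ K ∈ (Finset.range rank).powerset,
            ((-1 : ℂ) ^ J.card * stbF P rank sOf J g) *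
            ((-1 : ℂ) ^ K.card * stbF P rank sOf K g) := by
          apply Finset.sum_congr rfl
          intro g _
          rw [hconj, hφ g, Finset.sum_mul_sum]
      _ = ∑ J ∈ (Finset.range rank).powerset, ∑ K ∈ (Finset.range rank).powerset,
            ((-1 : ℂ) ^ J.card * (-1 : ℂ) ^ K.card *
            (Nat.card {w : BN.W P // StbMin P {s | ∃ j ∈ J, j < rank ∧ s = sOf j} w ∧
              StbMin P {s | ∃ j ∈ K, j < rank ∧ s = sOf j} w⁻¹} : ℂ)) * (Nat.card G : ℂ) := by
          rw [Finset.sum_comm]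
          apply Finset.sum_congr rfl
          intro J hJ
          rw [Finset.sum_comm]
          apply Finset.sum_congr rfl
          intro K hK
          rw [mul_assoc, ← hJK J hJ K hK, Finset.mul_sum]
          apply Finset.sum_congr rfl
          intro g _
          ring
      _ = (Nat.card G : ℂ) := by
          simp_rw [← Finset.sum_mul]
          rw [stb_norm_sum P rank sOf hS hsurj ω hω hinv, one_mul]
  rw [hsum, inv_mul_cancel₀ hG]

end Cfsg.Agent.Lib.helper11
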