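import Cfsg.Agent.Lib.helper11d.Stb8
import Cfsg.Agent.Lib.helper11d.Stb5
import Cfsg.Agent.S2327

/-! The Steinberg character of a Chevalley group is irreducible. -/

set_option autoImplicit false

namespace Cfsg.Agent.Lib.helper11

open Cfsg Cfsg.Lie
open Cfsg.Agent.Lib.helper2

theorem stb_irr {F : Type*} [Field F] [Fintype F] (D : ChevalleyDatum)
    (hD : D ∈ [chevG2, chevB2, chevD4, chevF4, chevE6, chevE7, chevE8]) :
    IsIrrCharacter ↥(D.group F) (D.steinbergCharacter F) := by
  classical
  haveI : Fintype ↥(D.group F) := Fintype.ofFinite _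
  have ce := certs_of_mem F D hD
  obtain ⟨P, hP⟩ := exists_stdBN (F := F) D hD ce
  obtain ⟨l₀, hl0, hrow⟩ := w0_of_mem D hD
  have hl₀ : ∀ i ∈ l₀, i < D.rank := by
    intro i hi
    rw [List.all_eq_true] at hl0
    simpa using hl0 i hi
  have h1 : ∀ r, D.IsPosRoot r → D.IsNegRoot (wAct D l₀ r) := by
    intro r hr
    have := hrow r hr.1
    unfold w0Row at this
    simp only [Bool.and_eq_true, Bool.or_eq_true, Bool.not_eq_true', decide_eq_false_iff_not,
      decide_eq_true_eq] at this
    rcases this.1 with h | h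
    · exact absurd hr h
    · exact h
  have h2 : ∀ s, D.IsNegRoot s → ∃ r, D.IsPosRoot r ∧ wAct D l₀ r = s := by
    intro s hs
    have := hrow s hs.1
    unfold w0Row at this
    simp only [Bool.and_eq_true, Bool.or_eq_true, Bool.not_eq_true', decide_eq_false_iff_not,
      decide_eq_true_eq, nbeq_iff] at this
    rcases this.2 with h | h
    · exact absurd hs h
    · exact ⟨_, h.1, h.2⟩
  have hlen := stb_len_w0 D hD P hP ce l₀ hl₀ h1 h2
  obtain ⟨hinv, hω⟩ := stb_longest P _ _ hlen
  have hφ : ∀ g, D.steinbergCharacter F g = ∑ J ∈ (Finset.range D.rank).powerset,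
      (-1 : ℂ) ^ J.card * stbF P D.rank (sG D hD) J g := by
    intro g
    unfold ChevalleyDatum.steinbergCharacter Cfsg.fixedPointCharacter stbF
    apply Finset.sum_congr rfl
    intro J _
    rw [stb_parabolicIn D hD P hP J]
  apply stb_genChar_irr
  · exact stb_alt_genChar (G := ↥(D.group F)) (Finset.range D.rank).powerset Finset.card
      (fun J => D.parabolicIn F J)
  · exact stb_norm_one P D.rank (sG D hD) (fun j hj => sG_mem_S hD hP j hj)
      (fun s hs => exists_of_mem_S hD hP s hs) _ hω hinv _ hφ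
  · rw [Cfsg.Agent.S2327.result D hD]
    have e : ((Fintype.card F : ℂ) ^ (D.nroots / 2)) =
        (((Fintype.card F) ^ (D.nroots / 2) : ℕ) : ℂ) := by
      push_cast
      rfl
    rw [e, Complex.natCast_re]
    exact_mod_cast Nat.pos_of_ne_zero (pow_ne_zero _ Fintype.card_ne_zero)

end Cfsg.Agent.Lib.helper11
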